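import Cfsg.Agent.H52.SrDefs

/-!
# SR-PERM (for helper52's mini-project SR of S2951 / S2952)

A subgroup `A` generated by elements of odd order, normalizing every member of a family of
subgroups of order 4 generating `V`, with `[V, A]` of order 4, has `[V, A]` in the family.
-/

set_option autoImplicit false

namespace Cfsg.Agent.H6.Sr

universe u

/-- An element `y` of odd order normalizing a subgroup `W` of order 4 and not centralizing it
fixes no nontrivial element of `W`. -/
theorem fpf_of_card_four {X : Type u} [Group X] [Finite X] (W : Subgroup X) (y : X)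
    (hcard : Nat.card ↥W = 4) (hy : Odd (orderOf y))
    (hn : ∀ w ∈ W, y * w * y⁻¹ ∈ W) (w0 : X) (hw0 : w0 ∈ W) (hne : y * w0 * y⁻¹ ≠ w0) :
    ∀ w ∈ W, y * w * y⁻¹ = w → w = 1 := by
  intro w hw hfix
  by_contra hw1
  -- the four elements 1, w, w0, w0 * w
  have hw0w : w0 ≠ w := by
    rintro rfl; exact hne hfix
  have hw01 : w0 ≠ 1 := by
    rintro rfl; apply hne; simp
  have hww : w0 * w ∈ W := W.mul_mem hw0 hw
  have h4 : ∀ x ∈ W, x = 1 ∨ x = w ∨ x = w0 ∨ x = w0 * w := by
    classical
    let s : Finset X := {1, w, w0, w0 * w}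
    have hs : s.card = 4 := by
      have e1 : (1 : X) ∉ ({w, w0, w0 * w} : Finset X) := by
        simp only [Finset.mem_insert, Finset.mem_singleton, not_or]
        refine ⟨fun h => hw1 h.symm, fun h => hw01 h.symm, fun h => ?_⟩
        apply hne
        have : w0 = w⁻¹ := eq_inv_of_mul_eq_one_left h.symm
        rw [this]
        have h2 : y * w⁻¹ * y⁻¹ = (y * w * y⁻¹)⁻¹ := by group
        rw [h2, hfix]
      have e2 : w ∉ ({w0, w0 * w} : Finset X) := by
        simp only [Finset.mem_insert, Finset.mem_singleton, not_or]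
        refine ⟨fun h => hw0w h.symm, fun h => ?_⟩
        apply hw01
        have : w0 * w = 1 * w := by rw [one_mul]; exact h.symm
        exact mul_right_cancel this
      have e3 : w0 ∉ ({w0 * w} : Finset X) := by
        simp only [Finset.mem_singleton]
        intro h
        apply hw1
        have : w0 * 1 = w0 * w := by rw [mul_one]; exact h
        exact (mul_left_cancel this).symm
      simp only [s]
      rw [Finset.card_insert_of_notMem e1, Finset.card_insert_of_notMem e2,
        Finset.card_insert_of_notMem e3, Finset.card_singleton]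
    have hsub : (s : Set X) ⊆ (W : Set X) := by
      intro x hx
      simp only [s, Finset.coe_insert, Finset.coe_singleton, Set.mem_insert_iff,
        Set.mem_singleton_iff] at hx
      rcases hx with rfl | rfl | rfl | rfl
      · exact W.one_mem
      · exact hw
      · exact hw0
      · exact hww
    have hWn : (W : Set X).ncard = 4 := by
      rw [← hcard]; rfl
    have heq : (s : Set X) = (W : Set X) := by
      apply Set.eq_of_subset_of_ncard_le hsub _ (Set.toFinite _)
      rw [hWn, Set.ncard_coe_finset, hs]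
    intro x hx
    have : x ∈ (s : Set X) := by rw [heq]; exact hx
    simpa [s] using this
  -- the image of w0
  have hyw0 : y * w0 * y⁻¹ = w0 * w := by
    rcases h4 _ (hn w0 hw0) with h | h | h | h
    · exfalso; apply hw01
      have : w0 = y⁻¹ * (y * w0 * y⁻¹) * y := by group
      rw [this, h]; group
    · exfalso; apply hw0w
      have : y * w0 * y⁻¹ = y * w * y⁻¹ := by rw [h, hfix]
      exact mul_left_cancel (mul_right_cancel this)
    · exact absurd h hne
    · exact h
  -- w * w = 1
  have hfix2 : y * (w * w) * y⁻¹ = w * w := by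
    have : y * (w * w) * y⁻¹ = (y * w * y⁻¹) * (y * w * y⁻¹) := by group
    rw [this, hfix]
  have hwsq : w * w = 1 := by
    rcases h4 _ (W.mul_mem hw hw) with h | h | h | h
    · exact h
    · exfalso; apply hw1
      have : w * w = w * 1 := by rw [mul_one]; exact h
      exact mul_left_cancel this
    · exfalso; apply hne; rw [← h]; exact hfix2
    · exfalso; apply hw0w
      exact (mul_right_cancel h).symm
  -- y^2 commutes with w0
  have hsq : y * (y * w0 * y⁻¹) * y⁻¹ = w0 := by
    rw [hyw0]
    have : y * (w0 * w) * y⁻¹ = (y * w0 * y⁻¹) * (y * w * y⁻¹) := by group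
    rw [this, hyw0, hfix, mul_assoc, hwsq, mul_one]
  -- conjugation by y ^ (2 * k) fixes w0
  have hpow : ∀ k : ℕ, y ^ (2 * k) * w0 * (y ^ (2 * k))⁻¹ = w0 := by
    intro k
    induction k with
    | zero => simp
    | succ k ih =>
      have e : y ^ (2 * (k + 1)) = y * y * y ^ (2 * k) := by
        rw [show 2 * (k + 1) = 2 + 2 * k by ring, pow_add, pow_two]
      rw [e]
      have : y * y * y ^ (2 * k) * w0 * (y * y * y ^ (2 * k))⁻¹
          = y * (y * (y ^ (2 * k) * w0 * (y ^ (2 * k))⁻¹) * y⁻¹) * y⁻¹ := by group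
      rw [this, ih, hsq]
  obtain ⟨k, hk⟩ := hy
  apply hne
  have h1 : y ^ (2 * k + 1) = 1 := by rw [← hk]; exact pow_orderOf_eq_one y
  have h2 : y ^ (2 * k + 1) * w0 * (y ^ (2 * k + 1))⁻¹ = y * w0 * y⁻¹ := by
    have e : y ^ (2 * k + 1) = y * y ^ (2 * k) := by rw [pow_succ']
    rw [e]
    have : y * y ^ (2 * k) * w0 * (y * y ^ (2 * k))⁻¹
        = y * (y ^ (2 * k) * w0 * (y ^ (2 * k))⁻¹) * y⁻¹ := by group
    rw [this, hpow k]
  rw [← h2, h1]; simp

theorem perm : Cfsg.Agent.H52.Sr.StPerm.{u} := by
  intro X _ _ ι V W A hsup hcard hgen hnorm hVA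
  -- some odd-order element of `A` moves some `W i`
  have h1 : ∃ y ∈ A, Odd (orderOf y) ∧ ∃ i, ∃ w ∈ W i, y * w * y⁻¹ ≠ w := by
    by_contra h
    push Not at h
    have hAc : A ≤ Subgroup.centralizer (V : Set X) := by
      rw [← hgen, Subgroup.closure_le]
      rintro y ⟨hyA, hyo⟩
      have hVy : V ≤ Subgroup.centralizer ({y} : Set X) := by
        rw [← hsup, iSup_le_iff]
        intro i w hw
        rw [Subgroup.mem_centralizer_iff]
        intro z hz
        rw [Set.mem_singleton_iff] at hz
        subst hz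
        have h3 := h z hyA hyo i w hw
        have : z * w = z * w * z⁻¹ * z := by group
        rw [this, h3]
      rw [SetLike.mem_coe, Subgroup.mem_centralizer_iff]
      intro v hv
      have h3 := hVy hv
      rw [Subgroup.mem_centralizer_iff] at h3
      exact (h3 y (Set.mem_singleton y)).symm
    have hbot : ⁅V, A⁆ = ⊥ := by
      rw [Subgroup.commutator_comm, Subgroup.commutator_eq_bot_iff_le_centralizer]
      exact hAc
    rw [hbot] at hVA
    simp at hVA
  obtain ⟨y, hyA, hyo, i, w0, hw0, hne⟩ := h1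
  refine ⟨i, ?_⟩
  have hWV : W i ≤ V := by rw [← hsup]; exact le_iSup W i
  have hn : ∀ w ∈ W i, y * w * y⁻¹ ∈ W i := by
    intro w hw
    have := hnorm i hyA
    rw [Subgroup.mem_normalizer_iff] at this
    exact (this w).1 hw
  have hfpf := fpf_of_card_four (W i) y (hcard i) hyo hn w0 hw0 hne
  -- the map w ↦ w * y * w⁻¹ * y⁻¹ ... is injective on `W i` with values in `W i ⊓ ⁅V, A⁆`
  have hle : W i ≤ ⁅V, A⁆ := by
    classical
    -- φ w = ⁅w, y⁆ = w * y * w⁻¹ * y⁻¹
    have hφmem : ∀ w ∈ W i, w * y * w⁻¹ * y⁻¹ ∈ W i := by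
      intro w hw
      have : w * y * w⁻¹ * y⁻¹ = w * (y * w⁻¹ * y⁻¹) := by group
      rw [this]
      exact (W i).mul_mem hw (hn _ ((W i).inv_mem hw))
    have hφc : ∀ w ∈ W i, w * y * w⁻¹ * y⁻¹ ∈ ⁅V, A⁆ := by
      intro w hw
      have := Subgroup.commutator_mem_commutator (hWV hw) hyA
      rwa [commutatorElement_def] at this
    have hφinj : ∀ a ∈ W i, ∀ b ∈ W i,
        a * y * a⁻¹ * y⁻¹ = b * y * b⁻¹ * y⁻¹ → a = b := by
      intro a ha b hb hab
      have hfix : y * (a⁻¹ * b) * y⁻¹ = a⁻¹ * b := by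
        have e1 : y * a⁻¹ * y⁻¹ = a⁻¹ * (a * y * a⁻¹ * y⁻¹) := by group
        have e2 : y * b * y⁻¹ = (b * y * b⁻¹ * y⁻¹)⁻¹ * b := by group
        have : y * (a⁻¹ * b) * y⁻¹ = (y * a⁻¹ * y⁻¹) * (y * b * y⁻¹) := by group
        rw [this, e1, e2, hab]
        group
      have := hfpf _ ((W i).mul_mem ((W i).inv_mem ha) hb) hfix
      exact inv_mul_eq_one.mp this
    let f : ↥(W i) → ↥(W i) := fun w => ⟨(w : X) * y * (w : X)⁻¹ * y⁻¹, hφmem w w.2⟩
    have hfinj : Function.Injective f := by
      intro a b hab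
      have := congrArg Subtype.val hab
      exact Subtype.ext (hφinj a a.2 b b.2 this)
    have hfsurj : Function.Surjective f := Finite.surjective_of_injective hfinj
    intro x hx
    obtain ⟨w, hw⟩ := hfsurj ⟨x, hx⟩
    have := congrArg Subtype.val hw
    simp only [f] at this
    rw [← this]
    exact hφc w w.2
  symm
  apply SetLike.coe_injective
  apply Set.eq_of_subset_of_ncard_le hle _ (Set.toFinite _)
  have e1 : ((⁅V, A⁆ : Subgroup X) : Set X).ncard = 4 := by rw [← hVA]; rfl
  have e2 : ((W i : Subgroup X) : Set X).ncard = 4 := by rw [← hcard i]; rfl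
  rw [e1, e2]

example : Cfsg.Agent.H52.Sr.StPerm.{u} := perm.{u}

end Cfsg.Agent.H6.Sr
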