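import Cfsg.Agent.H33.LCo3Simple

/-!
# The Conway group Co3 on the table of 552 vectors: first definitions for S2071 (helper6)

`Co3std` is the stabiliser of `a48`; it permutes the 552 table vectors
`vec (fldW 192 LF552E j)`. The `St*` propositions are pieces of the team project.
-/

set_option autoImplicit false

namespace Cfsg.Agent.H6.Co3

open Cfsg Cfsg.Agent.H9 Cfsg.Agent.H93 Cfsg.Agent.H33

/-- the standard copy of the Conway group Co3: the stabiliser of `a48` -/
abbrev Co3std : Subgroup ↥Co0 := MulAction.stabilizer ↥Co0 a48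

/-- the lattice automorphism `g` acts on the table of 552 vectors as the permutation `p` -/
def ActsAs (g : ↥Co0) (p : Equiv.Perm (Fin 552)) : Prop :=
  ∀ (j : Fin 552) (v : leechLattice), (v : GolayPt → ℤ) = vec (fldW 192 LF552E j.val) →
    ((g • v : leechLattice) : GolayPt → ℤ) = vec (fldW 192 LF552E (p j).val)

/-- piece CO3-ISO: the group of the definitions is isomorphic to the standard copy -/
def StIso : Prop := Nonempty (↥Cfsg.Spor.Co3 ≃* ↥Co3std)

/-- piece CO3-SIMPLE: the standard copy is simple of order 495766656000 -/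
def StSimple : Prop := IsSimpleGroup ↥Co3std ∧ Nat.card ↥Co3std = 495766656000

/-- piece CO3-RHO: the action of the standard copy on the table, as a homomorphism -/
def StRho : Prop := ∃ ρ : ↥Co3std →* Equiv.Perm (Fin 552),
  (∀ g : ↥Co3std, ActsAs g.1 (ρ g)) ∧
    ∀ (g : ↥Co3std) (p : Equiv.Perm (Fin 552)), ActsAs g.1 p → ρ g = p

end Cfsg.Agent.H6.Co3
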