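import Mathlib
import Cfsg.Agent.H6.L29Check
import Cfsg.Agent.H6.SLTransfer
import Cfsg.Agent.H6.Order12
import Cfsg.Agent.S0243

/-! `PSL₂(9) ≅ A₆` via an explicit table-checked homomorphism (helper6). -/

set_option autoImplicit false

namespace Cfsg.Agent.H6.L29

lemma det_entries (X : Matrix (Fin 2) (Fin 2) GF9) (hX : X.det = 1) :
    X 0 0 * X 1 1 - X 0 1 * X 1 0 = 1 := by
  rw [← Matrix.det_fin_two]; exact hX

lemma hA' (X : Matrix (Fin 2) (Fin 2) GF9) (hX : X.det = 1) :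
    f₀ (Amat * X) = decP 5917 * f₀ X := by
  have := hA _ _ _ _ (det_entries X hX)
  rwa [← Matrix.eta_fin_two X] at this

lemma hA2' (X : Matrix (Fin 2) (Fin 2) GF9) (hX : X.det = 1) :
    f₀ (A2mat * X) = decP 7422 * f₀ X := by
  have := hA2 _ _ _ _ (det_entries X hX)
  rwa [← Matrix.eta_fin_two X] at this

lemma hB' (X : Matrix (Fin 2) (Fin 2) GF9) (hX : X.det = 1) :
    f₀ (Bmat * X) = decP 5923 * f₀ X := by
  have := hB _ _ _ _ (det_entries X hX)
  rwa [← Matrix.eta_fin_two X] at this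

lemma hdesc' (X : Matrix (Fin 2) (Fin 2) GF9) (hX : X.det = 1) :
    idx X = 0 ∨ idx (Ainv * X) < idx X ∨ idx (A2inv * X) < idx X ∨ idx (Binv * X) < idx X := by
  have := hdesc _ _ _ _ (det_entries X hX)
  rwa [← Matrix.eta_fin_two X] at this

lemma hzero' (X : Matrix (Fin 2) (Fin 2) GF9) (hX : X.det = 1) (h0 : idx X = 0) :
    X = 1 := by
  have h1 : idx !![X 0 0, X 0 1; X 1 0, X 1 1] = 0 := by
    rw [← Matrix.eta_fin_two X]; exact h0
  obtain ⟨h00, h01, h10, h11⟩ := hzero _ _ _ _ (det_entries X hX) h1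
  rw [Matrix.eta_fin_two X, h00, h01, h10, h11, Matrix.one_fin_two]

/-- one descent step of the induction -/
lemma step (S Sinv : Matrix (Fin 2) (Fin 2) GF9) (c : Equiv.Perm (Fin 6))
    (hS : S * Sinv = 1) (hdetS : Sinv.det = 1)
    (hc : ∀ X : Matrix (Fin 2) (Fin 2) GF9, X.det = 1 → f₀ (S * X) = c * f₀ X)
    (X Y : Matrix (Fin 2) (Fin 2) GF9) (hX : X.det = 1) (hY : Y.det = 1)
    (ih : f₀ (Sinv * X * Y) = f₀ (Sinv * X) * f₀ Y) :
    f₀ (X * Y) = f₀ X * f₀ Y := by
  have hdet1 : (Sinv * X).det = 1 := by rw [Matrix.det_mul, hdetS, hX, mul_one]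
  have hX' : X = S * (Sinv * X) := by
    rw [← Matrix.mul_assoc, hS, Matrix.one_mul]
  have hdet2 : (Sinv * X * Y).det = 1 := by rw [Matrix.det_mul, hdet1, hY, mul_one]
  calc f₀ (X * Y) = f₀ (S * (Sinv * X * Y)) := by
        rw [← Matrix.mul_assoc, ← hX']
    _ = c * f₀ (Sinv * X * Y) := hc _ hdet2
    _ = c * (f₀ (Sinv * X) * f₀ Y) := by rw [ih]
    _ = (c * f₀ (Sinv * X)) * f₀ Y := by rw [mul_assoc]
    _ = f₀ (S * (Sinv * X)) * f₀ Y := by rw [hc _ hdet1]
    _ = f₀ X * f₀ Y := by rw [← hX']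

/-- multiplicativity of the table map on `SL₂(9)` -/
theorem f₀_mul (X : Matrix (Fin 2) (Fin 2) GF9) (hX : X.det = 1)
    (Y : Matrix (Fin 2) (Fin 2) GF9) (hY : Y.det = 1) :
    f₀ (X * Y) = f₀ X * f₀ Y := by
  induction h : idx X using Nat.strong_induction_on generalizing X with
  | _ n ih =>
    rcases hdesc' X hX with h0 | hlt | hlt | hlt
    · rw [hzero' X hX h0, Matrix.one_mul, hone, one_mul]
    · exact step Amat Ainv _ hAinv detAinv hA' X Y hX hY
        (ih (idx (Ainv * X)) (h ▸ hlt) (Ainv * X)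
          (by rw [Matrix.det_mul, detAinv, hX, mul_one]) rfl)
    · exact step A2mat A2inv _ hA2inv detA2inv hA2' X Y hX hY
        (ih (idx (A2inv * X)) (h ▸ hlt) (A2inv * X)
          (by rw [Matrix.det_mul, detA2inv, hX, mul_one]) rfl)
    · exact step Bmat Binv _ hBinv detBinv hB' X Y hX hY
        (ih (idx (Binv * X)) (h ▸ hlt) (Binv * X)
          (by rw [Matrix.det_mul, detBinv, hX, mul_one]) rfl)

/-- the homomorphism `SL₂(9) → S₆` -/
def hom : Matrix.SpecialLinearGroup (Fin 2) GF9 →* Equiv.Perm (Fin 6) where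
  toFun g := f₀ g.1
  map_one' := hone
  map_mul' g h := f₀_mul g.1 g.2 h.1 h.2

lemma hom_nontrivial : ∃ g : Matrix.SpecialLinearGroup (Fin 2) GF9, hom g ≠ 1 := by
  refine ⟨⟨Amat, by rw [Matrix.det_fin_two]; decide +kernel⟩, ?_⟩
  exact hnt

lemma sq_one_gf9 : ∀ r : GF9, r ^ 2 = 1 → r = 1 ∨ r = -1 := by decide +kernel

lemma hscalar : (Matrix.scalar (Fin 2)) (-1 : GF9) = !![-1, 0; 0, -1] := by decide +kernel

lemma hom_center : Subgroup.center (Matrix.SpecialLinearGroup (Fin 2) GF9) ≤ hom.ker := by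
  intro g hg
  rw [MonoidHom.mem_ker]
  obtain ⟨r, hr, hr'⟩ := Matrix.SpecialLinearGroup.mem_center_iff.mp hg
  have hr2 : r = 1 ∨ r = -1 := sq_one_gf9 r (by simpa using hr)
  rcases hr2 with rfl | rfl
  · have : g = 1 := by
      apply Subtype.ext
      rw [← hr']
      simp
    rw [this, map_one]
  · change f₀ g.1 = 1
    have : g.1 = !![-1, 0; 0, -1] := by
      rw [← hr']
      exact hscalar
    rw [this]
    exact hneg

/-- `PSL₂(9) ≅ A₆` -/
theorem psl29_equiv_alt6 {F : Type*} [Field F] [Fintype F] (hF : Fintype.card F = 9) :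
    Nonempty (Matrix.ProjectiveSpecialLinearGroup (Fin 2) F ≃* alternatingGroup (Fin 6)) := by
  classical
  let eF : GF9 ≃+* F := FiniteField.ringEquivOfCardEq (by rw [card_gf9, hF])
  let ψ : Matrix.SpecialLinearGroup (Fin 2) F →* Equiv.Perm (Fin 6) :=
    hom.comp (slMapEquiv eF).symm.toMonoidHom
  have hs : IsSimpleGroup (Matrix.ProjectiveSpecialLinearGroup (Fin 2) F) := by
    apply Matrix.ProjectiveSpecialLinearGroup.rank_two_simple
    rw [Nat.card_eq_fintype_card, hF]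
    norm_num
  have hc : Subgroup.center (Matrix.SpecialLinearGroup (Fin 2) F) ≤ ψ.ker := by
    intro g hg
    have h1 : (slMapEquiv eF).symm g ∈
        Subgroup.center (Matrix.SpecialLinearGroup (Fin 2) GF9) := by
      rw [Subgroup.mem_center_iff] at hg ⊢
      intro h
      have h2 := hg (slMapEquiv eF h)
      apply (slMapEquiv eF).injective
      simpa using h2
    have h3 := hom_center h1
    rw [MonoidHom.mem_ker] at h3 ⊢
    exact h3
  have hnt : ∃ g, ψ g ≠ 1 := by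
    obtain ⟨g₀, hg₀⟩ := hom_nontrivial
    refine ⟨slMapEquiv eF g₀, ?_⟩
    intro h
    apply hg₀
    change hom ((slMapEquiv eF).symm (slMapEquiv eF g₀)) = 1 at h
    rwa [MulEquiv.symm_apply_apply] at h
  have hinj := lift_center_injective ψ hc hnt
  have hcardF : Nat.card (Matrix.ProjectiveSpecialLinearGroup (Fin 2) F) = 360 := by
    have h := Cfsg.Agent.S0243.result hF 2 (le_refl 2)
    simp only [Fin.prod_univ_two] at h
    have h2 : Nat.gcd 2 (9 - 1) * ((9 - 1) *
        Nat.card (Matrix.ProjectiveSpecialLinearGroup (Fin 2) F)) = 5760 := by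
      rw [h]; rfl
    have h3 : Nat.gcd 2 (9 - 1) = 2 := by decide
    rw [h3] at h2
    omega
  exact equiv_alternating_of_injective 6 (by simp) (by norm_num) _ hinj (by rw [hcardF]; rfl)

end Cfsg.Agent.H6.L29
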