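import Mathlib
import Cfsg.Agent.H6Inv

/-! Counting lemmas for conjugacy classes and pairs of involutions (helper6). -/

set_option autoImplicit false

namespace Cfsg.Agent.H6

variable {G : Type*} [Group G]

/-- Orbit-stabilizer for conjugation: class size times centralizer order is the group order. -/
lemma card_conj_mul_card_centralizer [Finite G] (t : G) :
    Nat.card {y : G // IsConj t y} * Nat.card (Subgroup.centralizer ({t} : Set G)) = Nat.card G := by
  classical
  have : Fintype G := Fintype.ofFinite G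
  let f : G → {y : G // IsConj t y} := fun g => ⟨g * t * g⁻¹, isConj_iff.mpr ⟨g, rfl⟩⟩
  have e : G ≃ Σ y : {y : G // IsConj t y}, {g : G // f g = y} := (Equiv.sigmaFiberEquiv f).symm
  have hfib : ∀ y : {y : G // IsConj t y},
      Nat.card {g : G // f g = y} = Nat.card (Subgroup.centralizer ({t} : Set G)) := by
    intro y
    obtain ⟨g₀, hg₀⟩ := isConj_iff.mp y.2
    apply Nat.card_congr
    refine
      { toFun := fun g => ⟨g₀⁻¹ * g.1, ?_⟩
        invFun := fun c => ⟨g₀ * c.1, ?_⟩
        left_inv := fun g => by apply Subtype.ext; simp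
        right_inv := fun c => by apply Subtype.ext; simp }
    · have hg : g.1 * t * (g.1)⁻¹ = y.1 := congrArg Subtype.val g.2
      rw [mem_cent_single]
      have h1 : g.1 * t * (g.1)⁻¹ = g₀ * t * g₀⁻¹ := by rw [hg, hg₀]
      have h2 : g₀⁻¹ * g.1 * t = t * (g₀⁻¹ * g.1) := by
        calc g₀⁻¹ * g.1 * t = g₀⁻¹ * (g.1 * t * (g.1)⁻¹) * g.1 := by group
          _ = g₀⁻¹ * (g₀ * t * g₀⁻¹) * g.1 := by rw [h1]
          _ = t * (g₀⁻¹ * g.1) := by group
      exact h2.symm
    · have hc : t * c.1 = c.1 * t := mem_cent_single.mp c.2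
      apply Subtype.ext
      show g₀ * c.1 * t * (g₀ * c.1)⁻¹ = y.1
      rw [← hg₀]
      calc g₀ * c.1 * t * (g₀ * c.1)⁻¹ = g₀ * (c.1 * t) * (c.1)⁻¹ * g₀⁻¹ := by group
        _ = g₀ * (t * c.1) * (c.1)⁻¹ * g₀⁻¹ := by rw [hc]
        _ = g₀ * t * g₀⁻¹ := by group
  rw [Nat.card_congr e, Nat.card_sigma]
  simp only [hfib, Finset.sum_const, Finset.card_univ, smul_eq_mul, Nat.card_eq_fintype_card]

/-- A finset of nontrivial elements of a subgroup has fewer elements than the subgroup. -/
lemma card_add_one_le_card_subgroup [Finite G] [DecidableEq G] (K : Subgroup G) (A : Finset G)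
    (hA : ∀ a ∈ A, a ∈ K ∧ a ≠ 1) : A.card + 1 ≤ Nat.card K := by
  have h1 : (insert 1 A).card = A.card + 1 :=
    Finset.card_insert_of_notMem (fun h => (hA 1 h).2 rfl)
  rw [← h1, ← Set.ncard_coe_finset]
  have h2 : Nat.card K = (K : Set G).ncard := Nat.card_coe_set_eq (K : Set G)
  rw [h2]
  apply Set.ncard_le_ncard _ (Set.toFinite _)
  intro a ha
  simp only [Finset.coe_insert, Set.mem_insert_iff, Finset.mem_coe] at ha
  rcases ha with rfl | ha
  · exact K.one_mem
  · exact (hA a ha).1

end Cfsg.Agent.H6
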