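import Mathlib
import Cfsg.Agent.H6Inv
import Cfsg.Agent.H6.Count

/-! Brauer–Fowler counting of pairs of involutions (helper6). -/

set_option autoImplicit false

namespace Cfsg.Agent.H6

variable {G : Type*} [Group G]

/-- Pairs of involutions, fibred over their product. -/
def sigmaInvPairsEquiv : (Σ x : G, InvPairs x) ≃
    {t : G // orderOf t = 2} × {t : G // orderOf t = 2} where
  toFun p := (⟨p.2.1.1, p.2.2.1⟩, ⟨p.2.1.2, p.2.2.2.1⟩)
  invFun q := ⟨q.1.1 * q.2.1, ⟨(q.1.1, q.2.1), q.1.2, q.2.2, rfl⟩⟩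
  left_inv := by
    rintro ⟨x, ⟨⟨u, v⟩, hu, hv, huv⟩⟩
    simp only at huv
    subst huv
    rfl
  right_inv := by
    rintro ⟨⟨u, hu⟩, ⟨v, hv⟩⟩
    rfl

lemma sum_card_invPairs [Fintype G] :
    ∑ x : G, Nat.card (InvPairs x) = (Nat.card {t : G // orderOf t = 2}) ^ 2 := by
  rw [← Nat.card_sigma, Nat.card_congr sigmaInvPairsEquiv, Nat.card_prod, pow_two]

/-- Pairs of involutions with product `1` correspond to involutions. -/
def invPairsOneEquiv : InvPairs (1 : G) ≃ {t : G // orderOf t = 2} where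
  toFun p := ⟨p.1.1, p.2.1⟩
  invFun u := ⟨(u.1, u.1), u.2, u.2, sq_of_orderOf_two u.2⟩
  left_inv := by
    rintro ⟨⟨u, v⟩, hu, hv, huv⟩
    simp only at hu hv huv
    apply Subtype.ext
    simp only [Prod.mk.injEq, true_and]
    have : v = u⁻¹ := eq_inv_of_mul_eq_one_right huv
    rw [this, inv_of_orderOf_two hu]
  right_inv := by
    rintro ⟨u, hu⟩
    rfl

lemma card_invPairs_one [Finite G] :
    Nat.card (InvPairs (1 : G)) = Nat.card {t : G // orderOf t = 2} :=
  Nat.card_congr invPairsOneEquiv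

/-- The extended centralizer of `x`: the elements conjugating `x` to `x` or to `x⁻¹`. -/
def extCentralizer (x : G) : Subgroup G where
  carrier := {g | g * x * g⁻¹ = x ∨ g * x * g⁻¹ = x⁻¹}
  one_mem' := Or.inl (by simp)
  mul_mem' := by
    intro a b ha hb
    have e : a * b * x * (a * b)⁻¹ = a * (b * x * b⁻¹) * a⁻¹ := by group
    have e' : a * x⁻¹ * a⁻¹ = (a * x * a⁻¹)⁻¹ := by group
    rcases ha with ha | ha <;> rcases hb with hb | hb
    · left; show a * b * x * (a * b)⁻¹ = x; rw [e, hb, ha]
    · right; show a * b * x * (a * b)⁻¹ = x⁻¹; rw [e, hb, e', ha]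
    · right; show a * b * x * (a * b)⁻¹ = x⁻¹; rw [e, hb, ha]
    · left; show a * b * x * (a * b)⁻¹ = x; rw [e, hb, e', ha, inv_inv]
  inv_mem' := by
    intro a ha
    rcases ha with ha | ha
    · left
      show a⁻¹ * x * a⁻¹⁻¹ = x
      nth_rewrite 1 [← ha]
      group
    · right
      show a⁻¹ * x * a⁻¹⁻¹ = x⁻¹
      have h1 : a⁻¹ * x⁻¹ * a = x := by rw [← ha]; group
      calc a⁻¹ * x * a⁻¹⁻¹ = (a⁻¹ * x⁻¹ * a)⁻¹ := by group
        _ = x⁻¹ := by rw [h1]

lemma mem_extCentralizer {x g : G} :
    g ∈ extCentralizer x ↔ g * x * g⁻¹ = x ∨ g * x * g⁻¹ = x⁻¹ := Iff.rfl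

lemma centralizer_le_extCentralizer (x : G) :
    Subgroup.centralizer ({x} : Set G) ≤ extCentralizer x := by
  intro g hg
  left
  have := mem_cent_single.mp hg
  rw [← this, mul_inv_cancel_right]

/-- If `x ≠ x⁻¹` is conjugate to its inverse, the extended centralizer has twice the order of the
centralizer. -/
lemma card_extCentralizer [Finite G] (x : G) (hx : x ^ 2 ≠ 1) (hreal : IsConj x x⁻¹) :
    Nat.card (extCentralizer x) = 2 * Nat.card (Subgroup.centralizer ({x} : Set G)) := by
  classical
  have hne : x ≠ x⁻¹ := by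
    intro h
    apply hx
    rw [pow_two]; nth_rewrite 2 [h]; exact mul_inv_cancel x
  have hdisj : Disjoint (fun g : G => g * x * g⁻¹ = x) (fun g : G => g * x * g⁻¹ = x⁻¹) := by
    intro r hr1 hr2 g hg
    exact hne ((hr1 g hg).symm.trans (hr2 g hg))
  have e1 : extCentralizer x ≃ {g : G // g * x * g⁻¹ = x} ⊕ {g : G // g * x * g⁻¹ = x⁻¹} :=
    subtypeOrEquiv _ _ hdisj
  have e2 : {g : G // g * x * g⁻¹ = x} ≃ Subgroup.centralizer ({x} : Set G) :=
    Equiv.subtypeEquivRight (fun g => by
      rw [mem_cent_single]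
      constructor
      · intro h
        nth_rewrite 1 [← h]
        group
      · intro h
        rw [← h, mul_inv_cancel_right])
  rw [Nat.card_congr e1, Nat.card_sum, Nat.card_congr e2, card_inverting_eq x hreal]
  ring

/-- Splitting a sum over the group into the identity, the involutions and the rest. -/
lemma sum_split_involutions [Fintype G] [DecidableEq G] (f : G → ℕ) :
    ∑ x : G, f x = f 1 + ∑ x ∈ Finset.univ.filter (fun x : G => orderOf x = 2), f x +
      ∑ x ∈ Finset.univ.filter (fun x : G => x ≠ 1 ∧ orderOf x ≠ 2), f x := by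
  rw [← Finset.sum_filter_add_sum_filter_not Finset.univ (fun x : G => x = 1) f]
  have h1 : ∑ x ∈ Finset.univ.filter (fun x : G => x = 1), f x = f 1 := by
    rw [Finset.filter_eq', if_pos (Finset.mem_univ _), Finset.sum_singleton]
  rw [h1, add_assoc]
  congr 1
  rw [← Finset.sum_filter_add_sum_filter_not (Finset.univ.filter (fun x : G => ¬ x = 1))
    (fun x : G => orderOf x = 2) f]
  congr 1
  · apply Finset.sum_congr _ (fun _ _ => rfl)
    ext x
    simp only [Finset.mem_filter, Finset.mem_univ, true_and]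
    constructor
    · exact fun h => h.2
    · exact fun h => ⟨ne_one_of_orderOf_two h, h⟩
  · apply Finset.sum_congr _ (fun _ _ => rfl)
    ext x
    simp only [Finset.mem_filter, Finset.mem_univ, true_and, ne_eq]

lemma card_filter_involutions [Fintype G] [DecidableEq G] :
    (Finset.univ.filter (fun x : G => orderOf x = 2)).card = Nat.card {t : G // orderOf t = 2} := by
  rw [Nat.card_eq_fintype_card, Fintype.card_subtype]

lemma card_filter_rest [Fintype G] [DecidableEq G] :
    (Finset.univ.filter (fun x : G => x ≠ 1 ∧ orderOf x ≠ 2)).card + 1 +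
      Nat.card {t : G // orderOf t = 2} = Nat.card G := by
  have h := sum_split_involutions (G := G) (fun _ => 1)
  simp only [Finset.sum_const, smul_eq_mul, mul_one, Finset.card_univ] at h
  rw [← card_filter_involutions, Nat.card_eq_fintype_card, h]
  ring

end Cfsg.Agent.H6
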