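import Mathlib
import Cfsg.Agent.H6.BrauerFowler
import Cfsg.Agent.H6.CyclicSylow

/-! The Brauer–Fowler theorem: a proper subgroup of order greater than the cube root (helper6). -/

set_option autoImplicit false

namespace Cfsg.Agent.H6

universe u

lemma exists_cube_root (N : ℕ) : ∃ κ : ℕ, κ ^ 3 ≤ N ∧ ∀ k : ℕ, k ^ 3 ≤ N → k ≤ κ := by
  classical
  refine ⟨Nat.findGreatest (fun k => k ^ 3 ≤ N) N, ?_, ?_⟩
  · exact Nat.findGreatest_spec (P := fun k => k ^ 3 ≤ N) (Nat.zero_le N) (by simp)
  · intro k hk
    have hkN : k ≤ N := by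
      rcases Nat.eq_zero_or_pos k with rfl | hpos
      · exact Nat.zero_le _
      · calc k = k ^ 1 := (pow_one k).symm
          _ ≤ k ^ 3 := Nat.pow_le_pow_right hpos (by norm_num)
          _ ≤ N := hk
    exact Nat.le_findGreatest (P := fun k => k ^ 3 ≤ N) hkN hk

/-- Core of the Brauer–Fowler theorem: the case where the centre has odd order. -/
theorem bf_cube_of_odd_center {G : Type u} [Group G] [Finite G] (heven : Even (Nat.card G))
    (hgt : 2 < Nat.card G) (hZ : Odd (Nat.card (Subgroup.center G))) :
    ∃ H : Subgroup G, H ≠ ⊤ ∧ Nat.card G < Nat.card H ^ 3 := by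
  classical
  have : Fintype G := Fintype.ofFinite G
  by_contra hcon
  push Not at hcon
  have hNpos : 0 < Nat.card G := Nat.card_pos
  have hp2 : Fact (Nat.Prime 2) := ⟨Nat.prime_two⟩
  obtain ⟨t₀, ht₀⟩ := exists_prime_orderOf_dvd_card' 2 (even_iff_two_dvd.mp heven)
  have hmpos : 0 < Nat.card {t : G // orderOf t = 2} := by
    have : Nonempty {t : G // orderOf t = 2} := ⟨⟨t₀, ht₀⟩⟩
    exact Nat.card_pos
  -- class of t₀ consists of involutions
  have hclass : Nat.card {y : G // IsConj t₀ y} ≤ Nat.card {t : G // orderOf t = 2} := by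
    apply Nat.card_le_card_of_injective (fun y : {y : G // IsConj t₀ y} =>
      (⟨y.1, by
        obtain ⟨g, hg⟩ := isConj_iff.mp y.2
        rw [← hg, orderOf_conj_eq]; exact ht₀⟩ : {t : G // orderOf t = 2}))
    intro a b h
    apply Subtype.ext
    exact congrArg (fun t : {t : G // orderOf t = 2} => (t : G)) h
  have hclass2 := card_conj_mul_card_centralizer t₀
  obtain ⟨κ, hκ1, hκ2⟩ := exists_cube_root (Nat.card G)
  generalize hN : Nat.card G = N at hcon hNpos hκ1 hκ2 hclass2 hgt
  generalize hm : Nat.card {t : G // orderOf t = 2} = m at hmpos hclass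
  have hκpos : 0 < κ := by
    have := hκ2 1 (by omega)
    omega
  -- centralizers of involutions are proper
  have hcent : ∀ x : G, orderOf x = 2 → Nat.card (Subgroup.centralizer ({x} : Set G)) ≤ κ := by
    intro x hx
    have hne : Subgroup.centralizer ({x} : Set G) ≠ ⊤ := by
      intro htop
      have hxc : x ∈ Subgroup.center G := by
        rw [Subgroup.mem_center_iff]
        intro g
        have : g ∈ Subgroup.centralizer ({x} : Set G) := by rw [htop]; trivial
        exact (mem_cent_single.mp this).symm
      have ho : orderOf (⟨x, hxc⟩ : Subgroup.center G) = 2 := by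
        rw [Subgroup.orderOf_mk]; exact hx
      have : 2 ∣ Nat.card (Subgroup.center G) := ho ▸ orderOf_dvd_natCard _
      exact (Nat.not_even_iff_odd.mpr hZ) (even_iff_two_dvd.mpr this)
    exact hκ2 _ (hcon _ hne)
  have hI : ∀ x : G, orderOf x = 2 → Nat.card (InvPairs x) + 2 ≤ κ := fun x hx =>
    le_trans (card_invPairs_add_two_le x hx) (hcent x hx)
  have hR : ∀ x : G, x ≠ 1 → orderOf x ≠ 2 → 2 * Nat.card (InvPairs x) ≤ κ := by
    intro x hx1 hx2
    by_cases hreal : IsConj x x⁻¹
    · have hxsq : x ^ 2 ≠ 1 := fun h => hx2 (orderOf_two_iff.mpr ⟨h, hx1⟩)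
      have hcard := card_extCentralizer x hxsq hreal
      have hne : extCentralizer x ≠ ⊤ := by
        intro htop
        have h1 : Nat.card (extCentralizer x) = N := by
          rw [htop, ← hN]; exact Subgroup.card_top
        rw [hcard] at h1
        -- the centralizer is a proper subgroup of order N / 2
        have hne' : Subgroup.centralizer ({x} : Set G) ≠ ⊤ := by
          intro h
          have h2 : Nat.card (Subgroup.centralizer ({x} : Set G)) = N := by
            rw [h, ← hN]; exact Subgroup.card_top
          omega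
        have h3 := hcon _ hne'
        -- (N/2)^3 ≤ N is impossible for N > 2
        generalize Nat.card (Subgroup.centralizer ({x} : Set G)) = c at h1 h3
        subst h1
        have hc : 2 ≤ c := by omega
        nlinarith [Nat.pow_le_pow_left hc 3, Nat.mul_le_mul hc hc]
      have h1 := hκ2 _ (hcon _ hne)
      rw [hcard] at h1
      have h2 := card_invPairs_le x
      omega
    · rw [card_invPairs_eq_zero x hreal]; simp
  -- the counting identity
  have hsum := sum_card_invPairs (G := G)
  rw [sum_split_involutions, card_invPairs_one, hm] at hsum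
  have hA : ∑ x ∈ Finset.univ.filter (fun x : G => orderOf x = 2), Nat.card (InvPairs x)
      + 2 * m ≤ m * κ := by
    have h1 : ∑ x ∈ Finset.univ.filter (fun x : G => orderOf x = 2), (Nat.card (InvPairs x) + 2) ≤
        ∑ _x ∈ Finset.univ.filter (fun x : G => orderOf x = 2), κ := by
      apply Finset.sum_le_sum
      intro x hx
      simp only [Finset.mem_filter, Finset.mem_univ, true_and] at hx
      exact hI x hx
    rw [Finset.sum_const, card_filter_involutions, hm, smul_eq_mul,
      Finset.sum_add_distrib, Finset.sum_const, card_filter_involutions, hm, smul_eq_mul] at h1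
    linarith
  have hB : 2 * ∑ x ∈ Finset.univ.filter (fun x : G => x ≠ 1 ∧ orderOf x ≠ 2),
      Nat.card (InvPairs x) ≤
      (Finset.univ.filter (fun x : G => x ≠ 1 ∧ orderOf x ≠ 2)).card * κ := by
    rw [Finset.mul_sum]
    calc _ ≤ ∑ _x ∈ Finset.univ.filter (fun x : G => x ≠ 1 ∧ orderOf x ≠ 2), κ := by
          apply Finset.sum_le_sum
          intro x hx
          simp only [Finset.mem_filter, Finset.mem_univ, true_and] at hx
          exact hR x hx.1 hx.2
      _ = _ := by rw [Finset.sum_const, smul_eq_mul]
  have hRcard := card_filter_rest (G := G)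
  rw [hm, hN] at hRcard
  generalize (∑ x ∈ Finset.univ.filter (fun x : G => orderOf x = 2), Nat.card (InvPairs x)) = A
    at hsum hA
  generalize (∑ x ∈ Finset.univ.filter (fun x : G => x ≠ 1 ∧ orderOf x ≠ 2),
    Nat.card (InvPairs x)) = B at hsum hB
  generalize (Finset.univ.filter (fun x : G => x ≠ 1 ∧ orderOf x ≠ 2)).card = r at hB hRcard
  -- N ≤ m κ
  have hNm : N ≤ m * κ := by
    have h1 := hcent t₀ ht₀
    calc N = Nat.card {y : G // IsConj t₀ y} * Nat.card (Subgroup.centralizer ({t₀} : Set G)) :=
          hclass2.symm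
      _ ≤ m * κ := Nat.mul_le_mul hclass h1
  -- κ² ≤ m
  have hκm : κ * κ ≤ m := by
    have h1 : κ * (κ * κ) ≤ κ * m := by
      calc κ * (κ * κ) = κ ^ 3 := by ring
        _ ≤ N := hκ1
        _ ≤ m * κ := hNm
        _ = κ * m := by ring
    exact Nat.le_of_mul_le_mul_left h1 hκpos
  have h1 : m * (κ * κ) ≤ m * m := Nat.mul_le_mul_left _ hκm
  have h2 : m * κ ≤ m * (κ * κ) := Nat.mul_le_mul_left _ (Nat.le_mul_of_pos_left κ hκpos)
  have h3 : N * κ ≤ m * κ * κ := Nat.mul_le_mul_right _ hNm
  have hrκ : r * κ + κ + m * κ = N * κ := by rw [← hRcard]; ring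
  nlinarith [hsum, hA, hB, h1, h2, h3, hrκ]

/-- The Brauer–Fowler theorem, by induction on the order. -/
theorem bf_cube_aux : ∀ (n : ℕ) (G : Type u) [Group G] [Finite G], Nat.card G = n → Even n →
    2 < n → ∃ H : Subgroup G, H ≠ ⊤ ∧ n < Nat.card H ^ 3 := by
  intro n
  induction n using Nat.strong_induction_on with
  | _ n ih =>
    intro G _ _ hn heven hgt
    have hp2 : Fact (Nat.Prime 2) := ⟨Nat.prime_two⟩
    rcases Nat.even_or_odd (Nat.card (Subgroup.center G)) with hZ | hZ
    swap
    · have := bf_cube_of_odd_center (G := G) (by rw [hn]; exact heven) (by rw [hn]; exact hgt) hZ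
      rw [hn] at this
      exact this
    -- a central involution
    obtain ⟨z', hz'⟩ := exists_prime_orderOf_dvd_card' 2 (even_iff_two_dvd.mp hZ)
    have hzo : orderOf (z' : G) = 2 := by rw [Subgroup.orderOf_coe]; exact hz'
    have hzc : ∀ g : G, g * (z' : G) = (z' : G) * g := fun g => Subgroup.mem_center_iff.mp z'.2 g
    let K : Subgroup G := Subgroup.zpowers (z' : G)
    have hKn : K.Normal := by
      constructor
      intro x hx g
      obtain ⟨k, rfl⟩ := Subgroup.mem_zpowers_iff.mp hx
      have hc : Commute g ((z' : G) ^ k) := (show Commute g (z' : G) from hzc g).zpow_right k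
      rw [hc.eq, mul_inv_cancel_right]
      exact Subgroup.zpow_mem_zpowers _ k
    have hKcard : Nat.card K = 2 := by rw [Nat.card_zpowers, hzo]
    have hQ : Nat.card (G ⧸ K) * 2 = n := by
      rw [← hKcard, ← hn]; exact (Subgroup.card_eq_card_quotient_mul_card_subgroup K).symm
    rcases Nat.even_or_odd (Nat.card (G ⧸ K)) with hqe | hqo
    · by_cases hq2 : 2 < Nat.card (G ⧸ K)
      · -- induction
        obtain ⟨Hb, hHb, hlt⟩ := ih (Nat.card (G ⧸ K)) (by omega) (G ⧸ K) rfl hqe hq2
        refine ⟨Hb.comap (QuotientGroup.mk' K), ?_, ?_⟩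
        · intro htop
          apply hHb
          rw [← Subgroup.index_eq_one] at htop ⊢
          rwa [Subgroup.index_comap_of_surjective _ (QuotientGroup.mk'_surjective K)] at htop
        · have hidx : (Hb.comap (QuotientGroup.mk' K)).index = Hb.index :=
            Subgroup.index_comap_of_surjective _ (QuotientGroup.mk'_surjective K)
          have h1 : Nat.card (Hb.comap (QuotientGroup.mk' K)) * Hb.index = n := by
            rw [← hidx, ← hn]; exact Subgroup.card_mul_index _
          have h2 : Nat.card Hb * Hb.index = Nat.card (G ⧸ K) := Subgroup.card_mul_index _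
          have hipos : 0 < Hb.index := Nat.pos_of_ne_zero Subgroup.index_ne_zero_of_finite
          have h3 : Nat.card (Hb.comap (QuotientGroup.mk' K)) = 2 * Nat.card Hb := by
            apply Nat.eq_of_mul_eq_mul_right hipos
            rw [h1, ← hQ, ← h2]; ring
          rw [h3]
          have hpos : 0 < Nat.card Hb := Nat.card_pos
          calc n = Nat.card (G ⧸ K) * 2 := hQ.symm
            _ < Nat.card Hb ^ 3 * 2 := Nat.mul_lt_mul_of_pos_right hlt (by norm_num)
            _ ≤ (2 * Nat.card Hb) ^ 3 := by
                have : (2 * Nat.card Hb) ^ 3 = Nat.card Hb ^ 3 * 8 := by ring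
                rw [this]
                exact Nat.mul_le_mul_left _ (by norm_num)
      · -- the quotient has order 2, so n = 4
        have hq : Nat.card (G ⧸ K) = 2 := by
          have hpos : 0 < Nat.card (G ⧸ K) := Nat.card_pos
          obtain ⟨j, hj⟩ := hqe
          omega
        refine ⟨K, ?_, ?_⟩
        · intro htop
          have : Nat.card K = n := by rw [htop, ← hn]; exact Subgroup.card_top
          omega
        · rw [hKcard]; omega
    · -- n = 2 * odd: a Sylow 2-subgroup has order 2, hence is cyclic
      obtain ⟨P⟩ : Nonempty (Sylow 2 G) := inferInstance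
      have hPcard : Nat.card P = 2 := by
        obtain ⟨k, hk⟩ := P.2.exists_card_eq
        have h1 : 2 ∣ Nat.card P := P.dvd_card_of_dvd_card (by rw [hn]; exact even_iff_two_dvd.mp heven)
        have h2 : Nat.card P ∣ n := by rw [← hn]; exact P.card_subgroup_dvd_card
        rw [hk] at h1 h2 ⊢
        have hk1 : k ≠ 0 := by
          intro h0; rw [h0] at h1; simp at h1
        have hk2 : k < 2 := by
          by_contra hge
          have h4 : 2 ^ 2 ∣ 2 ^ k := pow_dvd_pow 2 (by omega)
          have h5 : 4 ∣ n := by
            have := h4.trans h2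
            simpa using this
          obtain ⟨j, hj⟩ := hqo
          omega
        have : k = 1 := by omega
        rw [this, pow_one]
      have hPcyc : IsCyclic (P : Subgroup G) := by
        have : Fact (Nat.Prime 2) := ⟨Nat.prime_two⟩
        exact isCyclic_of_prime_card (p := 2) hPcard
      obtain ⟨H, hH⟩ := exists_index_two_of_cyclic_sylow (by rw [hn]; exact heven) P hPcyc
      refine ⟨H, ?_, ?_⟩
      · intro htop
        rw [htop, Subgroup.index_top] at hH
        omega
      · have h1 : Nat.card H * 2 = n := by rw [← hH, ← hn]; exact Subgroup.card_mul_index H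
        have h2 : 3 ≤ Nat.card H := by
          have : Nat.card H = Nat.card (G ⧸ K) := by omega
          obtain ⟨j, hj⟩ := hqo
          omega
        rw [← h1]
        nlinarith [Nat.mul_le_mul h2 h2]

/-- The Brauer–Fowler theorem: a finite group of even order greater than 2 has a proper
subgroup `H` with `|G| < |H|³`. -/
theorem bf_cube {G : Type u} [Group G] [Finite G] (heven : Even (Nat.card G))
    (hgt : 2 < Nat.card G) : ∃ H : Subgroup G, H ≠ ⊤ ∧ Nat.card G < Nat.card H ^ 3 :=
  bf_cube_aux (Nat.card G) G rfl heven hgt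

end Cfsg.Agent.H6
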