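import Mathlib
import Cfsg.Agent.H6Inv
import Cfsg.Agent.S0233
import Cfsg.Agent.S0493
import Cfsg.Agent.S0494

/-! Brauer–Fowler for simple groups: `3 * (#involutions) < |G|` (helper6). -/

set_option autoImplicit false

namespace Cfsg.Agent.H6

theorem a5_involutions_aux :
    Fintype.card {t : alternatingGroup (Fin 5) // t ≠ 1 ∧ t * t = 1} = 15 := by
  decide +kernel

theorem a5_involutions : Nat.card {t : alternatingGroup (Fin 5) // orderOf t = 2} = 15 := by
  rw [← a5_involutions_aux, ← Nat.card_eq_fintype_card]
  apply Nat.card_congr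
  apply Equiv.subtypeEquivRight
  intro t
  rw [orderOf_eq_iff (by norm_num)]
  constructor
  · rintro ⟨h1, h2⟩
    refine ⟨?_, ?_⟩
    · rintro rfl
      exact h2 1 (by norm_num) (by norm_num) (by simp)
    · rw [← pow_two]; exact h1
  · rintro ⟨h1, h2⟩
    refine ⟨by rw [pow_two]; exact h2, ?_⟩
    intro m hm hm0
    have : m = 1 := by omega
    subst this
    simpa using h1

/-- the number of involutions is invariant under isomorphism -/
theorem card_involutions_congr {G H : Type*} [Group G] [Group H] (e : G ≃* H) :
    Nat.card {t : G // orderOf t = 2} = Nat.card {t : H // orderOf t = 2} := by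
  apply Nat.card_congr
  exact e.toEquiv.subtypeEquiv (fun t => by
    change orderOf t = 2 ↔ orderOf (e t) = 2
    rw [MulEquiv.orderOf_eq])

/-- A simple group acting faithfully on `d ≥ 2` points with `|G| > 2` has order at most `d!/2`. -/
theorem simple_card_le_half_factorial {G : Type*} [Group G] [Finite G] [IsSimpleGroup G]
    (hgt : 2 < Nat.card G) (H : Subgroup G) (hH : H ≠ ⊤) :
    2 * Nat.card G ≤ (H.index).factorial := by
  classical
  have hfin : Finite (G ⧸ H) := inferInstance
  let _ : Fintype (G ⧸ H) := Fintype.ofFinite _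
  have hinj := Cfsg.Agent.H11.toPermHom_injective_of_ne_top H hH
  let φ := MulAction.toPermHom G (G ⧸ H)
  let s : G →* ℤˣ := Equiv.Perm.sign.comp φ
  have hker : s.ker = ⊤ := by
    rcases Subgroup.Normal.eq_bot_or_eq_top s.normal_ker with h | h
    · exfalso
      have hsinj : Function.Injective s := (MonoidHom.ker_eq_bot_iff s).mp h
      have := Nat.card_le_card_of_injective s hsinj
      have h2 : Nat.card ℤˣ = 2 := by
        rw [Nat.card_eq_fintype_card]; rfl
      omega
    · exact h
  have hle : φ.range ≤ alternatingGroup (G ⧸ H) := by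
    rintro _ ⟨g, rfl⟩
    rw [Equiv.Perm.mem_alternatingGroup]
    have : g ∈ s.ker := hker ▸ Subgroup.mem_top g
    exact this
  have hcardrange : Nat.card φ.range = Nat.card G :=
    (Nat.card_congr (MonoidHom.ofInjective hinj).toEquiv).symm
  have h1 : Nat.card G ≤ Nat.card (alternatingGroup (G ⧸ H)) := by
    rw [← hcardrange]
    exact Subgroup.card_le_of_le hle
  have hnt : Nontrivial (G ⧸ H) := by
    rw [← Finite.one_lt_card_iff_nontrivial]
    have hidx : H.index ≠ 1 := fun h => hH (Subgroup.index_eq_one.mp h)
    have hidx0 : H.index ≠ 0 := Subgroup.index_ne_zero_of_finite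
    change 1 < H.index
    omega
  have h2 : 2 * Nat.card (alternatingGroup (G ⧸ H)) = (H.index).factorial := by
    rw [Nat.card_eq_fintype_card, two_mul_card_alternatingGroup, Fintype.card_perm]
    congr 1
    rw [← Nat.card_eq_fintype_card]
    rfl
  omega

/-- **Brauer–Fowler for simple groups**: `3 m < |G|` where `m` is the number of involutions. -/
theorem three_mul_involutions_lt {G : Type*} [Group G] [Finite G] [IsSimpleGroup G]
    (heven : Even (Nat.card G)) (hgt : 2 < Nat.card G) :
    3 * Nat.card {t : G // orderOf t = 2} < Nat.card G := by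
  classical
  have hnc : ¬ IsCyclic G := by
    intro hc
    let _ : CommGroup G := IsCyclic.commGroup
    have hp := IsSimpleGroup.prime_card (α := G)
    rcases hp.eq_one_or_self_of_dvd 2 heven.two_dvd with h | h
    · omega
    · omega
  have hZ : Subgroup.center G = ⊥ := by
    rcases Subgroup.Normal.eq_bot_or_eq_top (inferInstance : (Subgroup.center G).Normal) with h | h
    · exact h
    · exfalso
      apply Cfsg.Agent.H11.not_comm_of_not_isCyclic hnc
      intro a b
      have hb : b ∈ Subgroup.center G := h ▸ Subgroup.mem_top b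
      exact (Subgroup.mem_center_iff.mp hb a)
  have hZodd : Odd (Nat.card (Subgroup.center G)) := by
    rw [hZ, Subgroup.card_bot]
    exact odd_one
  obtain ⟨H, hH, hor⟩ := Cfsg.Agent.S0233.result heven hZodd
  set m := Nat.card {t : G // orderOf t = 2} with hm
  set N := Nat.card G with hN
  have hle := simple_card_le_half_factorial hgt H hH
  rcases hor with h2 | hlt
  · exfalso
    rw [h2] at hle
    have : Nat.factorial 2 = 2 := rfl
    omega
  · by_contra hcon
    push Not at hcon
    -- hcon : N ≤ 3 * m
    have hmpos : 0 < m := by omega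
    have hidx : H.index ≤ 5 := by
      by_contra h6
      push Not at h6
      have h1 : N * (N + m) ≤ (3 * m) * (3 * m + m) := Nat.mul_le_mul hcon (by omega)
      have h3 : 2 * 6 * m ^ 2 ≤ 2 * H.index * m ^ 2 := by
        apply Nat.mul_le_mul_right
        omega
      have h4 : (3 * m) * (3 * m + m) = 2 * 6 * m ^ 2 := by ring
      omega
    have hfac : (H.index).factorial ≤ Nat.factorial 5 := Nat.factorial_le hidx
    have h120 : Nat.factorial 5 = 120 := rfl
    have hN60 : N = 60 := Cfsg.Agent.S0493.result hnc (by omega)
    obtain ⟨e⟩ := Cfsg.Agent.S0494.result hN60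
    have hm15 : m = 15 := by
      rw [hm, card_involutions_congr e, a5_involutions]
    omega

end Cfsg.Agent.H6
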