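import Cfsg.Agent.H6.Co3ChkLem

/-!
Kernel-evaluated certificate checks for the Conway group Co3 on 552 points: closure of the set of involutions under conjugation, on a base, part 0 (helper6).
The check is evaluated in short segments, glued at the end.
-/

set_option autoImplicit false

namespace Cfsg.Agent.H6.Co3

open Cfsg Cfsg.Agent.H9 Cfsg.Agent.H93 Cfsg.Agent.H33

theorem chkB_0_s0 : allB (fun j => chkB (Nat.add 0 j)) 124 = true := by decide +kernel
theorem chkB_0_s1 : allB (fun j => chkB (Nat.add 124 j)) 124 = true := by decide +kernel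
theorem chkB_0_s2 : allB (fun j => chkB (Nat.add 248 j)) 124 = true := by decide +kernel
theorem chkB_0_s3 : allB (fun j => chkB (Nat.add 372 j)) 124 = true := by decide +kernel
theorem chkB_0_s4 : allB (fun j => chkB (Nat.add 496 j)) 124 = true := by decide +kernel
theorem chkB_0_s5 : allB (fun j => chkB (Nat.add 620 j)) 124 = true := by decide +kernel
theorem chkB_0_s6 : allB (fun j => chkB (Nat.add 744 j)) 124 = true := by decide +kernel
theorem chkB_0_s7 : allB (fun j => chkB (Nat.add 868 j)) 124 = true := by decide +kernel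
theorem chkB_0_s8 : allB (fun j => chkB (Nat.add 992 j)) 124 = true := by decide +kernel
theorem chkB_0_s9 : allB (fun j => chkB (Nat.add 1116 j)) 124 = true := by decide +kernel
theorem chkB_0_s10 : allB (fun j => chkB (Nat.add 1240 j)) 124 = true := by decide +kernel
theorem chkB_0_s11 : allB (fun j => chkB (Nat.add 1364 j)) 124 = true := by decide +kernel
theorem chkB_0_s12 : allB (fun j => chkB (Nat.add 1488 j)) 124 = true := by decide +kernel
theorem chkB_0_s13 : allB (fun j => chkB (Nat.add 1612 j)) 124 = true := by decide +kernel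
theorem chkB_0_s14 : allB (fun j => chkB (Nat.add 1736 j)) 124 = true := by decide +kernel

theorem chkB_0 : allB (fun j => chkB (Nat.add 0 j)) 1860 = true := by
  have g0 : allB (fun j => chkB (Nat.add 0 j)) 124 = true := chkB_0_s0
  have g1 : allB (fun j => chkB (Nat.add 0 j)) 248 = true :=
    seg_glue (chkB) 0 124 124 g0 chkB_0_s1
  have g2 : allB (fun j => chkB (Nat.add 0 j)) 372 = true :=
    seg_glue (chkB) 0 248 124 g1 chkB_0_s2
  have g3 : allB (fun j => chkB (Nat.add 0 j)) 496 = true :=
    seg_glue (chkB) 0 372 124 g2 chkB_0_s3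
  have g4 : allB (fun j => chkB (Nat.add 0 j)) 620 = true :=
    seg_glue (chkB) 0 496 124 g3 chkB_0_s4
  have g5 : allB (fun j => chkB (Nat.add 0 j)) 744 = true :=
    seg_glue (chkB) 0 620 124 g4 chkB_0_s5
  have g6 : allB (fun j => chkB (Nat.add 0 j)) 868 = true :=
    seg_glue (chkB) 0 744 124 g5 chkB_0_s6
  have g7 : allB (fun j => chkB (Nat.add 0 j)) 992 = true :=
    seg_glue (chkB) 0 868 124 g6 chkB_0_s7
  have g8 : allB (fun j => chkB (Nat.add 0 j)) 1116 = true :=
    seg_glue (chkB) 0 992 124 g7 chkB_0_s8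
  have g9 : allB (fun j => chkB (Nat.add 0 j)) 1240 = true :=
    seg_glue (chkB) 0 1116 124 g8 chkB_0_s9
  have g10 : allB (fun j => chkB (Nat.add 0 j)) 1364 = true :=
    seg_glue (chkB) 0 1240 124 g9 chkB_0_s10
  have g11 : allB (fun j => chkB (Nat.add 0 j)) 1488 = true :=
    seg_glue (chkB) 0 1364 124 g10 chkB_0_s11
  have g12 : allB (fun j => chkB (Nat.add 0 j)) 1612 = true :=
    seg_glue (chkB) 0 1488 124 g11 chkB_0_s12
  have g13 : allB (fun j => chkB (Nat.add 0 j)) 1736 = true :=
    seg_glue (chkB) 0 1612 124 g12 chkB_0_s13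
  have g14 : allB (fun j => chkB (Nat.add 0 j)) 1860 = true :=
    seg_glue (chkB) 0 1736 124 g13 chkB_0_s14
  exact g14

end Cfsg.Agent.H6.Co3
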