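import Cfsg.Agent.H6.Co3ChkLem

/-!
Kernel-evaluated certificate checks for the Conway group Co3 on 552 points: the straight-line program, part 0 (helper6).
The check is evaluated in short segments, glued at the end.
-/

set_option autoImplicit false

namespace Cfsg.Agent.H6.Co3

open Cfsg Cfsg.Agent.H9 Cfsg.Agent.H93 Cfsg.Agent.H33

theorem chkN_0_s0 : allB (fun j => chkN (Nat.add 0 j)) 107 = true := by decide +kernel
theorem chkN_0_s1 : allB (fun j => chkN (Nat.add 107 j)) 107 = true := by decide +kernel
theorem chkN_0_s2 : allB (fun j => chkN (Nat.add 214 j)) 107 = true := by decide +kernel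
theorem chkN_0_s3 : allB (fun j => chkN (Nat.add 321 j)) 107 = true := by decide +kernel
theorem chkN_0_s4 : allB (fun j => chkN (Nat.add 428 j)) 107 = true := by decide +kernel
theorem chkN_0_s5 : allB (fun j => chkN (Nat.add 535 j)) 106 = true := by decide +kernel

theorem chkN_0 : allB (fun j => chkN (Nat.add 0 j)) 641 = true := by
  have g0 : allB (fun j => chkN (Nat.add 0 j)) 107 = true := chkN_0_s0
  have g1 : allB (fun j => chkN (Nat.add 0 j)) 214 = true :=
    seg_glue (chkN) 0 107 107 g0 chkN_0_s1
  have g2 : allB (fun j => chkN (Nat.add 0 j)) 321 = true :=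
    seg_glue (chkN) 0 214 107 g1 chkN_0_s2
  have g3 : allB (fun j => chkN (Nat.add 0 j)) 428 = true :=
    seg_glue (chkN) 0 321 107 g2 chkN_0_s3
  have g4 : allB (fun j => chkN (Nat.add 0 j)) 535 = true :=
    seg_glue (chkN) 0 428 107 g3 chkN_0_s4
  have g5 : allB (fun j => chkN (Nat.add 0 j)) 641 = true :=
    seg_glue (chkN) 0 535 106 g4 chkN_0_s5
  exact g5

end Cfsg.Agent.H6.Co3
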