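import Cfsg.Agent.H6.Co3ChkT0
import Cfsg.Agent.H6.Co3ChkT1
import Cfsg.Agent.H6.Co3ChkT2
import Cfsg.Agent.H6.Co3ChkT3
import Cfsg.Agent.H6.Co3ChkT4
import Cfsg.Agent.H6.Co3ChkT5
import Cfsg.Agent.H6.Co3ChkT6
import Cfsg.Agent.H6.Co3ChkT7
import Cfsg.Agent.H6.Co3ChkB0
import Cfsg.Agent.H6.Co3ChkB1
import Cfsg.Agent.H6.Co3ChkB2
import Cfsg.Agent.H6.Co3ChkB3
import Cfsg.Agent.H6.Co3ChkP0
import Cfsg.Agent.H6.Co3ChkP1
import Cfsg.Agent.H6.Co3ChkN0
import Cfsg.Agent.H6.Co3ChkN1
import Cfsg.Agent.H6.Co3ChkRef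
import Cfsg.Agent.H6.Co3ChkA

/-!
Kernel-evaluated certificate checks for the Conway group Co3 on 552 points: the parts assembled
(helper6).
-/

set_option autoImplicit false

namespace Cfsg.Agent.H6.Co3

open Cfsg Cfsg.Agent.H9 Cfsg.Agent.H93 Cfsg.Agent.H33

theorem chunk_of (f : ℕ → Bool) (lo n : ℕ) (h : allB (fun j => f (Nat.add lo j)) n = true) (j : ℕ)
    (h1 : lo ≤ j) (h2 : j < lo + n) : f j = true := by
  have h3 := (allB_iff _ _).mp h (j - lo) (by omega)
  have e : Nat.add lo (j - lo) = j := by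
    show lo + (j - lo) = j
    omega
  rw [e] at h3
  exact h3

theorem chkTree_all : ∀ j, j < 7425 → chkTree j = true := by
  intro j hj
  by_cases h0 : j < 930
  · exact chunk_of chkTree 0 930 chkTree_0 j (by omega) (by omega)
  by_cases h1 : j < 1860
  · exact chunk_of chkTree 930 930 chkTree_1 j (by omega) (by omega)
  by_cases h2 : j < 2790
  · exact chunk_of chkTree 1860 930 chkTree_2 j (by omega) (by omega)
  by_cases h3 : j < 3720
  · exact chunk_of chkTree 2790 930 chkTree_3 j (by omega) (by omega)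
  by_cases h4 : j < 4650
  · exact chunk_of chkTree 3720 930 chkTree_4 j (by omega) (by omega)
  by_cases h5 : j < 5580
  · exact chunk_of chkTree 4650 930 chkTree_5 j (by omega) (by omega)
  by_cases h6 : j < 6510
  · exact chunk_of chkTree 5580 930 chkTree_6 j (by omega) (by omega)
  exact chunk_of chkTree 6510 915 chkTree_7 j (by omega) (by omega)

theorem chkB_all : ∀ j, j < 7425 → chkB j = true := by
  intro j hj
  by_cases h0 : j < 1860
  · exact chunk_of chkB 0 1860 chkB_0 j (by omega) (by omega)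
  by_cases h1 : j < 3720
  · exact chunk_of chkB 1860 1860 chkB_1 j (by omega) (by omega)
  by_cases h2 : j < 5580
  · exact chunk_of chkB 3720 1860 chkB_2 j (by omega) (by omega)
  exact chunk_of chkB 5580 1845 chkB_3 j (by omega) (by omega)

theorem chkP_all : ∀ j, j < 1024 → chkP j = true := by
  intro j hj
  by_cases h0 : j < 512
  · exact chunk_of chkP 0 512 chkP_0 j (by omega) (by omega)
  exact chunk_of chkP 512 512 chkP_1 j (by omega) (by omega)

theorem chkN_all : ∀ j, j < 1281 → chkN j = true := by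
  intro j hj
  by_cases h0 : j < 641
  · exact chunk_of chkN 0 641 chkN_0 j (by omega) (by omega)
  exact chunk_of chkN 641 640 chkN_1 j (by omega) (by omega)

end Cfsg.Agent.H6.Co3
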