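import Cfsg.Agent.H6.Co3DataR0
import Cfsg.Agent.H6.Co3DataR1
import Cfsg.Agent.H6.Co3DataR2
import Cfsg.Agent.H6.Co3DataR3
import Cfsg.Agent.H6.Co3DataN
import Cfsg.Agent.H6.Co3DataP

/-!
# Definitions for the certificate checks of the Conway group Co3 on 552 points (helper6)
-/

set_option autoImplicit false

namespace Cfsg.Agent.H6.Co3

open Cfsg Cfsg.Agent.H9 Cfsg.Agent.H93 Cfsg.Agent.H33

/-- a bit field -/
def fq (x off mask : ℕ) : ℕ := Nat.land (Nat.shiftRight x off) mask

/-- entry `j` of a table with `W`-bit entries, 16 to a leaf -/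
def ent (t : List ℕ) (W j : ℕ) : ℕ :=
  Nat.land (Nat.shiftRight (t.getD (Nat.shiftRight j 4) 0) (Nat.mul W (Nat.land j 15)))
    (Nat.sub (Nat.pow 2 W) 1)

/-- the code of `x ^ i` -/
def XP (i : ℕ) : ℕ := XPl.getD i 0
/-- the code of the inverse of `x ^ i` -/
def XPi (i : ℕ) : ℕ := XPil.getD i 0

/-! ### The involutions -/

/-- part `c` of the table of representatives -/
def tRs : ℕ → List ℕ
  | 0 => tR0
  | 1 => tR1
  | 2 => tR2
  | _ => tR3

/-- entry `j` of the table of representatives -/
def rE (j : ℕ) : ℕ := ent (tRs (Nat.div j 1872)) 9616 (Nat.mod j 1872)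
/-- the word of its first refutation -/
def rK (j : ℕ) : ℕ := fq (rE j) 8832 255
/-- the point of its first refutation -/
def rP (j : ℕ) : ℕ := fq (rE j) 8840 65535
/-- the word of its second refutation -/
def rK' (j : ℕ) : ℕ := fq (rE j) 8856 255
/-- the point of its second refutation -/
def rP' (j : ℕ) : ℕ := fq (rE j) 8864 65535
/-- the shift of the conjugate by `y` of the `i`-th shift of representative `j` -/
def rCi (i j : ℕ) : ℕ := fq (rE j) (Nat.add 8880 (Nat.mul 32 i)) 255
/-- the representative of the conjugate by `y` of the `i`-th shift of representative `j` -/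
def rCj (i j : ℕ) : ℕ := fq (rE j) (Nat.add 8888 (Nat.mul 32 i)) 65535

/-- the `i`-th shift of representative `j`, at the point `p` -/
def conjF (i j p : ℕ) : ℕ := f16 (XP i) (f16 (rE j) (f16 (XPi i) p))

/-- the parent of representative `j` in the spanning tree -/
def dPar (j : ℕ) : ℕ := fq (ent tD 32 j) 0 65535
/-- the shift of the parent -/
def dI (j : ℕ) : ℕ := fq (ent tD 32 j) 16 255
/-- the depth of representative `j` -/
def dDep (j : ℕ) : ℕ := fq (ent tD 32 j) 24 255

/-- representative `j` is the conjugate by `y`, shifted back, of a shift of its parent -/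
def chkTree (j : ℕ) : Bool :=
  Nat.beq j jY || (Nat.blt (dPar j) 7425 && (Nat.blt (dDep (dPar j)) (dDep j) &&
    (Nat.blt (dI j) 23 && (Nat.beq (rCj (dI j) (dPar j)) j &&
      (Nat.blt (rCi (dI j) (dPar j)) 23 &&
        allB (fun p => Nat.blt (f16 (rE j) p) 552 &&
          Nat.beq (f16 cY (conjF (dI j) (dPar j) (f16 cY p)))
            (conjF (rCi (dI j) (dPar j)) j p)) 552)))))

/-- the conjugates by `y` of the shifts of representative `j` agree with the recorded shifts
on the points 0, …, 6 -/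
def chkB (j : ℕ) : Bool :=
  allB (fun i => Nat.blt (rCi i j) 23 && (Nat.blt (rCj i j) 7425 &&
    allB (fun b => Nat.beq (f16 cY (conjF i j (f16 cY b))) (conjF (rCi i j) (rCj i j) b)) 7)) 23

/-! ### The straight-line program -/

/-- the code of node `k` -/
def nC (k : ℕ) : ℕ := ent tN 8864 k
/-- its left factor -/
def nA (k : ℕ) : ℕ := fq (ent tN 8864 k) 8832 65535
/-- its right factor -/
def nB (k : ℕ) : ℕ := fq (ent tN 8864 k) 8848 65535

/-- node `k` is the product of two earlier nodes -/
def chkN (k : ℕ) : Bool :=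
  Nat.blt k 2 || (Nat.blt (nA k) k && (Nat.blt (nB k) k &&
    allB (fun p => Nat.beq (f16 (nC k) p) (f16 (nC (nA k)) (f16 (nC (nB k)) p))) 552))

/-! ### Transversals -/

/-- entry `t` of a transversal -/
def trE (l : List (ℕ × ℕ)) (t : ℕ) : ℕ × ℕ := l.getD t (0, 0)

/-- entry `t` of the transversal of level `lv` with `n` entries is valid -/
def chkT (l : List (ℕ × ℕ)) (n lv : ℕ) (t : ℕ) : Bool :=
  Nat.blt (trE l t).2 1281 && (Nat.blt (trE l t).1 552 &&
  (allB (fun p => Nat.beq (f16 (nC (trE l t).2) p) p) lv &&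
  (Nat.beq (f16 (nC (trE l t).2) lv) (trE l t).1 &&
  (Nat.beq (t + 1) n || Nat.blt (trE l t).1 (trE l (t + 1)).1))))

/-! ### The refutations -/

/-- the image of `p` under the word `x ^ a₁ t x ^ a₂ t …` (`X` gives the codes of the powers) -/
def wordP (X : ℕ → ℕ) (t : ℕ) (l : List ℕ) (p : ℕ) : ℕ :=
  l.foldr (fun a q => f16 (X a) (f16 t q)) p

/-- the image of `p` under the `n`-th power of the word -/
def iterP (X : ℕ → ℕ) (t : ℕ) (l : List ℕ) : ℕ → ℕ → ℕ
  | 0, p => p
  | n + 1, p => iterP X t l n (wordP X t l p)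

/-- the words of the refutations -/
def WL (k : ℕ) : List ℕ := WLl.getD k []

/-- the order of the word `k` in `x`, `y` -/
def wOrd (k : ℕ) : ℕ := wOl.getD k 0

/-- the first refutation of representative `j`: no automorphism fixes `x` and sends `y` to it -/
def chkRef (j : ℕ) : Bool :=
  Nat.beq j jY || (Nat.blt (rK j) 23 && (Nat.blt (rP j) 552 &&
    !(Nat.beq (iterP XP (rE j) (WL (rK j)) (wOrd (rK j)) (rP j)) (rP j))))

/-- the second refutation of representative `j`: no automorphism inverts `x` and sends `y` to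
it -/
def chkRef' (j : ℕ) : Bool :=
  Nat.blt (rK' j) 23 && (Nat.blt (rP' j) 552 &&
    !(Nat.beq (iterP XPi (rE j) (WL (rK' j)) (wOrd (rK' j)) (rP' j)) (rP' j)))

/-! ### The Sylow 2-subgroup -/

/-- entry `m` of the Sylow table -/
def pE (m : ℕ) : ℕ := ent tP 8952 m
/-- its depth -/
def pDep (m : ℕ) : ℕ := fq (pE m) 8832 255
/-- its parent -/
def pPar (m : ℕ) : ℕ := fq (pE m) 8840 65535
/-- the generator leading to it from its parent -/
def pGen (m : ℕ) : ℕ := fq (pE m) 8856 255
/-- the index of its product with generator `s` on the left -/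
def pNx (s m : ℕ) : ℕ := fq (pE m) (Nat.add 8864 (Nat.mul 16 s)) 65535
/-- a generator not commuting with it -/
def pWs (m : ℕ) : ℕ := fq (pE m) 8928 255
/-- a point where the two products differ -/
def pWq (m : ℕ) : ℕ := fq (pE m) 8936 65535
/-- the code of generator `s` of the Sylow subgroup -/
def cS (s : ℕ) : ℕ := nC (sNl.getD s 0)
/-- the low 8832 bits -/
def normQ (c : ℕ) : ℕ := Nat.mod c (Nat.pow 2 8832)

/-- the check for element `m` of the Sylow table: products with the generators, order of the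
table, parent, and a generator not commuting with it (except for the identity and `y`) -/
def chkP (m : ℕ) : Bool :=
  allB (fun s => Nat.blt (pNx s m) 1024 &&
    allB (fun p => Nat.beq (f16 (cS s) (f16 (pE m) p)) (f16 (pE (pNx s m)) p)) 552) 4 &&
  ((Nat.beq (m + 1) 1024 || Nat.blt (normQ (pE m)) (normQ (pE (m + 1)))) &&
  ((Nat.beq m pOne || (Nat.blt (pPar m) 1024 && (Nat.blt (pDep (pPar m)) (pDep m) &&
    (Nat.blt (pGen m) 4 && Nat.beq (pNx (pGen m) (pPar m)) m)))) &&
  (Nat.beq m pOne || (Nat.beq m pY || (Nat.blt (pWs m) 4 && (Nat.blt (pWq m) 552 &&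
    !(Nat.beq (f16 (cS (pWs m)) (f16 (pE m) (pWq m)))
      (f16 (pE m) (f16 (cS (pWs m)) (pWq m))))))))))

end Cfsg.Agent.H6.Co3
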