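import Cfsg.Agent.H6.SegGlue
import Cfsg.Agent.H6.Co3ChkDefs

/-!
An auxiliary definition for the segmented certificate checks of the Conway group Co3 (helper6).
-/

set_option autoImplicit false

namespace Cfsg.Agent.H6.Co3

open Cfsg Cfsg.Agent.H9 Cfsg.Agent.H93 Cfsg.Agent.H33

/-- the relation check for word `k` -/
def wOrdF (k : ℕ) : Bool := allB (fun p => Nat.beq (iterP XP cY (WL k) (wOrd k) p) p) 552

end Cfsg.Agent.H6.Co3
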