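import Cfsg.Agent.H6.Co3ChkLem

/-!
Kernel-evaluated certificate checks for the Conway group Co3 on 552 points: the refutations (helper6).
The check is evaluated in short segments, glued at the end.
-/

set_option autoImplicit false

namespace Cfsg.Agent.H6.Co3

open Cfsg Cfsg.Agent.H9 Cfsg.Agent.H93 Cfsg.Agent.H33

theorem chkRef_s0 : allB (fun j => chkRef (Nat.add 0 j)) 1857 = true := by decide +kernel
theorem chkRef_s1 : allB (fun j => chkRef (Nat.add 1857 j)) 1857 = true := by decide +kernel
theorem chkRef_s2 : allB (fun j => chkRef (Nat.add 3714 j)) 1857 = true := by decide +kernel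
theorem chkRef_s3 : allB (fun j => chkRef (Nat.add 5571 j)) 1854 = true := by decide +kernel

theorem chkRef_all : allB chkRef 7425 = true := by
  have g0 : allB (fun j => chkRef (Nat.add 0 j)) 1857 = true := chkRef_s0
  have g1 : allB (fun j => chkRef (Nat.add 0 j)) 3714 = true :=
    seg_glue (chkRef) 0 1857 1857 g0 chkRef_s1
  have g2 : allB (fun j => chkRef (Nat.add 0 j)) 5571 = true :=
    seg_glue (chkRef) 0 3714 1857 g1 chkRef_s2
  have g3 : allB (fun j => chkRef (Nat.add 0 j)) 7425 = true :=
    seg_glue (chkRef) 0 5571 1854 g2 chkRef_s3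
  exact seg_all chkRef 7425 g3

theorem chkRef'_s0 : allB (fun j => chkRef' (Nat.add 0 j)) 1857 = true := by decide +kernel
theorem chkRef'_s1 : allB (fun j => chkRef' (Nat.add 1857 j)) 1857 = true := by decide +kernel
theorem chkRef'_s2 : allB (fun j => chkRef' (Nat.add 3714 j)) 1857 = true := by decide +kernel
theorem chkRef'_s3 : allB (fun j => chkRef' (Nat.add 5571 j)) 1854 = true := by decide +kernel

theorem chkRef'_all : allB chkRef' 7425 = true := by
  have g0 : allB (fun j => chkRef' (Nat.add 0 j)) 1857 = true := chkRef'_s0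
  have g1 : allB (fun j => chkRef' (Nat.add 0 j)) 3714 = true :=
    seg_glue (chkRef') 0 1857 1857 g0 chkRef'_s1
  have g2 : allB (fun j => chkRef' (Nat.add 0 j)) 5571 = true :=
    seg_glue (chkRef') 0 3714 1857 g1 chkRef'_s2
  have g3 : allB (fun j => chkRef' (Nat.add 0 j)) 7425 = true :=
    seg_glue (chkRef') 0 5571 1854 g2 chkRef'_s3
  exact seg_all chkRef' 7425 g3

end Cfsg.Agent.H6.Co3
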