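import Cfsg.Agent.H6.Co3Defs
import Cfsg.Agent.H6.SegGlue

/-!
# The generators of the permutation group on the 552 vectors come from the lattice (helper6)

Piece CO3-WORD of S2071 (port of helper33's `H33/MclWord.lean`).
-/

set_option autoImplicit false
set_option maxRecDepth 100000

namespace Cfsg.Agent.H6.Co3

open Cfsg Cfsg.Agent.H9 Cfsg.Agent.H93 Cfsg.Agent.H33

/-- the fixed vector `(5, 1^23)` with its inner product with itself, packed -/
def LA552P : List (ℕ × ℕ) := [(LF552A, 393264)]

theorem WX_ok : genOKL LA552P WX = true := by decide +kernel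

theorem WY_ok : genOKL LA552P WY = true := by decide +kernel

/-- the word `W` maps the table entry `j` to the table entry `f16 c j` -/
def wTabF (W : List (ℕ × ℕ)) (c : ℕ) (j : ℕ) : Bool :=
  runOK W (fldW 192 LF552E j) &&
    Nat.beq (runW W (fldW 192 LF552E j)) (fldW 192 LF552E (f16 c j))

theorem WX_tab_s0 : allB (fun j => wTabF WX cX (Nat.add 0 j)) 138 = true := by decide +kernel
theorem WX_tab_s1 : allB (fun j => wTabF WX cX (Nat.add 138 j)) 138 = true := by decide +kernel
theorem WX_tab_s2 : allB (fun j => wTabF WX cX (Nat.add 276 j)) 138 = true := by decide +kernel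
theorem WX_tab_s3 : allB (fun j => wTabF WX cX (Nat.add 414 j)) 138 = true := by decide +kernel

theorem WX_tab : allB (fun j => runOK WX (fldW 192 LF552E j) &&
    Nat.beq (runW WX (fldW 192 LF552E j)) (fldW 192 LF552E (f16 cX j))) 552 = true := by
  have g0 : allB (fun j => wTabF WX cX (Nat.add 0 j)) 138 = true := WX_tab_s0
  have g1 : allB (fun j => wTabF WX cX (Nat.add 0 j)) 276 = true :=
    seg_glue (wTabF WX cX) 0 138 138 g0 WX_tab_s1
  have g2 : allB (fun j => wTabF WX cX (Nat.add 0 j)) 414 = true :=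
    seg_glue (wTabF WX cX) 0 276 138 g1 WX_tab_s2
  have g3 : allB (fun j => wTabF WX cX (Nat.add 0 j)) 552 = true :=
    seg_glue (wTabF WX cX) 0 414 138 g2 WX_tab_s3
  exact seg_all (wTabF WX cX) 552 g3

theorem WY_tab_s0 : allB (fun j => wTabF WY cY (Nat.add 0 j)) 24 = true := by decide +kernel
theorem WY_tab_s1 : allB (fun j => wTabF WY cY (Nat.add 24 j)) 24 = true := by decide +kernel
theorem WY_tab_s2 : allB (fun j => wTabF WY cY (Nat.add 48 j)) 24 = true := by decide +kernel
theorem WY_tab_s3 : allB (fun j => wTabF WY cY (Nat.add 72 j)) 24 = true := by decide +kernel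
theorem WY_tab_s4 : allB (fun j => wTabF WY cY (Nat.add 96 j)) 24 = true := by decide +kernel
theorem WY_tab_s5 : allB (fun j => wTabF WY cY (Nat.add 120 j)) 24 = true := by decide +kernel
theorem WY_tab_s6 : allB (fun j => wTabF WY cY (Nat.add 144 j)) 24 = true := by decide +kernel
theorem WY_tab_s7 : allB (fun j => wTabF WY cY (Nat.add 168 j)) 24 = true := by decide +kernel
theorem WY_tab_s8 : allB (fun j => wTabF WY cY (Nat.add 192 j)) 24 = true := by decide +kernel
theorem WY_tab_s9 : allB (fun j => wTabF WY cY (Nat.add 216 j)) 24 = true := by decide +kernel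
theorem WY_tab_s10 : allB (fun j => wTabF WY cY (Nat.add 240 j)) 24 = true := by decide +kernel
theorem WY_tab_s11 : allB (fun j => wTabF WY cY (Nat.add 264 j)) 24 = true := by decide +kernel
theorem WY_tab_s12 : allB (fun j => wTabF WY cY (Nat.add 288 j)) 24 = true := by decide +kernel
theorem WY_tab_s13 : allB (fun j => wTabF WY cY (Nat.add 312 j)) 24 = true := by decide +kernel
theorem WY_tab_s14 : allB (fun j => wTabF WY cY (Nat.add 336 j)) 24 = true := by decide +kernel
theorem WY_tab_s15 : allB (fun j => wTabF WY cY (Nat.add 360 j)) 24 = true := by decide +kernel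
theorem WY_tab_s16 : allB (fun j => wTabF WY cY (Nat.add 384 j)) 24 = true := by decide +kernel
theorem WY_tab_s17 : allB (fun j => wTabF WY cY (Nat.add 408 j)) 24 = true := by decide +kernel
theorem WY_tab_s18 : allB (fun j => wTabF WY cY (Nat.add 432 j)) 24 = true := by decide +kernel
theorem WY_tab_s19 : allB (fun j => wTabF WY cY (Nat.add 456 j)) 24 = true := by decide +kernel
theorem WY_tab_s20 : allB (fun j => wTabF WY cY (Nat.add 480 j)) 24 = true := by decide +kernel
theorem WY_tab_s21 : allB (fun j => wTabF WY cY (Nat.add 504 j)) 24 = true := by decide +kernel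
theorem WY_tab_s22 : allB (fun j => wTabF WY cY (Nat.add 528 j)) 24 = true := by decide +kernel

theorem WY_tab : allB (fun j => runOK WY (fldW 192 LF552E j) &&
    Nat.beq (runW WY (fldW 192 LF552E j)) (fldW 192 LF552E (f16 cY j))) 552 = true := by
  have g0 : allB (fun j => wTabF WY cY (Nat.add 0 j)) 24 = true := WY_tab_s0
  have g1 : allB (fun j => wTabF WY cY (Nat.add 0 j)) 48 = true :=
    seg_glue (wTabF WY cY) 0 24 24 g0 WY_tab_s1
  have g2 : allB (fun j => wTabF WY cY (Nat.add 0 j)) 72 = true :=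
    seg_glue (wTabF WY cY) 0 48 24 g1 WY_tab_s2
  have g3 : allB (fun j => wTabF WY cY (Nat.add 0 j)) 96 = true :=
    seg_glue (wTabF WY cY) 0 72 24 g2 WY_tab_s3
  have g4 : allB (fun j => wTabF WY cY (Nat.add 0 j)) 120 = true :=
    seg_glue (wTabF WY cY) 0 96 24 g3 WY_tab_s4
  have g5 : allB (fun j => wTabF WY cY (Nat.add 0 j)) 144 = true :=
    seg_glue (wTabF WY cY) 0 120 24 g4 WY_tab_s5
  have g6 : allB (fun j => wTabF WY cY (Nat.add 0 j)) 168 = true :=
    seg_glue (wTabF WY cY) 0 144 24 g5 WY_tab_s6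
  have g7 : allB (fun j => wTabF WY cY (Nat.add 0 j)) 192 = true :=
    seg_glue (wTabF WY cY) 0 168 24 g6 WY_tab_s7
  have g8 : allB (fun j => wTabF WY cY (Nat.add 0 j)) 216 = true :=
    seg_glue (wTabF WY cY) 0 192 24 g7 WY_tab_s8
  have g9 : allB (fun j => wTabF WY cY (Nat.add 0 j)) 240 = true :=
    seg_glue (wTabF WY cY) 0 216 24 g8 WY_tab_s9
  have g10 : allB (fun j => wTabF WY cY (Nat.add 0 j)) 264 = true :=
    seg_glue (wTabF WY cY) 0 240 24 g9 WY_tab_s10
  have g11 : allB (fun j => wTabF WY cY (Nat.add 0 j)) 288 = true :=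
    seg_glue (wTabF WY cY) 0 264 24 g10 WY_tab_s11
  have g12 : allB (fun j => wTabF WY cY (Nat.add 0 j)) 312 = true :=
    seg_glue (wTabF WY cY) 0 288 24 g11 WY_tab_s12
  have g13 : allB (fun j => wTabF WY cY (Nat.add 0 j)) 336 = true :=
    seg_glue (wTabF WY cY) 0 312 24 g12 WY_tab_s13
  have g14 : allB (fun j => wTabF WY cY (Nat.add 0 j)) 360 = true :=
    seg_glue (wTabF WY cY) 0 336 24 g13 WY_tab_s14
  have g15 : allB (fun j => wTabF WY cY (Nat.add 0 j)) 384 = true :=
    seg_glue (wTabF WY cY) 0 360 24 g14 WY_tab_s15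
  have g16 : allB (fun j => wTabF WY cY (Nat.add 0 j)) 408 = true :=
    seg_glue (wTabF WY cY) 0 384 24 g15 WY_tab_s16
  have g17 : allB (fun j => wTabF WY cY (Nat.add 0 j)) 432 = true :=
    seg_glue (wTabF WY cY) 0 408 24 g16 WY_tab_s17
  have g18 : allB (fun j => wTabF WY cY (Nat.add 0 j)) 456 = true :=
    seg_glue (wTabF WY cY) 0 432 24 g17 WY_tab_s18
  have g19 : allB (fun j => wTabF WY cY (Nat.add 0 j)) 480 = true :=
    seg_glue (wTabF WY cY) 0 456 24 g18 WY_tab_s19
  have g20 : allB (fun j => wTabF WY cY (Nat.add 0 j)) 504 = true :=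
    seg_glue (wTabF WY cY) 0 480 24 g19 WY_tab_s20
  have g21 : allB (fun j => wTabF WY cY (Nat.add 0 j)) 528 = true :=
    seg_glue (wTabF WY cY) 0 504 24 g20 WY_tab_s21
  have g22 : allB (fun j => wTabF WY cY (Nat.add 0 j)) 552 = true :=
    seg_glue (wTabF WY cY) 0 528 24 g21 WY_tab_s22
  exact seg_all (wTabF WY cY) 552 g22

/-- a lattice word fixing `a48` and acting on the table as the coded permutation -/
theorem word_acts {W : List (ℕ × ℕ)} {c ci : ℕ} (hc : invOK c ci = true)
    (hW : genOKL LA552P W = true)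
    (htab : allB (fun j => runOK W (fldW 192 LF552E j) &&
      Nat.beq (runW W (fldW 192 LF552E j)) (fldW 192 LF552E (f16 c j))) 552 = true) :
    ∃ g ∈ Co3std, ActsAs g (permOf c ci hc) := by
  obtain ⟨g, hg, hfix, hrun⟩ := gen_eltL hW
  have ha : g a48 = a48 := hfix (LF552A, 393264) (List.mem_singleton.mpr rfl) LF552A_mem
  refine ⟨⟨g, hg⟩, MulAction.mem_stabilizer_iff.mpr ha, ?_⟩
  intro j v hv
  have hc' := (allB_iff _ _).mp htab j.val j.isLt
  simp only [Bool.and_eq_true] at hc'
  obtain ⟨h1, h2⟩ := hc'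
  have hm : vec (fldW 192 LF552E j.val) ∈ leechLattice := by rw [← hv]; exact v.2
  have ev : v = ⟨vec (fldW 192 LF552E j.val), hm⟩ := Subtype.ext hv
  have r1 := hrun _ h1 hm
  rw [ev]
  show ((g ⟨vec (fldW 192 LF552E j.val), hm⟩ : leechLattice) : GolayPt → ℤ)
    = vec (fldW 192 LF552E (f16 c j.val))
  rw [r1, Nat.eq_of_beq_eq_true h2]

/-- piece CO3-WORD -/
theorem word : StWord :=
  ⟨word_acts cX_ok WX_ok WX_tab, word_acts cY_ok WY_ok WY_tab⟩

end Cfsg.Agent.H6.Co3
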