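import Cfsg.Agent.H6.Co3Out2
import Cfsg.Agent.H6.Co3Rho
import Cfsg.Agent.H6.Co3Word
import Cfsg.Agent.H82.Co3Iso
import Cfsg.Agent.H82.Co3Central
import Cfsg.Agent.H82.Co3Out1
import Cfsg.Agent.H69.MclOrbStab

/-!
# The outer automorphism group of the Conway group Co3 is trivial (helper6)

Assembly: the abstract pieces of helper82 (`H82.Co3P.out1`, `central`; parallel copies of the first
by helper65 and helper69), the isomorphism with the stabiliser of `a48` and its simplicity and
order (`H82.Co3P.iso`, `simple`, on helper33's Leech library), the orbit–stabiliser inequality of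
helper69, and the permutation group computation on the 552 table vectors.
-/

set_option autoImplicit false

namespace Cfsg.Agent.H6.Co3

open Cfsg Cfsg.Agent.H9 Cfsg.Agent.H93 Cfsg.Agent.H33

theorem orbStab : OrbStab := fun H b O h => Cfsg.Agent.H69.Mcl.orbit_stab_le H b O h

theorem out_co3 : Nat.card (Cfsg.Out ↥Cfsg.Spor.Co3) = 1 :=
  out_co3_of Cfsg.Agent.H82.Co3P.out1 Cfsg.Agent.H82.Co3P.central orbStab
    Cfsg.Agent.H82.Co3P.iso Cfsg.Agent.H82.Co3P.simple rho word

end Cfsg.Agent.H6.Co3
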