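import Cfsg.Agent.H6.Co3Chk
import Cfsg.Agent.H6.Co3Abs
import Cfsg.Agent.H10.Level
import Cfsg.Prelude.Def_KGroupFacts

/-!
# The outer automorphism group of the Conway group Co3, in the permutation group on 552 points
(helper6)

`K = ⟨px, py⟩`. An automorphism sends the involution `py` (central in a Sylow 2-subgroup, whose
centre has order 2) to a conjugate of `py`; all conjugates of `py` are the shifts by powers of `px`
(order 23) of 7425 representatives (closure certificate on a base), and all representatives but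
`py` are refuted by the orders of words; no automorphism inverts `px`.
-/

set_option autoImplicit false

namespace Cfsg.Agent.H6.Co3

open Cfsg Cfsg.Agent.H9 Cfsg.Agent.H93 Cfsg.Agent.H33

/-! ### Codes -/

theorem lt_of_succ_lt' (f : ℕ → ℕ) (n : ℕ) (hs : ∀ e, e + 1 < n → f e < f (e + 1)) :
    ∀ i j, i < j → j < n → f i < f j := by
  intro i j hij
  induction j with
  | zero => omega
  | succ j ih =>
    intro hj
    rcases Nat.lt_succ_iff_lt_or_eq.mp hij with h1 | h1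
    · exact (ih h1 (by omega)).trans (hs j hj)
    · subst h1; exact hs i hj

theorem inj_succ (f : ℕ → ℕ) (n : ℕ) (hs : ∀ e, e + 1 < n → f e < f (e + 1)) :
    ∀ i j, i < n → j < n → f i = f j → i = j := by
  intro i j hi hj e
  rcases Nat.lt_trichotomy i j with h | h | h
  · exact absurd e (lt_of_succ_lt' f n hs i j h hj).ne
  · exact h
  · exact absurd e.symm (lt_of_succ_lt' f n hs j i h hi).ne

theorem allB_beq (f g : ℕ → ℕ) (n : ℕ) :
    allB (fun p => Nat.beq (f p) (g p)) n = true ↔ ∀ p < n, f p = g p := by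
  rw [allB_iff]
  constructor
  · intro h j hj
    exact Nat.eq_of_beq_eq_true (h j hj)
  · intro h j hj
    rw [h j hj]
    exact Nat.beq_refl _

theorem PRep.unique {g h : Equiv.Perm (Fin 552)} {a : ℕ} (hg : PRep g a) (hh : PRep h a) :
    g = h :=
  Equiv.ext fun j => Fin.ext (by rw [hg j, hh j])

theorem PRep.congr {g : Equiv.Perm (Fin 552)} {a b : ℕ} (hg : PRep g a)
    (e : ∀ p < 552, f16 b p = f16 a p) : PRep g b := fun j => by
  rw [hg j]
  exact (e j.val j.isLt).symm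

theorem PRep.eq_one {g : Equiv.Perm (Fin 552)} {a : ℕ} (hg : PRep g a)
    (e : ∀ p < 552, f16 a p = p) : g = 1 :=
  Equiv.ext fun j => Fin.ext (by rw [hg j, e j.val j.isLt]; rfl)

theorem PRep.inv {g : Equiv.Perm (Fin 552)} {a b : ℕ} (hg : PRep g a) (h : invOK a b = true) :
    PRep g⁻¹ b := by
  have e : g = permOf a b h := hg.unique (prep_permOf a b h)
  rw [e]
  intro j
  rfl

theorem f16_testBit (P i b : ℕ) (hb : b < 16) : (f16 P i).testBit b = P.testBit (16 * i + b) := by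
  show ((P >>> (16 * i)) &&& 65535).testBit b = _
  rw [Nat.testBit_and, Nat.testBit_shiftRight, show (65535 : ℕ) = 2 ^ 16 - 1 by norm_num,
    Nat.testBit_two_pow_sub_one]
  simp [hb]

theorem normQ_eq {a b : ℕ} (h : ∀ j < 552, f16 a j = f16 b j) : normQ a = normQ b := by
  show a % 2 ^ 8832 = b % 2 ^ 8832
  apply Nat.eq_of_testBit_eq
  intro i
  rw [Nat.testBit_mod_two_pow, Nat.testBit_mod_two_pow]
  by_cases hi : i < 8832
  · have ha := f16_testBit a (i / 16) (i % 16) (Nat.mod_lt _ (by norm_num))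
    have hb := f16_testBit b (i / 16) (i % 16) (Nat.mod_lt _ (by norm_num))
    have e : 16 * (i / 16) + i % 16 = i := by omega
    rw [e] at ha hb
    rw [← ha, ← hb, h (i / 16) (by omega)]
  · simp [hi]

theorem perm_inv_self (f : Equiv.Perm (Fin 552)) (x : Fin 552) : f⁻¹ (f x) = x :=
  Equiv.Perm.inv_eq_iff_eq.mpr rfl

/-! ### The generators -/

theorem prep_px : PRep px cX := prep_permOf _ _ _
theorem prep_py : PRep py cY := prep_permOf _ _ _
theorem px_mem : px ∈ K := Subgroup.subset_closure (Set.mem_insert _ _)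
theorem py_mem : py ∈ K :=
  Subgroup.subset_closure (Set.mem_insert_of_mem _ (Set.mem_singleton _))

theorem prep_XP_le : ∀ i, i ≤ 22 → PRep (px ^ i) (XP i) := by
  intro i
  induction i with
  | zero =>
    intro _ p
    rw [pow_zero, (allB_beq _ _ _).mp XP_zero p.val p.isLt]
    rfl
  | succ i ih =>
    intro hi p
    rw [pow_succ', Equiv.Perm.mul_apply, prep_px, ih (by omega)]
    exact ((allB_beq _ _ _).mp ((allB_iff _ _).mp XP_succ i (by omega)) p.val p.isLt).symm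

theorem px_pow : px ^ 23 = 1 := by
  apply Equiv.ext
  intro p
  apply Fin.ext
  rw [pow_succ', Equiv.Perm.mul_apply, prep_px, prep_XP_le 22 (le_refl _)]
  exact (allB_beq _ _ _).mp XP_last p.val p.isLt

theorem px_ne : px ≠ 1 := fun e => by
  have h := prep_px ⟨0, by norm_num⟩
  rw [e] at h
  have h2 : Nat.beq (f16 cX 0) 0 = true := by
    rw [Nat.beq_eq]
    exact h.symm
  rw [cX_ne] at h2
  exact Bool.false_ne_true h2

theorem py_ne : py ≠ 1 := fun e => by
  have h2 : allB (fun p => Nat.beq (f16 cY p) p) 552 = true := by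
    rw [allB_beq]
    intro p hp
    have h := prep_py ⟨p, hp⟩
    rw [e] at h
    exact h.symm
  rw [cY_ne] at h2
  exact Bool.false_ne_true h2

theorem py_inv : py⁻¹ = py := (prep_py.inv cY_ok).unique prep_py

theorem prep_pxi : PRep px⁻¹ cXi := prep_px.inv cX_ok

theorem prep_XP (a : ℕ) : PRep (px ^ a) (XP (a % 23)) := by
  have h1 : px ^ a = px ^ (a % 23) := pow_eq_pow_mod a px_pow
  rw [h1]
  exact prep_XP_le _ (by have := Nat.mod_lt a (show 0 < 23 by norm_num); omega)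

theorem prep_XPi (a : ℕ) : PRep (px ^ a)⁻¹ (XPi (a % 23)) :=
  (prep_XP a).inv ((allB_iff _ _).mp XP_inv _ (Nat.mod_lt _ (by norm_num)))

/-! ### The straight-line program and the transversals -/

theorem node_sound : ∀ k, k < 1281 → ∃ g ∈ K, PRep g (nC k) := by
  intro k
  induction k using Nat.strong_induction_on with
  | _ k ih =>
    intro hk
    have hc := chkN_all k hk
    simp only [chkN, Bool.or_eq_true, Bool.and_eq_true, Nat.blt_eq] at hc
    rcases hc with hc | ⟨ha, hb, he⟩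
    · interval_cases k
      · exact ⟨px, px_mem, prep_px.congr ((allB_beq _ _ _).mp nC_0)⟩
      · exact ⟨py, py_mem, prep_py.congr ((allB_beq _ _ _).mp nC_1)⟩
    · obtain ⟨ga, hga, ra⟩ := ih _ ha (by omega)
      obtain ⟨gb, hgb, rb⟩ := ih _ hb (by omega)
      refine ⟨ga * gb, K.mul_mem hga hgb, fun p => ?_⟩
      rw [Equiv.Perm.mul_apply, ra, rb]
      exact ((allB_beq _ _ _).mp he p.val p.isLt).symm

theorem tr_sound (l : List (ℕ × ℕ)) (n lv : ℕ) (hlv : lv < 552)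
    (h : allB (chkT l n lv) n = true) :
    ∃ O : Finset (Fin 552), O.card = n ∧ ∀ q ∈ O, (∃ t < n, q.val = (trE l t).1) ∧ ∃ g ∈ K,
      (∀ p : Fin 552, p.val < lv → g p = p) ∧ g ⟨lv, hlv⟩ = q := by
  classical
  have hc : ∀ t < n, (trE l t).2 < 1281 ∧ (trE l t).1 < 552 ∧
      (∀ p < lv, f16 (nC (trE l t).2) p = p) ∧ f16 (nC (trE l t).2) lv = (trE l t).1 ∧
      (t + 1 < n → (trE l t).1 < (trE l (t + 1)).1) := by
    intro t ht
    have h0 := (allB_iff _ _).mp h t ht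
    simp only [chkT, Bool.and_eq_true, Bool.or_eq_true, Nat.blt_eq, Nat.beq_eq] at h0
    obtain ⟨h1, h2, h3, h4, h5⟩ := h0
    refine ⟨h1, h2, (allB_beq _ _ _).mp h3, h4, fun hlt => ?_⟩
    rcases h5 with h5 | h5
    · omega
    · exact h5
  let f : Fin n → Fin 552 := fun t => ⟨(trE l t).1 % 552, Nat.mod_lt _ (by norm_num)⟩
  have hf : Function.Injective f := by
    intro t t' e
    have e1 : (trE l t).1 % 552 = (trE l t').1 % 552 := congrArg Fin.val e
    rw [Nat.mod_eq_of_lt (hc t t.2).2.1, Nat.mod_eq_of_lt (hc t' t'.2).2.1] at e1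
    exact Fin.ext (inj_succ (fun t => (trE l t).1) n
      (fun e he => (hc e (by omega)).2.2.2.2 he) t t' t.2 t'.2 e1)
  refine ⟨Finset.univ.image f, ?_, ?_⟩
  · rw [Finset.card_image_of_injective _ hf, Finset.card_univ, Fintype.card_fin]
  · intro q hq
    rw [Finset.mem_image] at hq
    obtain ⟨t, -, rfl⟩ := hq
    obtain ⟨h1, h2, h3, h4, -⟩ := hc t t.2
    obtain ⟨g, hg, rg⟩ := node_sound _ h1
    refine ⟨⟨t.val, t.2, Nat.mod_eq_of_lt h2⟩, g, hg, fun p hp => ?_, ?_⟩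
    · exact Fin.ext ((rg p).trans (h3 p.val hp))
    · apply Fin.ext
      show (g ⟨lv, hlv⟩).val = (trE l t).1 % 552
      rw [Nat.mod_eq_of_lt h2, ← h4]
      exact rg ⟨lv, hlv⟩

/-! ### The stabiliser chain -/

/-- the point `l` -/
def bpt (l : ℕ) : Fin 552 := ⟨l % 552, Nat.mod_lt _ (by norm_num)⟩

/-- the stabiliser in `K` of the points below `l` -/
def Hs : ℕ → Subgroup (Equiv.Perm (Fin 552))
  | 0 => K
  | l + 1 => Hs l ⊓ MulAction.stabilizer (Equiv.Perm (Fin 552)) (bpt l)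

theorem mem_Hs : ∀ l, l ≤ 552 → ∀ g : Equiv.Perm (Fin 552),
    g ∈ Hs l ↔ g ∈ K ∧ ∀ p : Fin 552, p.val < l → g p = p := by
  intro l
  induction l with
  | zero =>
    intro _ g
    show g ∈ K ↔ _
    constructor
    · intro h
      exact ⟨h, fun p hp => absurd hp (Nat.not_lt_zero _)⟩
    · exact fun h => h.1
  | succ l ih =>
    intro hl g
    show g ∈ Hs l ⊓ MulAction.stabilizer (Equiv.Perm (Fin 552)) (bpt l) ↔ _
    rw [Subgroup.mem_inf, ih (by omega), MulAction.mem_stabilizer_iff, Equiv.Perm.smul_def]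
    constructor
    · rintro ⟨⟨h1, h2⟩, h3⟩
      refine ⟨h1, fun p hp => ?_⟩
      rcases Nat.lt_succ_iff_lt_or_eq.mp hp with h | h
      · exact h2 p h
      · have : p = bpt l := Fin.ext (by rw [h]; exact (Nat.mod_eq_of_lt (by omega)).symm)
        rw [this]
        exact h3
    · rintro ⟨h1, h2⟩
      refine ⟨⟨h1, fun p hp => h2 p (by omega)⟩, ?_⟩
      exact h2 (bpt l) (by show l % 552 < l + 1; rw [Nat.mod_eq_of_lt (by omega)]; omega)

/-- the orbit–stabiliser inequality, as a hypothesis -/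
def OrbStab : Prop := ∀ (H : Subgroup (Equiv.Perm (Fin 552))) (b : Fin 552) (O : Finset (Fin 552)),
  (∀ q ∈ O, ∃ g ∈ H, g b = q) →
    O.card * Nat.card ↥(H ⊓ MulAction.stabilizer (Equiv.Perm (Fin 552)) b) ≤ Nat.card ↥H

theorem bpt_eq (l : ℕ) (hl : l < 552) : bpt l = ⟨l, hl⟩ := Fin.ext (Nat.mod_eq_of_lt hl)

theorem level_le (hOS : OrbStab) (l : List (ℕ × ℕ)) (n lv : ℕ) (hlv : lv < 552)
    (h : allB (chkT l n lv) n = true) : n * Nat.card ↥(Hs (lv + 1)) ≤ Nat.card ↥(Hs lv) := by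
  obtain ⟨O, hO, hq⟩ := tr_sound l n lv hlv h
  have := hOS (Hs lv) (bpt lv) O (fun q hq' => by
    obtain ⟨-, g, hg, h1, h2⟩ := hq q hq'
    refine ⟨g, (mem_Hs lv (by omega) g).mpr ⟨hg, h1⟩, ?_⟩
    rw [bpt_eq lv hlv]
    exact h2)
  rw [hO] at this
  exact this

theorem chain_le (hOS : OrbStab) : 495766656000 * Nat.card ↥(Hs 7) ≤ Nat.card ↥K := by
  have h0 : 552 * Nat.card ↥(Hs 1) ≤ Nat.card ↥(Hs 0) :=
    level_le hOS tr0 552 0 (by norm_num) chkT_0
  have h1 : 275 * Nat.card ↥(Hs 2) ≤ Nat.card ↥(Hs 1) :=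
    level_le hOS tr1 275 1 (by norm_num) chkT_1
  have h2 : 162 * Nat.card ↥(Hs 3) ≤ Nat.card ↥(Hs 2) :=
    level_le hOS tr2 162 2 (by norm_num) chkT_2
  have h3 : 105 * Nat.card ↥(Hs 4) ≤ Nat.card ↥(Hs 3) :=
    level_le hOS tr3 105 3 (by norm_num) chkT_3
  have h4 : 4 * Nat.card ↥(Hs 5) ≤ Nat.card ↥(Hs 4) :=
    level_le hOS tr4 4 4 (by norm_num) chkT_4
  have h5 : 3 * Nat.card ↥(Hs 6) ≤ Nat.card ↥(Hs 5) :=
    level_le hOS tr5 3 5 (by norm_num) chkT_5
  have h6 : 16 * Nat.card ↥(Hs 7) ≤ Nat.card ↥(Hs 6) :=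
    level_le hOS tr6 16 6 (by norm_num) chkT_6
  have e : Nat.card ↥(Hs 0) = Nat.card ↥K := rfl
  omega

theorem card_lb (hOS : OrbStab) : 495766656000 ≤ Nat.card ↥K := by
  have h := chain_le hOS
  have h7 : 0 < Nat.card ↥(Hs 7) := Nat.card_pos
  omega

/-- the pointwise stabiliser of the base is trivial -/
theorem Hs_top (hOS : OrbStab) (hcard : Nat.card ↥K = 495766656000) : Hs 7 = ⊥ := by
  have h := chain_le hOS
  have h7 : 0 < Nat.card ↥(Hs 7) := Nat.card_pos
  apply Subgroup.eq_bot_of_card_eq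
  omega

/-- two elements of `K` agreeing on the base are equal -/
theorem base_inj (hOS : OrbStab) (hcard : Nat.card ↥K = 495766656000)
    {g h : Equiv.Perm (Fin 552)} (hg : g ∈ K) (hh : h ∈ K)
    (e : ∀ p : Fin 552, p.val < 7 → g p = h p) : g = h := by
  have h1 : g⁻¹ * h ∈ Hs 7 := by
    rw [mem_Hs 7 (by norm_num)]
    refine ⟨K.mul_mem (K.inv_mem hg) hh, fun p hp => ?_⟩
    rw [Equiv.Perm.mul_apply, Equiv.Perm.inv_eq_iff_eq]
    exact (e p hp).symm
  rw [Hs_top hOS hcard, Subgroup.mem_bot] at h1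
  exact (inv_mul_eq_one.mp h1)

/-! ### The Sylow 2-subgroup -/

theorem chkP_sound (m : ℕ) (hm : m < 1024) :
    (∀ s < 4, pNx s m < 1024 ∧ ∀ p < 552, f16 (cS s) (f16 (pE m) p) = f16 (pE (pNx s m)) p) ∧
    (m + 1 ≠ 1024 → normQ (pE m) < normQ (pE (m + 1))) ∧
    (m ≠ pOne → pPar m < 1024 ∧ pDep (pPar m) < pDep m ∧ pGen m < 4 ∧
      pNx (pGen m) (pPar m) = m) ∧
    (m ≠ pOne → m ≠ pY → pWs m < 4 ∧ pWq m < 552 ∧
      f16 (cS (pWs m)) (f16 (pE m) (pWq m)) ≠ f16 (pE m) (f16 (cS (pWs m)) (pWq m))) := by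
  have hc := chkP_all m hm
  simp only [chkP, Bool.and_eq_true, Bool.or_eq_true, Nat.blt_eq, Nat.beq_eq,
    Bool.not_eq_true'] at hc
  obtain ⟨h1, h2, h3, h4⟩ := hc
  refine ⟨fun s hs => ?_, fun hne => ?_, fun hne => ?_, fun e1 e2 => ?_⟩
  · have := (allB_iff _ _).mp h1 s hs
    simp only [Bool.and_eq_true, Nat.blt_eq] at this
    exact ⟨this.1, (allB_beq _ _ _).mp this.2⟩
  · rcases h2 with h2 | h2
    · exact absurd h2 hne
    · exact h2
  · rcases h3 with h3 | h3
    · exact absurd h3 hne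
    · exact h3
  · rcases h4 with h4 | h4 | h4
    · exact absurd h4 e1
    · exact absurd h4 e2
    · exact ⟨h4.1, h4.2.1, Nat.ne_of_beq_eq_false h4.2.2⟩

/-- the generators of the Sylow subgroup -/
def SG : Set (Equiv.Perm (Fin 552)) := {g | ∃ s, s < 4 ∧ PRep g (cS s)}

/-- a Sylow 2-subgroup -/
def P2 : Subgroup (Equiv.Perm (Fin 552)) := Subgroup.closure SG

theorem cS_sound (s : ℕ) (hs : s < 4) : ∃ g ∈ K, PRep g (cS s) := by
  have := (allB_iff _ _).mp sNl_lt s hs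
  rw [Nat.blt_eq] at this
  exact node_sound _ this

theorem P2_le : P2 ≤ K := by
  unfold P2
  rw [Subgroup.closure_le]
  rintro g ⟨s, hs, hg⟩
  obtain ⟨g', hg', r'⟩ := cS_sound s hs
  rw [hg.unique r']
  exact hg'

theorem jY_lt' : jY < 7425 ∧ pY < 1024 ∧ pOne < 1024 ∧ pY ≠ pOne := by
  have h := jY_lt
  simp only [Bool.and_eq_true, Nat.blt_eq, Bool.not_eq_true'] at h
  exact ⟨h.1, h.2.1, h.2.2.1, Nat.ne_of_beq_eq_false h.2.2.2⟩

theorem prep_pOne : PRep 1 (pE pOne) := fun p => by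
  rw [(allB_beq _ _ _).mp pE_one p.val p.isLt]
  rfl

theorem P2_rep : ∀ g ∈ P2, ∃ m, m < 1024 ∧ PRep g (pE m) := by
  apply Cfsg.Agent.H10.closure_subset_of_mul_closed SG {g | ∃ m, m < 1024 ∧ PRep g (pE m)}
  · exact ⟨pOne, jY_lt'.2.2.1, prep_pOne⟩
  · rintro g ⟨s, hs, hg⟩ x ⟨m, hm, hx⟩
    obtain ⟨h1, h2⟩ := (chkP_sound m hm).1 s hs
    refine ⟨pNx s m, h1, fun p => ?_⟩
    rw [Equiv.Perm.mul_apply, hg, hx]
    exact h2 p.val p.isLt

theorem pE_mem : ∀ d m, m < 1024 → pDep m = d → ∃ g ∈ P2, PRep g (pE m) := by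
  intro d
  induction d using Nat.strong_induction_on with
  | _ d ih =>
    intro m hm hd
    by_cases h1 : m = pOne
    · exact ⟨1, P2.one_mem, by rw [h1]; exact prep_pOne⟩
    · obtain ⟨a, b, c, e⟩ := (chkP_sound m hm).2.2.1 h1
      obtain ⟨g, hg, rg⟩ := ih (pDep (pPar m)) (by omega) (pPar m) a rfl
      obtain ⟨s0, -, rs⟩ := cS_sound (pGen m) c
      have hs0 : s0 ∈ P2 := Subgroup.subset_closure ⟨pGen m, c, rs⟩
      obtain ⟨-, h2⟩ := (chkP_sound (pPar m) a).1 (pGen m) c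
      rw [e] at h2
      refine ⟨s0 * g, P2.mul_mem hs0 hg, fun p => ?_⟩
      rw [Equiv.Perm.mul_apply, rs, rg]
      exact h2 p.val p.isLt

theorem P2_card : Nat.card P2 = 2 ^ 10 := by
  have key : ∀ m : Fin 1024, ∃ g ∈ P2, PRep g (pE m) := fun m => pE_mem _ m m.2 rfl
  let f : Fin 1024 → P2 := fun m =>
    ⟨Classical.choose (key m), (Classical.choose_spec (key m)).1⟩
  have hf : Function.Bijective f := by
    constructor
    · intro m m' e
      have e1 : Classical.choose (key m) = Classical.choose (key m') := congrArg Subtype.val e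
      have h1 := (Classical.choose_spec (key m)).2
      rw [e1] at h1
      have h2 := (Classical.choose_spec (key m')).2
      have h3 : normQ (pE m) = normQ (pE m') :=
        normQ_eq (fun j hj => (h1 ⟨j, hj⟩).symm.trans (h2 ⟨j, hj⟩))
      exact Fin.ext (inj_succ (fun m => normQ (pE m)) 1024
        (fun e he => (chkP_sound e (by omega)).2.1 (by omega)) m m' m.2 m'.2 h3)
    · rintro ⟨g, hg⟩
      obtain ⟨m, hm, r⟩ := P2_rep g hg
      exact ⟨⟨m, hm⟩, Subtype.ext ((Classical.choose_spec (key ⟨m, hm⟩)).2.unique r)⟩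
  rw [← Nat.card_congr (Equiv.ofBijective f hf), Nat.card_fin]
  norm_num

theorem prep_pY : PRep py (pE pY) :=
  prep_py.congr ((allB_beq _ _ _).mp pE_y)

theorem py_mem_P2 : py ∈ P2 := by
  obtain ⟨g, hg, rg⟩ := pE_mem _ pY jY_lt'.2.1 rfl
  rw [← rg.unique prep_pY]
  exact hg

theorem py_central : ∀ g ∈ P2, py * g = g * py := by
  have h : P2 ≤ Subgroup.centralizer {py} := by
    unfold P2
    rw [Subgroup.closure_le]
    rintro g ⟨s, hs, hg⟩
    rw [SetLike.mem_coe, Subgroup.mem_centralizer_iff]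
    intro h hh
    rw [Set.mem_singleton_iff] at hh
    subst hh
    apply Equiv.ext
    intro p
    apply Fin.ext
    rw [Equiv.Perm.mul_apply, Equiv.Perm.mul_apply, prep_py, hg, hg, prep_py]
    exact ((allB_beq _ _ _).mp ((allB_iff _ _).mp cS_comm s hs) p.val p.isLt).symm
  intro g hg
  have := Subgroup.mem_centralizer_iff.mp (h hg) py (Set.mem_singleton _)
  exact this

theorem P2_center : ∀ c ∈ P2, (∀ g ∈ P2, c * g = g * c) → c = 1 ∨ c = py := by
  intro c hc hcen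
  obtain ⟨m, hm, r⟩ := P2_rep c hc
  by_cases h1 : m = pOne
  · left
    rw [h1] at r
    exact r.unique prep_pOne
  by_cases h2 : m = pY
  · right
    rw [h2] at r
    exact r.unique prep_pY
  exfalso
  obtain ⟨hs, hq, hne⟩ := (chkP_sound m hm).2.2.2 h1 h2
  obtain ⟨s0, -, rs⟩ := cS_sound (pWs m) hs
  have hs0 : s0 ∈ P2 := Subgroup.subset_closure ⟨pWs m, hs, rs⟩
  have e := hcen s0 hs0
  have e1 : ((s0 * c) ⟨pWq m, hq⟩).val = ((c * s0) ⟨pWq m, hq⟩).val := by rw [e]
  rw [Equiv.Perm.mul_apply, Equiv.Perm.mul_apply, rs, r, r, rs] at e1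
  exact hne e1

/-! ### The conjugates of `y` -/

theorem chkTree_sound (j : ℕ) (hj : j < 7425) (hne : j ≠ jY) :
    dPar j < 7425 ∧ dDep (dPar j) < dDep j ∧ dI j < 23 ∧ rCj (dI j) (dPar j) = j ∧
      rCi (dI j) (dPar j) < 23 ∧ ∀ p < 552, f16 (rE j) p < 552 ∧
        f16 cY (conjF (dI j) (dPar j) (f16 cY p)) = conjF (rCi (dI j) (dPar j)) j p := by
  have hc := chkTree_all j hj
  simp only [chkTree, Bool.or_eq_true, Bool.and_eq_true, Nat.blt_eq, Nat.beq_eq] at hc
  rcases hc with hc | ⟨h1, h2, h3, h4, h5, h6⟩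
  · exact absurd hc hne
  · refine ⟨h1, h2, h3, h4, h5, fun p hp => ?_⟩
    have := (allB_iff _ _).mp h6 p hp
    simp only [Bool.and_eq_true, Nat.blt_eq, Nat.beq_eq] at this
    exact this

theorem prep_conj' {i : ℕ} (hi : i < 23) {g : Equiv.Perm (Fin 552)} {j : ℕ} (hg : PRep g (rE j))
    (p : Fin 552) : ((px ^ i * g * (px ^ i)⁻¹) p).val = conjF i j p.val := by
  have h1 := prep_XP i
  have h2 := prep_XPi i
  rw [Nat.mod_eq_of_lt hi] at h1 h2
  show ((px ^ i) (g ((px ^ i)⁻¹ p))).val = _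
  rw [h1, hg, h2]
  rfl

theorem Rj_ex : ∀ d j, j < 7425 → dDep j = d →
    ∃ g ∈ K, PRep g (rE j) ∧ ∃ h ∈ K, g = h * py * h⁻¹ := by
  intro d
  induction d using Nat.strong_induction_on with
  | _ d ih =>
    intro j hj hd
    by_cases h1 : j = jY
    · refine ⟨py, py_mem, ?_, 1, K.one_mem, by group⟩
      rw [h1]
      exact prep_py.congr ((allB_beq _ _ _).mp cR_y)
    · obtain ⟨a, b, c, e, f, hp⟩ := chkTree_sound j hj h1
      obtain ⟨g0, hg0, r0, h0, hh0, e0⟩ := ih (dDep (dPar j)) (by omega) (dPar j) a rfl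
      have hxa : px ^ rCi (dI j) (dPar j) ∈ K := K.pow_mem px_mem _
      have hxi : px ^ dI j ∈ K := K.pow_mem px_mem _
      refine ⟨(px ^ rCi (dI j) (dPar j))⁻¹ * (py * (px ^ dI j * g0 * (px ^ dI j)⁻¹) * py) *
        px ^ rCi (dI j) (dPar j), ?_, ?_, (px ^ rCi (dI j) (dPar j))⁻¹ * py * px ^ dI j * h0,
        ?_, ?_⟩
      · exact K.mul_mem (K.mul_mem (K.inv_mem hxa) (K.mul_mem (K.mul_mem py_mem
          (K.mul_mem (K.mul_mem hxi hg0) (K.inv_mem hxi))) py_mem)) hxa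
      · intro p
        have hA1 := prep_XP (rCi (dI j) (dPar j))
        have hA2 := prep_XPi (rCi (dI j) (dPar j))
        rw [Nat.mod_eq_of_lt f] at hA1 hA2
        obtain ⟨hlt, hid⟩ := hp ((px ^ rCi (dI j) (dPar j)) p).val
          ((px ^ rCi (dI j) (dPar j)) p).isLt
        have hq : f16 (XPi (rCi (dI j) (dPar j))) ((px ^ rCi (dI j) (dPar j)) p).val = p.val := by
          rw [← hA2, perm_inv_self]
        have hlt' : f16 (rE j) p.val < 552 := by
          have := (hp p.val p.isLt).1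
          exact this
        have hM : (py ((px ^ dI j * g0 * (px ^ dI j)⁻¹) (py ((px ^ rCi (dI j) (dPar j)) p)))).val
            = ((px ^ rCi (dI j) (dPar j)) ⟨f16 (rE j) p.val, hlt'⟩).val := by
          rw [prep_py, prep_conj' c r0, prep_py, hid]
          show f16 (XP (rCi (dI j) (dPar j))) (f16 (rE j)
            (f16 (XPi (rCi (dI j) (dPar j))) ((px ^ rCi (dI j) (dPar j)) p).val)) = _
          rw [hq, hA1]
        have hM' := Fin.ext hM
        show ((px ^ rCi (dI j) (dPar j))⁻¹ (py ((px ^ dI j * g0 * (px ^ dI j)⁻¹)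
          (py ((px ^ rCi (dI j) (dPar j)) p))))).val = _
        rw [hM', perm_inv_self]
      · exact K.mul_mem (K.mul_mem (K.mul_mem (K.inv_mem hxa) py_mem) hxi) hh0
      · rw [e0]
        have hy : py⁻¹ = py := py_inv
        simp only [mul_inv_rev, inv_inv, hy, mul_assoc]

/-- representative `j` as a permutation -/
noncomputable def Rj (j : ℕ) (hj : j < 7425) : Equiv.Perm (Fin 552) :=
  Classical.choose (Rj_ex _ j hj rfl)

theorem Rj_mem (j : ℕ) (hj : j < 7425) : Rj j hj ∈ K :=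
  (Classical.choose_spec (Rj_ex _ j hj rfl)).1

theorem prep_Rj (j : ℕ) (hj : j < 7425) : PRep (Rj j hj) (rE j) :=
  (Classical.choose_spec (Rj_ex _ j hj rfl)).2.1

theorem Rj_y : Rj jY jY_lt'.1 = py :=
  ((prep_Rj jY _).congr (fun p hp => ((allB_beq _ _ _).mp cR_y p hp).symm)).unique prep_py

theorem prep_conj {i : ℕ} (hi : i < 23) (j : ℕ) (hj : j < 7425) (p : Fin 552) :
    ((px ^ i * Rj j hj * (px ^ i)⁻¹) p).val = conjF i j p.val :=
  prep_conj' hi (prep_Rj j hj) p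

/-- the shifts of the representatives -/
def SS : Set (Equiv.Perm (Fin 552)) :=
  {g | ∃ i j : ℕ, ∃ hj : j < 7425, g = px ^ i * Rj j hj * (px ^ i)⁻¹}

theorem chkB_sound (j : ℕ) (hj : j < 7425) (i : ℕ) (hi : i < 23) :
    rCi i j < 23 ∧ rCj i j < 7425 ∧
      ∀ b < 7, f16 cY (conjF i j (f16 cY b)) = conjF (rCi i j) (rCj i j) b := by
  have hc := (allB_iff _ _).mp (chkB_all j hj) i hi
  simp only [Bool.and_eq_true, Nat.blt_eq] at hc
  exact ⟨hc.1, hc.2.1, (allB_beq _ _ _).mp hc.2.2⟩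

theorem SS_conj (hOS : OrbStab) (hcard : Nat.card ↥K = 495766656000) :
    ∀ s ∈ SS, ∀ g ∈ ({px, py} : Set (Equiv.Perm (Fin 552))), g * s * g⁻¹ ∈ SS := by
  rintro s ⟨i, j, hj, rfl⟩ g (rfl | rfl)
  · refine ⟨i + 1, j, hj, ?_⟩
    rw [pow_succ']
    group
  · have hi : i % 23 < 23 := Nat.mod_lt _ (by norm_num)
    obtain ⟨a, b, c⟩ := chkB_sound j hj (i % 23) hi
    refine ⟨rCi (i % 23) j, rCj (i % 23) j, b, ?_⟩
    have hxi : px ^ (i % 23) ∈ K := K.pow_mem px_mem _
    have hxa : px ^ rCi (i % 23) j ∈ K := K.pow_mem px_mem _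
    rw [py_inv, pow_eq_pow_mod i px_pow]
    apply base_inj hOS hcard
    · exact K.mul_mem (K.mul_mem py_mem (K.mul_mem (K.mul_mem hxi (Rj_mem j hj)) (K.inv_mem hxi)))
        py_mem
    · exact K.mul_mem (K.mul_mem hxa (Rj_mem _ b)) (K.inv_mem hxa)
    · intro p hp
      apply Fin.ext
      rw [prep_conj a _ b, ← c p.val hp]
      show (py ((px ^ (i % 23) * Rj j hj * (px ^ (i % 23))⁻¹) (py p))).val = _
      rw [prep_py, prep_conj hi j hj, prep_py]

theorem SS_conj_K (hOS : OrbStab) (hcard : Nat.card ↥K = 495766656000) :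
    ∀ g ∈ K, ∀ s ∈ SS, g * s * g⁻¹ ∈ SS := by
  apply Cfsg.Agent.H10.closure_subset_of_mul_closed {px, py}
    {g : Equiv.Perm (Fin 552) | ∀ s ∈ SS, g * s * g⁻¹ ∈ SS}
  · intro s hs
    rw [one_mul, inv_one, mul_one]
    exact hs
  · intro g hg x hx s hs
    have h1 := SS_conj hOS hcard _ (hx s hs) g hg
    have e : g * x * s * (g * x)⁻¹ = g * (x * s * x⁻¹) * g⁻¹ := by group
    rw [e]
    exact h1

theorem py_mem_SS : py ∈ SS :=
  ⟨0, jY, jY_lt'.1, by rw [pow_zero, one_mul, inv_one, mul_one, Rj_y]⟩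

/-- every conjugate of `y` in `K` is a shift of a representative -/
theorem conj_y_SS (hOS : OrbStab) (hcard : Nat.card ↥K = 495766656000) :
    ∀ g ∈ K, g * py * g⁻¹ ∈ SS :=
  fun g hg => SS_conj_K hOS hcard g hg py py_mem_SS

end Cfsg.Agent.H6.Co3
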