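import Cfsg.Agent.H6.Co3Out

/-!
# The outer automorphism group of the Conway group Co3 on 552 points: automorphisms (helper6)
-/

set_option autoImplicit false

namespace Cfsg.Agent.H6.Co3

open Cfsg Cfsg.Agent.H9 Cfsg.Agent.H93 Cfsg.Agent.H33

/-! ### Elements of the group -/

/-- the element `x` of order 23 -/
def xh : ↥K := ⟨px, px_mem⟩

/-- the involution `y` -/
def yh : ↥K := ⟨py, py_mem⟩

theorem nN_lt : nN < 1281 := by
  have h := nN_rel
  simp only [Bool.and_eq_true, Nat.blt_eq] at h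
  exact h.1

theorem nN_sound : ∃ g ∈ K, PRep g (nC nN) := node_sound nN nN_lt

/-- an element normalising the group generated by `x` -/
noncomputable def nG : Equiv.Perm (Fin 552) := Classical.choose nN_sound

theorem nG_mem : nG ∈ K := (Classical.choose_spec nN_sound).1

theorem prep_nG : PRep nG (nC nN) := (Classical.choose_spec nN_sound).2

/-- the normalising element in the group -/
noncomputable def nh : ↥K := ⟨nG, nG_mem⟩

theorem xh_pow : xh ^ 23 = 1 := Subtype.ext px_pow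

theorem xh_order : orderOf xh = 23 := by
  have : Fact (Nat.Prime 23) := ⟨by norm_num⟩
  refine orderOf_eq_prime xh_pow ?_
  intro e
  exact px_ne (congrArg Subtype.val e)

theorem gen_J : Subgroup.closure ({xh, yh} : Set ↥K) = ⊤ := by
  have h : ((↑) : ↥K → Equiv.Perm (Fin 552)) ⁻¹' {px, py} = {xh, yh} := by
    ext g
    simp only [Set.mem_preimage, Set.mem_insert_iff, Set.mem_singleton_iff]
    constructor
    · rintro (e | e)
      · left; exact Subtype.ext e
      · right; exact Subtype.ext e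
    · rintro (e | e)
      · left; rw [e]; rfl
      · right; rw [e]; rfl
  rw [← h]
  exact Subgroup.closure_closure_coe_preimage

theorem n_rel : nh * xh * nh⁻¹ = xh ^ 13 := by
  rw [mul_inv_eq_iff_eq_mul]
  apply Subtype.ext
  show nG * px = px ^ 13 * nG
  apply Equiv.ext
  intro p
  apply Fin.ext
  have h3 : PRep (px ^ 13) (XP 13) := prep_XP 13
  have h := nN_rel
  simp only [Bool.and_eq_true, Nat.blt_eq] at h
  rw [Equiv.Perm.mul_apply, Equiv.Perm.mul_apply, prep_nG, prep_px, h3, prep_nG]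
  exact (allB_beq _ _ _).mp h.2 p.val p.isLt

theorem yh_sq : yh ^ 2 = 1 := by
  apply Subtype.ext
  show py ^ 2 = 1
  rw [sq]
  nth_rewrite 1 [← py_inv]
  exact inv_mul_cancel py

theorem yh_ne : yh ≠ 1 := fun e => py_ne (congrArg Subtype.val e)

/-! ### Words -/

/-- the word `x ^ a₁ t x ^ a₂ t …` -/
def wordG {M : Type*} [Monoid M] (x t : M) (l : List ℕ) : M :=
  l.foldr (fun a acc => x ^ a * t * acc) 1

theorem wordG_cons {M : Type*} [Monoid M] (x t : M) (a : ℕ) (l : List ℕ) :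
    wordG x t (a :: l) = x ^ a * t * wordG x t l := rfl

theorem map_wordG {M N Fn : Type*} [Monoid M] [Monoid N] [FunLike Fn M N] [MonoidHomClass Fn M N]
    (f : Fn) (x t : M) (l : List ℕ) : f (wordG x t l) = wordG (f x) (f t) l := by
  induction l with
  | nil => exact map_one f
  | cons a l ih => rw [wordG_cons, wordG_cons, map_mul, map_mul, map_pow, ih]

theorem coe_wordG {M : Type*} [Group M] (H : Subgroup M) (x t : H) (l : List ℕ) :
    ((wordG x t l : H) : M) = wordG (x : M) (t : M) l := map_wordG H.subtype x t l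

theorem wordP_sound {x t : Equiv.Perm (Fin 552)} {X : ℕ → ℕ} {T : ℕ}
    (hX : ∀ a < 23, PRep (x ^ a) (X a)) (ht : PRep t T) (l : List ℕ) (hl : ∀ a ∈ l, a < 23)
    (p : Fin 552) : ((wordG x t l) p).val = wordP X T l p.val := by
  induction l with
  | nil => rfl
  | cons a l ih =>
    rw [wordG_cons]
    show ((x ^ a) (t (wordG x t l p))).val = f16 (X a) (f16 T (wordP X T l p.val))
    rw [hX a (hl a (List.mem_cons_self ..)), ht, ih (fun b hb => hl b (List.mem_cons_of_mem _ hb))]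

theorem iterP_sound {w : Equiv.Perm (Fin 552)} {X : ℕ → ℕ} {T : ℕ} {l : List ℕ}
    (hw : ∀ p : Fin 552, (w p).val = wordP X T l p.val) :
    ∀ (n : ℕ) (p : Fin 552), ((w ^ n) p).val = iterP X T l n p.val := by
  intro n
  induction n with
  | zero => intro p; rfl
  | succ n ih =>
    intro p
    rw [pow_succ, Equiv.Perm.mul_apply, ih]
    show iterP X T l n (w p).val = iterP X T l n (wordP X T l p.val)
    rw [hw]

theorem WL_lt (k : ℕ) (hk : k < 23) : ∀ a ∈ WL k, a < 23 := by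
  have h := (allB_iff _ _).mp WL_ok k hk
  rw [List.all_eq_true] at h
  intro a ha
  have := h a ha
  rw [Nat.blt_eq] at this
  exact this

theorem hXP : ∀ a < 23, PRep (px ^ a) (XP a) := fun a ha => prep_XP_le a (by omega)

theorem hXPi : ∀ a < 23, PRep (px⁻¹ ^ a) (XPi a) := by
  intro a ha
  have h := prep_XPi a
  rw [Nat.mod_eq_of_lt ha] at h
  rw [inv_pow]
  exact h

theorem y_word (k : ℕ) (hk : k < 23) : wordG px py (WL k) ^ wOrd k = 1 := by
  apply Equiv.ext
  intro p
  apply Fin.ext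
  rw [iterP_sound (wordP_sound hXP prep_py (WL k) (WL_lt k hk))]
  exact (allB_beq _ _ _).mp ((allB_iff _ _).mp wOrd_ok k hk) p.val p.isLt

/-! ### Automorphisms and the class of `y` -/

/-- the image of `y` under an automorphism is a shift of a representative -/
theorem alpha_SS (hCen : StCentral) (hOS : OrbStab) (hcard : Nat.card ↥K = 495766656000)
    (α : MulAut ↥K) : ((α yh : ↥K) : Equiv.Perm (Fin 552)) ∈ SS := by
  have h1 : Nat.card ↥(P2.subgroupOf K) = 2 ^ 10 := by
    rw [Nat.card_congr (Subgroup.subgroupOfEquivOfLe P2_le).toEquiv]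
    exact P2_card
  obtain ⟨g, hg⟩ := hCen ↥K (P2.subgroupOf K) yh 10 h1 (by rw [hcard]; norm_num)
    (Subgroup.mem_subgroupOf.mpr py_mem_P2) yh_ne
    (fun g hg => Subtype.ext (py_central g.1 (Subgroup.mem_subgroupOf.mp hg)))
    (fun c hc hcen => by
      have h2 := P2_center c.1 (Subgroup.mem_subgroupOf.mp hc) (fun g hg => by
        have h3 := hcen ⟨g, P2_le hg⟩ (Subgroup.mem_subgroupOf.mpr hg)
        exact congrArg Subtype.val h3)
      rcases h2 with h2 | h2
      · left; exact Subtype.ext h2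
      · right; exact Subtype.ext h2) α
  rw [hg]
  exact conj_y_SS hOS hcard g.1 g.2

/-- the image of `y` under an automorphism sending `x` to `z = x` or `x⁻¹` is a shift of a
representative satisfying the word relations of `y` with `z` in place of `x` -/
theorem ref_core (hCen : StCentral) (hOS : OrbStab) (hcard : Nat.card ↥K = 495766656000)
    (α : MulAut ↥K) (z : ↥K) (hz : xh * z = z * xh) (hα : α xh = z) :
    ∃ i j : ℕ, ∃ hj : j < 7425, ((α yh : ↥K) : Equiv.Perm (Fin 552)) =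
      px ^ i * Rj j hj * (px ^ i)⁻¹ ∧
      ∀ k < 23, wordG (z : Equiv.Perm (Fin 552)) (Rj j hj) (WL k) ^ wOrd k = 1 := by
  obtain ⟨i, j, hj, e⟩ := alpha_SS hCen hOS hcard α
  refine ⟨i, j, hj, e, fun k hk => ?_⟩
  let r : ↥K := (xh ^ i)⁻¹ * α yh * xh ^ i
  have hr : (r : Equiv.Perm (Fin 552)) = Rj j hj := by
    show (px ^ i)⁻¹ * (α yh : ↥K).1 * px ^ i = _
    rw [e]
    group
  let γ : MulAut ↥K := (MulAut.conj (xh ^ i))⁻¹ * α
  have hzi : xh ^ i * z = z * xh ^ i := ((Commute.pow_left hz i) : Commute (xh ^ i) z).eq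
  have hγx : γ xh = z := by
    show (MulAut.conj (xh ^ i))⁻¹ (α xh) = _
    rw [hα, MulAut.conj_inv_apply, mul_assoc, ← hzi, inv_mul_cancel_left]
  have hγy : γ yh = r := by
    show (MulAut.conj (xh ^ i))⁻¹ (α yh) = _
    rw [MulAut.conj_inv_apply]
  have hu : wordG xh yh (WL k) ^ wOrd k = 1 := by
    apply Subtype.ext
    rw [Subgroup.coe_pow, coe_wordG]
    exact y_word k hk
  have hγ : wordG z r (WL k) ^ wOrd k = 1 := by
    have h1 : γ (wordG xh yh (WL k) ^ wOrd k) = wordG z r (WL k) ^ wOrd k := by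
      rw [map_pow, map_wordG, hγx, hγy]
    rw [← h1, hu, map_one]
  have h2 := congrArg Subtype.val hγ
  rw [Subgroup.coe_pow, coe_wordG, hr] at h2
  exact h2

theorem fix_x (hCen : StCentral) (hOS : OrbStab) (hcard : Nat.card ↥K = 495766656000)
    (α : MulAut ↥K) (hα : α xh = xh) :
    ∃ i : ℕ, ((α yh : ↥K) : Equiv.Perm (Fin 552)) = px ^ i * py * (px ^ i)⁻¹ := by
  obtain ⟨i, j, hj, e, hw⟩ := ref_core hCen hOS hcard α xh rfl hα
  by_cases hj0 : j = jY
  · subst hj0
    refine ⟨i, ?_⟩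
    rw [e, Rj_y]
  exfalso
  have hc := (allB_iff _ _).mp chkRef_all j hj
  simp only [chkRef, Bool.or_eq_true, Bool.and_eq_true, Nat.beq_eq, Nat.blt_eq,
    Bool.not_eq_true'] at hc
  rcases hc with hc | ⟨hk, hp, hc⟩
  · exact hj0 hc
  · have h2 := iterP_sound (wordP_sound hXP (prep_Rj j hj) (WL (rK j)) (WL_lt _ hk))
      (wOrd (rK j)) ⟨rP j, hp⟩
    have h1 : wordG px (Rj j hj) (WL (rK j)) ^ wOrd (rK j) = 1 := hw (rK j) hk
    rw [h1] at h2
    have h3 : Nat.beq (iterP XP (rE j) (WL (rK j)) (wOrd (rK j)) (rP j)) (rP j) = true := by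
      rw [Nat.beq_eq]
      exact h2.symm
    rw [hc] at h3
    exact Bool.false_ne_true h3

theorem no_inv (hCen : StCentral) (hOS : OrbStab) (hcard : Nat.card ↥K = 495766656000)
    (α : MulAut ↥K) : α xh ≠ xh⁻¹ := by
  intro hα
  obtain ⟨i, j, hj, e, hw⟩ :=
    ref_core hCen hOS hcard α xh⁻¹ (by rw [mul_inv_cancel, inv_mul_cancel]) hα
  have hc := (allB_iff _ _).mp chkRef'_all j hj
  simp only [chkRef', Bool.and_eq_true, Nat.blt_eq, Bool.not_eq_true'] at hc
  obtain ⟨hk, hp, hc⟩ := hc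
  have h2 := iterP_sound (wordP_sound hXPi (prep_Rj j hj) (WL (rK' j)) (WL_lt _ hk))
    (wOrd (rK' j)) ⟨rP' j, hp⟩
  have h1 : wordG px⁻¹ (Rj j hj) (WL (rK' j)) ^ wOrd (rK' j) = 1 := hw (rK' j) hk
  rw [h1] at h2
  have h3 : Nat.beq (iterP XPi (rE j) (WL (rK' j)) (wOrd (rK' j)) (rP' j)) (rP' j) = true := by
    rw [Nat.beq_eq]
    exact h2.symm
  rw [hc] at h3
  exact Bool.false_ne_true h3

theorem hk23 : ∀ m : ℕ, 0 < m → m < 23 → ∃ i : ℕ, 13 ^ i % 23 = m ∨ (13 ^ i + m) % 23 = 0 := by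
  intro m h0 h1
  have key : ∀ m : Fin 23, 0 < m.val → ∃ i : Fin 11, 13 ^ i.val % 23 = m.val ∨
      (13 ^ i.val + m.val) % 23 = 0 := by decide
  obtain ⟨i, hi⟩ := key ⟨m, h1⟩ h0
  exact ⟨i.val, hi⟩

/-- the outer automorphism group of `K` is trivial -/
theorem out_K (hOut : StOut1) (hCen : StCentral) (hOS : OrbStab)
    (hcard : Nat.card ↥K = 495766656000) :
    Nat.card (MulAut ↥K ⧸ (MulAut.conj : ↥K →* MulAut ↥K).range) = 1 := by
  refine hOut ↥K xh yh nh 23 13 (by norm_num) gen_J xh_order (by rw [hcard]; norm_num) n_rel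
    hk23 (fun α hα => ?_) (no_inv hCen hOS hcard)
  obtain ⟨i, e⟩ := fix_x hCen hOS hcard α hα
  exact ⟨i, Subtype.ext e⟩

/-! ### The permutation group is the Conway group -/

theorem co3_perm_iso (hI : StIso) (hS : StSimple) (hR : StRho) (hW : StWord)
    (hLB : 495766656000 ≤ Nat.card ↥K) :
    Nonempty (↥Cfsg.Spor.Co3 ≃* ↥K) ∧ Nat.card ↥K = 495766656000 := by
  obtain ⟨e0⟩ := hI
  obtain ⟨hsimp, hcard⟩ := hS
  obtain ⟨ρ, hρ, huniq⟩ := hR
  obtain ⟨⟨gx, hgx, ax⟩, ⟨gy, hgy, ay⟩⟩ := hW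
  have ex : ρ ⟨gx, hgx⟩ = px := huniq ⟨gx, hgx⟩ px ax
  have ey : ρ ⟨gy, hgy⟩ = py := huniq ⟨gy, hgy⟩ py ay
  have hker : ρ.ker = ⊥ := by
    rcases hsimp.eq_bot_or_eq_top_of_normal ρ.ker (MonoidHom.normal_ker ρ) with h | h
    · exact h
    · exfalso
      have hm : (⟨gx, hgx⟩ : ↥Co3std) ∈ ρ.ker := by rw [h]; trivial
      rw [MonoidHom.mem_ker, ex] at hm
      exact px_ne hm
  have hinj : Function.Injective ρ := (MonoidHom.ker_eq_bot_iff ρ).mp hker
  have hrange : Nat.card ↥ρ.range = 495766656000 := by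
    rw [← hcard]
    exact (Nat.card_congr (MonoidHom.ofInjective hinj).toEquiv).symm
  have hle : K ≤ ρ.range := by
    show Subgroup.closure {px, py} ≤ ρ.range
    rw [Subgroup.closure_le]
    rintro g (rfl | rfl)
    · exact ⟨_, ex⟩
    · exact ⟨_, ey⟩
  have hKeq : K = ρ.range := by
    apply Subgroup.eq_of_le_of_card_ge hle
    rw [hrange]
    exact hLB
  refine ⟨⟨?_⟩, by rw [hKeq]; exact hrange⟩
  exact e0.trans ((MonoidHom.ofInjective hinj).trans (MulEquiv.subgroupCongr hKeq.symm))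

/-- the outer automorphism group of Co3 is trivial, given the pieces -/
theorem out_co3_of (hOut : StOut1) (hCen : StCentral) (hOS : OrbStab) (hI : StIso)
    (hS : StSimple) (hR : StRho) (hW : StWord) :
    Nat.card (MulAut ↥Cfsg.Spor.Co3 ⧸
      (MulAut.conj : ↥Cfsg.Spor.Co3 →* MulAut ↥Cfsg.Spor.Co3).range) = 1 := by
  obtain ⟨⟨e⟩, hcard⟩ := co3_perm_iso hI hS hR hW (card_lb hOS)
  have h1 := out_K hOut hCen hOS hcard
  rw [← h1]
  apply Nat.card_congr
  refine Quotient.congr (MulAut.congr e).toEquiv ?_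
  intro a b
  change QuotientGroup.leftRel _ a b ↔ QuotientGroup.leftRel _ (MulAut.congr e a) (MulAut.congr e b)
  rw [QuotientGroup.leftRel_apply, QuotientGroup.leftRel_apply, ← map_inv, ← map_mul]
  constructor
  · rintro ⟨g, hg⟩
    refine ⟨e g, ?_⟩
    rw [← hg]
    ext x
    simp [MulAut.congr]
  · rintro ⟨g, hg⟩
    refine ⟨e.symm g, ?_⟩
    apply (MulAut.congr e).injective
    rw [← hg]
    ext x
    simp [MulAut.congr]

end Cfsg.Agent.H6.Co3
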