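import Mathlib
import Cfsg.Agent.H6Inv

/-! Two involutions: the dihedral group they generate (helper6). -/

set_option autoImplicit false

namespace Cfsg.Agent.H6

open scoped Pointwise

variable {G : Type*} [Group G]

/-- `t` inverts `s * t` when `s`, `t` are involutions. -/
lemma inv_right_inverts {s t : G} (hs : orderOf s = 2) (ht : orderOf t = 2) :
    t * (s * t) * t⁻¹ = (s * t)⁻¹ := by
  rw [mul_inv_rev, inv_of_orderOf_two hs, inv_of_orderOf_two ht]
  have := sq_of_orderOf_two ht
  calc t * (s * t) * t = t * s * (t * t) := by group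
    _ = t * s := by rw [this, mul_one]

/-- `s` inverts `s * t` when `s`, `t` are involutions. -/
lemma inv_left_inverts {s t : G} (hs : orderOf s = 2) (ht : orderOf t = 2) :
    s * (s * t) * s⁻¹ = (s * t)⁻¹ := by
  rw [mul_inv_rev, inv_of_orderOf_two hs, inv_of_orderOf_two ht]
  have := sq_of_orderOf_two hs
  calc s * (s * t) * s = (s * s) * t * s := by group
    _ = t * s := by rw [this, one_mul]

/-- If `g` inverts `r` then `g` inverts every power of `r`. -/
lemma inverts_pow {g r : G} (h : g * r * g⁻¹ = r⁻¹) (j : ℕ) : g * r ^ j * g⁻¹ = (r ^ j)⁻¹ := by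
  rw [← conj_pow, h, inv_pow]

/-- Two involutions whose product has odd order are conjugate. -/
theorem isConj_of_odd_orderOf_mul {s t : G} (hs : orderOf s = 2) (ht : orderOf t = 2)
    (hodd : Odd (orderOf (s * t))) : IsConj s t := by
  obtain ⟨k, hk⟩ := hodd
  rw [isConj_comm, isConj_iff]
  refine ⟨(s * t) ^ (k + 1), ?_⟩
  have h1 := inverts_pow (inv_right_inverts hs ht) (k + 1)
  have hti := inv_of_orderOf_two ht
  have htt := sq_of_orderOf_two ht
  have h2 : t * ((s * t) ^ (k + 1))⁻¹ = (s * t) ^ (k + 1) * t := by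
    have h3 : t * ((s * t) ^ (k + 1))⁻¹ * t⁻¹ = (s * t) ^ (k + 1) := by
      calc t * ((s * t) ^ (k + 1))⁻¹ * t⁻¹ = (t * (s * t) ^ (k + 1) * t⁻¹)⁻¹ := by
            simp [mul_inv_rev, mul_assoc]
        _ = (((s * t) ^ (k + 1))⁻¹)⁻¹ := by rw [h1]
        _ = (s * t) ^ (k + 1) := inv_inv _
    calc t * ((s * t) ^ (k + 1))⁻¹ = t * ((s * t) ^ (k + 1))⁻¹ * t⁻¹ * t := by group
      _ = (s * t) ^ (k + 1) * t := by rw [h3]
  calc (s * t) ^ (k + 1) * t * ((s * t) ^ (k + 1))⁻¹
      = (s * t) ^ (k + 1) * (t * ((s * t) ^ (k + 1))⁻¹) := by group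
    _ = (s * t) ^ (k + 1) * ((s * t) ^ (k + 1) * t) := by rw [h2]
    _ = (s * t) ^ (2 * k + 1 + 1) * t := by
        rw [← mul_assoc, ← pow_add]; congr 2; omega
    _ = (s * t) * t := by rw [← hk, pow_succ, pow_orderOf_eq_one, one_mul]
    _ = s := by rw [mul_assoc, htt, mul_one]

/-- Two involutions whose product has even (nonzero) order commute with a common involution,
namely the central involution of the dihedral group they generate. -/
theorem central_involution_of_even {s t : G} (hs : orderOf s = 2) (ht : orderOf t = 2)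
    {m : ℕ} (hm : orderOf (s * t) = 2 * m) (hm0 : m ≠ 0) :
    orderOf ((s * t) ^ m) = 2 ∧ Commute ((s * t) ^ m) s ∧ Commute ((s * t) ^ m) t := by
  have hz2 : (s * t) ^ m * (s * t) ^ m = 1 := by
    rw [← pow_add, ← two_mul, ← hm, pow_orderOf_eq_one]
  have hz1 : (s * t) ^ m ≠ 1 := by
    intro h
    have := orderOf_dvd_of_pow_eq_one h
    rw [hm] at this
    have := Nat.le_of_dvd (Nat.pos_of_ne_zero hm0) this
    omega
  have hzo : orderOf ((s * t) ^ m) = 2 := orderOf_two_of_mul_self hz2 hz1
  have hzi := inv_of_orderOf_two hzo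
  refine ⟨hzo, ?_, ?_⟩
  · have h := inverts_pow (inv_left_inverts hs ht) m
    rw [hzi] at h
    show (s * t) ^ m * s = s * (s * t) ^ m
    calc (s * t) ^ m * s = s * (s * t) ^ m * s⁻¹ * s := by rw [h]
      _ = s * (s * t) ^ m := by group
  · have h := inverts_pow (inv_right_inverts hs ht) m
    rw [hzi] at h
    show (s * t) ^ m * t = t * (s * t) ^ m
    calc (s * t) ^ m * t = t * (s * t) ^ m * t⁻¹ * t := by rw [h]
      _ = t * (s * t) ^ m := by group

/-- Non-conjugate involutions in a finite group commute with a common involution. -/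
theorem exists_common_involution [Finite G] {s t : G} (hs : orderOf s = 2) (ht : orderOf t = 2)
    (hnc : ¬ IsConj s t) : ∃ z : G, orderOf z = 2 ∧ Commute z s ∧ Commute z t := by
  rcases Nat.even_or_odd (orderOf (s * t)) with he | ho
  · obtain ⟨m, hm⟩ := he
    have hm' : orderOf (s * t) = 2 * m := by omega
    have hm0 : m ≠ 0 := by
      intro h
      have := orderOf_pos (s * t)
      omega
    exact ⟨_, central_involution_of_even hs ht hm' hm0⟩
  · exact absurd (isConj_of_odd_orderOf_mul hs ht ho) hnc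

/-- The subgroup generated by two commuting involutions is a 2-group. -/
lemma isPGroup_sup_zpowers_of_commute [Finite G] {u v : G} (hu : orderOf u = 2) (hv : orderOf v = 2)
    (huv : Commute u v) : IsPGroup 2 (Subgroup.zpowers u ⊔ Subgroup.zpowers v : Subgroup G) := by
  have : Fact (Nat.Prime 2) := ⟨Nat.prime_two⟩
  have hU : IsPGroup 2 (Subgroup.zpowers u) := by
    apply IsPGroup.of_card (n := 1); rw [Nat.card_zpowers, hu, pow_one]
  have hV : IsPGroup 2 (Subgroup.zpowers v) := by
    apply IsPGroup.of_card (n := 1); rw [Nat.card_zpowers, hv, pow_one]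
  apply hU.to_sup_of_normal_right' hV
  rw [Subgroup.zpowers_le, Subgroup.mem_normalizer_iff]
  intro h
  constructor
  · intro hh
    obtain ⟨k, rfl⟩ := Subgroup.mem_zpowers_iff.mp hh
    have : u * v ^ k * u⁻¹ = v ^ k := by
      have := (huv.zpow_right k).eq
      rw [this, mul_inv_cancel_right]
    rw [this]; exact hh
  · intro hh
    obtain ⟨k, hk⟩ := Subgroup.mem_zpowers_iff.mp hh
    have : h = v ^ k := by
      have h2 : u * v ^ k * u⁻¹ = v ^ k := by
        have := (huv.zpow_right k).eq
        rw [this, mul_inv_cancel_right]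
      have h3 : u * h * u⁻¹ = u * v ^ k * u⁻¹ := by rw [h2, hk]
      have h4 := mul_right_cancel h3
      exact mul_left_cancel h4
    rw [this]; exact Subgroup.zpow_mem_zpowers v k

/-- Membership in a conjugate of a Sylow subgroup. -/
lemma mem_sylow_smul_iff {p : ℕ} (P : Sylow p G) (g x : G) :
    x ∈ g • P ↔ g⁻¹ * x * g ∈ P := by
  have h : (x ∈ g • P) ↔ x ∈ MulAut.conj g • (P : Subgroup G) := Iff.rfl
  rw [h, Subgroup.mem_pointwise_smul_iff_inv_smul_mem]
  simp only [MulAut.smul_def, MulAut.conj_inv_apply]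
  exact Iff.rfl

/-- Two commuting involutions lie in a common conjugate of a given Sylow 2-subgroup. -/
lemma exists_conj_sylow_of_commute [Finite G] (S : Sylow 2 G) {u v : G} (hu : orderOf u = 2)
    (hv : orderOf v = 2) (huv : Commute u v) :
    ∃ g : G, g⁻¹ * u * g ∈ S ∧ g⁻¹ * v * g ∈ S := by
  have : Fact (Nat.Prime 2) := ⟨Nat.prime_two⟩
  obtain ⟨P, hP⟩ := (isPGroup_sup_zpowers_of_commute hu hv huv).exists_le_sylow
  obtain ⟨g, hg⟩ := MulAction.exists_smul_eq G S P
  refine ⟨g, ?_, ?_⟩
  · rw [← mem_sylow_smul_iff, hg]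
    exact hP (Subgroup.mem_sup_left (Subgroup.mem_zpowers u))
  · rw [← mem_sylow_smul_iff, hg]
    exact hP (Subgroup.mem_sup_right (Subgroup.mem_zpowers v))

end Cfsg.Agent.H6
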