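import Mathlib

set_option autoImplicit false

namespace Cfsg.Agent.H6

open Matrix

section
variable {F : Type*} [Field F]

/-- the upper unitriangular subgroup of `GL₂(F)` -/
def upperU (F : Type*) [Field F] : Subgroup (GL (Fin 2) F) :=
  (GeneralLinearGroup.upperRightHom (R := F)).toMonoidHom.range

lemma mem_upperU_iff (h : GL (Fin 2) F) :
    h ∈ upperU F ↔ h.1 0 0 = 1 ∧ h.1 1 0 = 0 ∧ h.1 1 1 = 1 := by
  constructor
  · rintro ⟨t, rfl⟩
    simp
  · rintro ⟨h1, h2, h3⟩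
    refine ⟨Multiplicative.ofAdd (h.1 0 1), ?_⟩
    ext i j
    fin_cases i <;> fin_cases j <;> simp [h1, h2, h3]

lemma gl2_eqs (g : GL (Fin 2) F) :
    (g.1 0 0 * (g⁻¹).1 0 0 + g.1 0 1 * (g⁻¹).1 1 0 = 1 ∧
     g.1 0 0 * (g⁻¹).1 0 1 + g.1 0 1 * (g⁻¹).1 1 1 = 0 ∧
     g.1 1 0 * (g⁻¹).1 0 0 + g.1 1 1 * (g⁻¹).1 1 0 = 0 ∧
     g.1 1 0 * (g⁻¹).1 0 1 + g.1 1 1 * (g⁻¹).1 1 1 = 1) := by
  have h : g.1 * (g⁻¹).1 = 1 := g.mul_inv
  have e := fun i j => congrFun (congrFun h i) j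
  refine ⟨?_, ?_, ?_, ?_⟩
  · simpa [Matrix.mul_apply, Fin.sum_univ_two] using e 0 0
  · simpa [Matrix.mul_apply, Fin.sum_univ_two] using e 0 1
  · simpa [Matrix.mul_apply, Fin.sum_univ_two] using e 1 0
  · simpa [Matrix.mul_apply, Fin.sum_univ_two] using e 1 1

lemma gl2_inv_lower_zero (g : GL (Fin 2) F) (hc : g.1 1 0 = 0) : (g⁻¹).1 1 0 = 0 := by
  obtain ⟨-, -, e3, e4⟩ := gl2_eqs g
  rw [hc] at e3 e4
  simp only [zero_mul, zero_add] at e3 e4
  have hd : g.1 1 1 ≠ 0 := by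
    intro h0
    rw [h0, zero_mul] at e4
    exact zero_ne_one e4
  exact (mul_eq_zero.mp e3).resolve_left hd

lemma gl2_conj_mem_upperU (g : GL (Fin 2) F) (hc : g.1 1 0 = 0) (h : GL (Fin 2) F)
    (hh : h ∈ upperU F) : g * h * g⁻¹ ∈ upperU F := by
  rw [mem_upperU_iff] at hh ⊢
  obtain ⟨h1, h2, h3⟩ := hh
  have hc' := gl2_inv_lower_zero g hc
  obtain ⟨e1, -, -, e4⟩ := gl2_eqs g
  rw [hc'] at e1
  rw [hc] at e4
  simp only [mul_zero, add_zero, zero_mul, zero_add] at e1 e4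
  simp only [Units.val_mul, Matrix.mul_apply, Fin.sum_univ_two, h1, h2, h3, hc, hc']
  refine ⟨?_, ?_, ?_⟩
  · linear_combination e1
  · ring
  · linear_combination e4

lemma mem_normalizer_upperU_iff (g : GL (Fin 2) F) :
    g ∈ Subgroup.normalizer (upperU F : Set (GL (Fin 2) F)) ↔ g.1 1 0 = 0 := by
  constructor
  · intro hg
    have hu : (GeneralLinearGroup.upperRightHom (1 : F)) ∈ upperU F :=
      ⟨Multiplicative.ofAdd 1, rfl⟩
    have h1 : g * GeneralLinearGroup.upperRightHom (1 : F) * g⁻¹ ∈ upperU F := by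
      have := (Subgroup.mem_normalizer_iff.mp hg (GeneralLinearGroup.upperRightHom (1 : F))).mp hu
      exact this
    rw [mem_upperU_iff] at h1
    obtain ⟨-, h10, -⟩ := h1
    have key : (g * GeneralLinearGroup.upperRightHom (1 : F) * g⁻¹).1 1 0 =
        g.1 1 0 * (g⁻¹).1 0 0 + (g.1 1 0 + g.1 1 1) * (g⁻¹).1 1 0 := by
      simp [Matrix.mul_apply, Fin.sum_univ_two, -Matrix.coe_units_inv]
    rw [key] at h10
    obtain ⟨-, -, e3, e4⟩ := gl2_eqs g
    obtain ⟨-, -, f3, f4⟩ := gl2_eqs g⁻¹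
    rw [inv_inv] at f3 f4
    by_contra hc
    have hcc : g.1 1 0 * (g⁻¹).1 1 0 = 0 := by linear_combination h10 - e3
    have hc' : (g⁻¹).1 1 0 = 0 := (mul_eq_zero.mp hcc).resolve_left hc
    rw [hc'] at f3 f4
    simp only [zero_mul, zero_add] at f3 f4
    have hd' : (g⁻¹).1 1 1 = 0 := (mul_eq_zero.mp f3).resolve_right hc
    rw [hd', zero_mul] at f4
    exact zero_ne_one f4
  · intro hc
    rw [Subgroup.mem_normalizer_iff]
    intro h
    constructor
    · exact gl2_conj_mem_upperU g hc h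
    · intro hh
      have := gl2_conj_mem_upperU g⁻¹ (gl2_inv_lower_zero g hc) _ hh
      simpa [mul_assoc] using this

end

section
variable {F : Type*} [Field F] [Fintype F]

lemma card_upperU : Nat.card (upperU F) = Fintype.card F := by
  have hinj : Function.Injective (GeneralLinearGroup.upperRightHom (R := F)).toMonoidHom := by
    intro a b hab
    exact GeneralLinearGroup.injective_upperRightHom (R := F)
      (a₁ := Multiplicative.toAdd a) (a₂ := Multiplicative.toAdd b) hab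
  unfold upperU
  rw [← Nat.card_congr (MonoidHom.ofInjective hinj).toEquiv,
    Nat.card_congr (Multiplicative.toAdd (α := F)), Nat.card_eq_fintype_card]

lemma borel_mul_inv {F : Type*} [Field F] (a d : Fˣ) (b : F) :
   !![(a : F), b; 0, (d : F)] * !![((a⁻¹ : Fˣ) : F), -(((a⁻¹ : Fˣ) : F) * b * ((d⁻¹ : Fˣ) : F)); 0, ((d⁻¹ : Fˣ) : F)] = 1 := by
  rw [Matrix.mul_fin_two, Matrix.one_fin_two]
  simp only [Units.val_inv_eq_inv_val, mul_zero, add_zero, zero_mul, zero_add]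
  have h1 : (a:F) * (a:F)⁻¹ = 1 := mul_inv_cancel₀ a.ne_zero
  have h3 : (d:F) * (d:F)⁻¹ = 1 := mul_inv_cancel₀ d.ne_zero
  have h2 : (a:F) * -((a:F)⁻¹ * b * (d:F)⁻¹) + b * (d:F)⁻¹ = 0 := by
    have : (a:F) ≠ 0 := a.ne_zero
    have : (d:F) ≠ 0 := d.ne_zero
    field_simp
    ring
  rw [h1, h2, h3]
lemma borel_inv_mul {F : Type*} [Field F] (a d : Fˣ) (b : F) :
   !![((a⁻¹ : Fˣ) : F), -(((a⁻¹ : Fˣ) : F) * b * ((d⁻¹ : Fˣ) : F)); 0, ((d⁻¹ : Fˣ) : F)] * !![(a : F), b; 0, (d : F)]  = 1 := by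
  rw [Matrix.mul_fin_two, Matrix.one_fin_two]
  simp only [Units.val_inv_eq_inv_val, mul_zero, add_zero, zero_mul, zero_add]
  have h1 : (a:F)⁻¹ * (a:F) = 1 := inv_mul_cancel₀ a.ne_zero
  have h3 : (d:F)⁻¹ * (d:F) = 1 := inv_mul_cancel₀ d.ne_zero
  have h2 : (a:F)⁻¹ * b + -((a:F)⁻¹ * b * (d:F)⁻¹) * (d:F) = 0 := by
    have : (a:F) ≠ 0 := a.ne_zero
    have : (d:F) ≠ 0 := d.ne_zero
    field_simp
    ring
  rw [h1, h2, h3]

/-- the Borel subgroup (as a subtype) has `(q-1)^2 q` elements -/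
noncomputable def borelEquiv : {g : GL (Fin 2) F // g.1 1 0 = 0} ≃ Fˣ × Fˣ × F where
  toFun g := (Units.mk0 (g.1.1 0 0) (by
      obtain ⟨e1, -, -, -⟩ := gl2_eqs g.1
      rw [gl2_inv_lower_zero g.1 g.2] at e1
      intro h0
      rw [h0] at e1
      simp at e1), Units.mk0 (g.1.1 1 1) (by
      obtain ⟨-, -, -, e4⟩ := gl2_eqs g.1
      rw [g.2] at e4
      intro h0
      rw [h0] at e4
      simp at e4), g.1.1 0 1)
  invFun x := ⟨⟨!![(x.1 : F), x.2.2; 0, (x.2.1 : F)],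
      !![((x.1⁻¹ : Fˣ) : F), -(((x.1⁻¹ : Fˣ) : F) * x.2.2 * ((x.2.1⁻¹ : Fˣ) : F)); 0, ((x.2.1⁻¹ : Fˣ) : F)],
      borel_mul_inv x.1 x.2.1 x.2.2, borel_inv_mul x.1 x.2.1 x.2.2⟩, by simp⟩
  left_inv g := by
    apply Subtype.ext
    apply Units.ext
    ext i j
    fin_cases i <;> fin_cases j <;> simp [g.2]
  right_inv x := by
    obtain ⟨a, d, b⟩ := x
    simp

lemma card_borel :
    Nat.card {g : GL (Fin 2) F // g.1 1 0 = 0} =
      (Fintype.card F - 1) * ((Fintype.card F - 1) * Fintype.card F) := by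
  rw [Nat.card_congr borelEquiv, Nat.card_prod, Nat.card_prod, Nat.card_units,
    Nat.card_eq_fintype_card]

/-- `GL₂(q)` has `q + 1` Sylow `p`-subgroups. -/
theorem card_sylow_gl2 {q : ℕ} (hF : Fintype.card F = q) (p : ℕ) [Fact p.Prime] [CharP F p] :
    Nat.card (Sylow p (GL (Fin 2) F)) = q + 1 := by
  classical
  obtain ⟨n, -, hq⟩ := FiniteField.card F p
  have hp : p.Prime := Fact.out
  rw [hF] at hq
  have hq2 : 2 ≤ q := by
    rw [hq]
    calc 2 ≤ p := hp.two_le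
      _ = p ^ 1 := (pow_one p).symm
      _ ≤ p ^ (n : ℕ) := Nat.pow_le_pow_right hp.pos n.pos
  have hGL : Nat.card (GL (Fin 2) F) = (q ^ 2 - 1) * (q ^ 2 - q) := by
    rw [Matrix.card_GL_field, Fin.prod_univ_two, hF]
    simp
  have hU : Nat.card (upperU F) = q := by rw [card_upperU, hF]
  have hpq : p ∣ q := by
    rw [hq]
    exact dvd_pow_self p n.ne_zero
  have hpg : IsPGroup p (upperU F) := by
    apply IsPGroup.of_card (n := n)
    rw [hU, hq]
  have hidx : ¬ p ∣ (upperU F).index := by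
    have h1 := Subgroup.card_mul_index (upperU F)
    rw [hU, hGL] at h1
    obtain ⟨s, rfl⟩ : ∃ s, q = s + 2 := ⟨q - 2, by omega⟩
    have h2 : (upperU F).index = ((s + 2) ^ 2 - 1) * (s + 1) := by
      have h3 : (s + 2) ^ 2 - (s + 2) = (s + 2) * (s + 1) := by
        have : (s + 2) ^ 2 = (s + 2) * (s + 1) + (s + 2) := by ring
        omega
      rw [h3] at h1
      have h4 : (s + 2) * (upperU F).index = (s + 2) * (((s + 2) ^ 2 - 1) * (s + 1)) := by
        rw [h1]; ring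
      exact Nat.eq_of_mul_eq_mul_left (by omega) h4
    rw [h2]
    intro hdvd
    rcases (Nat.Prime.dvd_mul hp).mp hdvd with h | h
    · have h5 : p ∣ (s + 2) ^ 2 := dvd_pow hpq (by norm_num)
      have h6 : (s + 2) ^ 2 - 1 + 1 = (s + 2) ^ 2 := by
        have : 1 ≤ (s + 2) ^ 2 := Nat.one_le_pow _ _ (by omega)
        omega
      have h7 : p ∣ 1 := by
        have := (Nat.dvd_add_right h).mp (h6 ▸ h5)
        exact this
      exact hp.one_lt.ne' (Nat.dvd_one.mp h7)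
    · have h7 : p ∣ 1 := by
        have h8 : s + 2 = (s + 1) + 1 := by ring
        rw [h8] at hpq
        exact (Nat.dvd_add_right h).mp hpq
      exact hp.one_lt.ne' (Nat.dvd_one.mp h7)
  let P : Sylow p (GL (Fin 2) F) := hpg.toSylow hidx
  have hP : (P : Subgroup (GL (Fin 2) F)) = upperU F := IsPGroup.toSylow_coe hpg hidx
  rw [Sylow.card_eq_index_normalizer P]
  change (Subgroup.normalizer ((P : Subgroup (GL (Fin 2) F)) : Set (GL (Fin 2) F))).index = _
  rw [hP]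
  have hN : Nat.card (Subgroup.normalizer (upperU F : Set (GL (Fin 2) F))) =
      (q - 1) * ((q - 1) * q) := by
    rw [← hF, ← card_borel]
    exact Nat.card_congr (Equiv.subtypeEquivRight mem_normalizer_upperU_iff)
  have h1 := Subgroup.card_mul_index (Subgroup.normalizer (upperU F : Set (GL (Fin 2) F)))
  rw [hN, hGL] at h1
  clear hq hU hpg hidx hP P hpq
  obtain ⟨s, rfl⟩ : ∃ s, q = s + 2 := ⟨q - 2, by omega⟩
  have h3 : (s + 2) ^ 2 - (s + 2) = (s + 2) * (s + 1) := by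
    have : (s + 2) ^ 2 = (s + 2) * (s + 1) + (s + 2) := by ring
    omega
  have h4 : (s + 2) ^ 2 - 1 = (s + 1) * (s + 3) := by
    have : (s + 2) ^ 2 = (s + 1) * (s + 3) + 1 := by ring
    omega
  have h5 : s + 2 - 1 = s + 1 := by omega
  rw [h3, h4, h5] at h1
  have h6 : ((s + 1) * ((s + 1) * (s + 2))) *
      (Subgroup.normalizer (upperU F : Set (GL (Fin 2) F))).index =
      ((s + 1) * ((s + 1) * (s + 2))) * (s + 2 + 1) := by
    rw [h1]; ring
  exact Nat.eq_of_mul_eq_mul_left (by positivity) h6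

end

end Cfsg.Agent.H6
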