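import Mathlib
import Cfsg.Agent.H6.TitsDefs
import Cfsg.Agent.H6.RuTable

/-! Definitions for the kernel-checked facts about the tables for the Rudvalis group (helper6).
The functions evaluated by the kernel are written with recursors and the basic operations on
natural numbers; the words of the stabilizer chain of the Tits group are reused. -/

set_option autoImplicit false

namespace Cfsg.Agent.H6.Ru

open Cfsg.Agent.H6.Ree3 (forceN allN)
open Cfsg.Agent.H6.Tits (fN fL xfold eqL wchk u1N udN szN)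

/-- The `i`-th vector (28 bits). -/
def vecN (i : ℕ) : ℕ := Nat.land (Nat.shiftRight vecTab (Nat.mul 28 i)) 268435455

/-- The table of a letter. -/
def gtab (l : ℕ) : ℕ :=
  (Bool.rec (motive := fun _ => ℕ) (Bool.rec (motive := fun _ => ℕ) (Bool.rec (motive := fun _ => ℕ) (Bool.rec (motive := fun _ => ℕ) (Bool.rec (motive := fun _ => ℕ) (Bool.rec (motive := fun _ => ℕ) gt0 gt0 (Nat.blt l 63)) (Bool.rec (motive := fun _ => ℕ) gt0 gt0 (Nat.blt l 61)) (Nat.blt l 62)) (Bool.rec (motive := fun _ => ℕ) (Bool.rec (motive := fun _ => ℕ) gt0 gt0 (Nat.blt l 59)) (Bool.rec (motive := fun _ => ℕ) gt0 gt0 (Nat.blt l 57)) (Nat.blt l 58)) (Nat.blt l 60)) (Bool.rec (motive := fun _ => ℕ) (Bool.rec (motive := fun _ => ℕ) (Bool.rec (motive := fun _ => ℕ) gt0 gt0 (Nat.blt l 55)) (Bool.rec (motive := fun _ => ℕ) gt0 gt0 (Nat.blt l 53)) (Nat.blt l 54)) (Bool.rec (motive := fun _ => ℕ) (Bool.rec (motive := fun _ => ℕ) gt0 gt0 (Nat.blt l 51)) (Bool.rec (motive := fun _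 => ℕ) gt0 gt0 (Nat.blt l 49)) (Nat.blt l 50)) (Nat.blt l 52)) (Nat.blt l 56)) (Bool.rec (motive := fun _ => ℕ) (Bool.rec (motive := fun _ => ℕ) (Bool.rec (motive := fun _ => ℕ) (Bool.rec (motive := fun _ => ℕ) gt0 gt0 (Nat.blt l 47)) (Bool.rec (motive := fun _ => ℕ) gt45 gt44 (Nat.blt l 45)) (Nat.blt l 46)) (Bool.rec (motive := fun _ => ℕ) (Bool.rec (motive := fun _ => ℕ) gt0 gt0 (Nat.blt l 43)) (Bool.rec (motive := fun _ => ℕ) gt0 gt0 (Nat.blt l 41)) (Nat.blt l 42)) (Nat.blt l 44)) (Bool.rec (motive := fun _ => ℕ) (Bool.rec (motive := fun _ => ℕ) (Bool.rec (motive := fun _ => ℕ) gt0 gt38 (Nat.blt l 39)) (Bool.rec (motive := fun _ => ℕ) gt37 gt36 (Nat.blt l 37)) (Nat.blt l 38)) (Bool.rec (motive := fun _ => ℕ) (Bool.rec (motive := fun _ => ℕ) gt35 gt34 (Nat.blt l 35)) (Bool.rec (motive := fun _ => ℕ) gt33 gt32 (Nat.blt l 33)) (Nat.blt l 34)) (Nat.blt l 36)) (Nat.blt l 40)) (Nat.blt l 48)) (Bool.rec (motive := fun _ => ℕ) (Bool.rec (motive := fun _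 => ℕ) (Bool.rec (motive := fun _ => ℕ) (Bool.rec (motive := fun _ => ℕ) (Bool.rec (motive := fun _ => ℕ) gt31 gt30 (Nat.blt l 31)) (Bool.rec (motive := fun _ => ℕ) gt29 gt28 (Nat.blt l 29)) (Nat.blt l 30)) (Bool.rec (motive := fun _ => ℕ) (Bool.rec (motive := fun _ => ℕ) gt27 gt26 (Nat.blt l 27)) (Bool.rec (motive := fun _ => ℕ) gt25 gt24 (Nat.blt l 25)) (Nat.blt l 26)) (Nat.blt l 28)) (Bool.rec (motive := fun _ => ℕ) (Bool.rec (motive := fun _ => ℕ) (Bool.rec (motive := fun _ => ℕ) gt23 gt22 (Nat.blt l 23)) (Bool.rec (motive := fun _ => ℕ) gt21 gt20 (Nat.blt l 21)) (Nat.blt l 22)) (Bool.rec (motive := fun _ => ℕ) (Bool.rec (motive := fun _ => ℕ) gt19 gt18 (Nat.blt l 19)) (Bool.rec (motive := fun _ => ℕ) gt17 gt16 (Nat.blt l 17)) (Nat.blt l 18)) (Nat.blt l 20)) (Nat.blt l 24)) (Bool.rec (motive := fun _ => ℕ) (Bool.rec (motive := fun _ => ℕ) (Bool.rec (motive := fun _ => ℕ) (Bool.rec (motive := fun _ => ℕ) gt15 gt14 (Nat.blt l 15)) (Bool.rec (motive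 := fun _ => ℕ) gt13 gt12 (Nat.blt l 13)) (Nat.blt l 14)) (Bool.rec (motive := fun _ => ℕ) (Bool.rec (motive := fun _ => ℕ) gt11 gt10 (Nat.blt l 11)) (Bool.rec (motive := fun _ => ℕ) gt9 gt0 (Nat.blt l 9)) (Nat.blt l 10)) (Nat.blt l 12)) (Bool.rec (motive := fun _ => ℕ) (Bool.rec (motive := fun _ => ℕ) (Bool.rec (motive := fun _ => ℕ) gt0 gt0 (Nat.blt l 7)) (Bool.rec (motive := fun _ => ℕ) gt0 gt4 (Nat.blt l 5)) (Nat.blt l 6)) (Bool.rec (motive := fun _ => ℕ) (Bool.rec (motive := fun _ => ℕ) gt0 gt0 (Nat.blt l 3)) (Bool.rec (motive := fun _ => ℕ) gt0 gt0 (Nat.blt l 1)) (Nat.blt l 2)) (Nat.blt l 4)) (Nat.blt l 8)) (Nat.blt l 16)) (Nat.blt l 32))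

/-- Table lookup (12 bits). -/
def lookT (T x : ℕ) : ℕ := Nat.land (Nat.shiftRight T (Nat.mul 12 x)) 4095

/-- The action of a letter on a point. -/
def genN (l x : ℕ) : ℕ := lookT (gtab l) x

/-- Evaluate a word (letters in base 64, lowest letter applied last) with fuel. -/
def wev (f : ℕ) : ℕ → ℕ → ℕ :=
  Nat.rec (fun _ x => x)
    (fun _ ih w x => Bool.rec (motive := fun _ => ℕ)
      (fN (Nat.shiftRight w 6) fun w' => genN (Nat.land w 63) (ih w' x)) x (Nat.beq w 0)) f

/-- Apply a table to a list of points. -/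
def mapT (T : ℕ) : List ℕ → List ℕ := List.rec [] (fun x _ ih => lookT T x :: ih)

/-- Evaluate a word on a list of points. -/
def wevL (f : ℕ) : ℕ → List ℕ → List ℕ :=
  Nat.rec (fun _ xs => xs)
    (fun _ ih w xs => Bool.rec (motive := fun _ => List ℕ)
      (fL (Nat.shiftRight w 6) fun w' => mapT (gtab (Nat.land w 63)) (ih w' xs)) xs
      (Nat.beq w 0)) f

/-- The packed matrix of a letter. -/
def mL (l : ℕ) : ℕ := Nat.land (Nat.shiftRight mTab (Nat.mul 784 l)) (Nat.sub (Nat.pow 2 784) 1)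

/-- The packed inverse matrix of a letter. -/
def miL (l : ℕ) : ℕ := Nat.land (Nat.shiftRight miTab (Nat.mul 784 l)) (Nat.sub (Nat.pow 2 784) 1)

/-- Column of a packed matrix. -/
def colP (M c : ℕ) : ℕ := Nat.land (Nat.shiftRight M (Nat.mul 28 c)) 268435455

def mcol (l c : ℕ) : ℕ := colP (mL l) c
def micol (l c : ℕ) : ℕ := colP (miL l) c
def binvN (c : ℕ) : ℕ := colP binvTab c
def dN (l : ℕ) : ℕ := dL.getD l 0
def u0N (j : ℕ) : ℕ := Nat.land (Nat.shiftRight u0Tab (Nat.mul 36 j)) 68719476735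

/-- The five generators. -/
def sgen (t : ℕ) : ℕ :=
  Nat.rec 4 (fun t1 _ => Nat.rec 9 (fun t2 _ => Nat.rec 10 (fun t3 _ => Nat.rec 11 (fun _ _ => 44) t3) t2) t1) t

def c0T (t : ℕ) : ℕ :=
  Nat.rec c0Tab0 (fun t1 _ => Nat.rec c0Tab1 (fun t2 _ => Nat.rec c0Tab2
    (fun t3 _ => Nat.rec c0Tab3 (fun _ _ => c0Tab4) t3) t2) t1) t

def c0N (t j : ℕ) : ℕ := Nat.land (Nat.shiftRight (c0T t) (Nat.mul 44 j)) 17592186044415

/-- The index at level `0` in a certificate. -/
def j0N (c : ℕ) : ℕ := Nat.land (Nat.shiftRight c 1) 2047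

/-- The index at level `lv ≥ 1` in a certificate. -/
def jdN (c lv : ℕ) : ℕ := Nat.land (Nat.shiftRight c (Nat.add 8 (Nat.mul 4 lv))) 15

def sortN (i : ℕ) : ℕ := lookT sortTab i
def sinvN (i : ℕ) : ℕ := lookT sinvTab i
def zN (k : ℕ) : ℕ := Nat.land (Nat.shiftRight zTab (Nat.mul 15 k)) 32767
def wN (i : ℕ) : ℕ := wL.getD i 0
def qN (k : ℕ) : ℕ := Nat.land (Nat.shiftRight qTab (Nat.mul 24 k)) 16777215

/-- The letter `l` acts on the points as its matrix acts on the vectors. -/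
def chkAct (l : ℕ) : Bool :=
  forceN (mL l) fun ML => forceN (gtab l) fun GT => allN 4060 fun i =>
    forceN (lookT GT i) fun y => Nat.blt y 4060 &&
      Nat.beq (xfold (colP ML) (vecN i) 28) (vecN y)

/-- The tabulated inverse matrices are left inverses. -/
def chkInv : Bool :=
  allN 64 fun l => forceN (mL l) fun ML => forceN (miL l) fun MI => allN 28 fun c =>
    Nat.beq (xfold (colP MI) (colP ML c) 28) (Nat.shiftLeft 1 c)

/-- The vectors in sorted order are strictly increasing. -/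
def chkSort : Bool := allN 4059 fun i => Nat.blt (vecN (sortN i)) (vecN (sortN (Nat.succ i)))

/-- Every point occurs in the sorted order. -/
def chkSinv : Bool :=
  allN 4060 fun i => forceN (sinvN i) fun k => Nat.blt k 4060 && Nat.beq (sortN k) i

/-- 28 of the vectors form an invertible matrix. -/
def chkSpan : Bool :=
  allN 28 fun c => Nat.beq (xfold (fun l => vecN (dN l)) (binvN c) 28) (Nat.shiftLeft 1 c)

/-- The letters `12, …, 38` satisfy the defining relations of the Tits tables. -/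
def chkDefT : Bool :=
  allN 27 fun k => forceN (Nat.add 12 k) fun l =>
    forceN (Cfsg.Agent.H6.Tits.defN l 0) fun A => forceN (Cfsg.Agent.H6.Tits.defN l 1) fun B =>
      eqL (wevL 20 A (mapT (gtab l) dL)) (wevL 20 B dL)

/-- The letter `45` is a word in the others. -/
def chkDef45 : Bool := eqL (mapT (gtab 45) dL) (wevL 3 w45 dL)

/-- The transversal of the first level. -/
def chkU0 : Bool :=
  allN 4060 fun j => forceN (u0N j) fun u => wchk 9 45 4 6 u && Nat.beq (wev 6 u 0) j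

/-- Apply the letter `4` or not. -/
def eps4 (e : ℕ) (xs : List ℕ) : List ℕ :=
  Bool.rec (motive := fun _ => List ℕ) xs (mapT (gtab 4) xs) (Nat.beq e 1)

/-- The element of the point stabilizer coded by `c`, applied to a list of points. -/
def dwL (c : ℕ) (xs : List ℕ) : List ℕ :=
  eps4 (Nat.land c 1) (wevL 6 (u1N (j0N c)) (wevL 6 (udN 1 (jdN c 1)) (wevL 6 (udN 2 (jdN c 2))
    (wevL 6 (udN 3 (jdN c 3)) (wevL 6 (udN 4 (jdN c 4)) (wevL 6 (udN 5 (jdN c 5))
    (wevL 6 (udN 6 (jdN c 6)) (wevL 6 (udN 7 (jdN c 7)) (wevL 6 (udN 8 (jdN c 8)) xs)))))))))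

/-- The indices of a certificate are in range. -/
def cOK (c : ℕ) : Bool :=
  Nat.blt (j0N c) 1755 && allN 8 fun lv' => forceN (Nat.succ lv') fun lv =>
    Nat.blt (jdN c lv) (szN lv)

/-- Closure certificate for generator number `t` and the points `a, …, a + b - 1`. -/
def chkC0 (t a b : ℕ) : Bool :=
  forceN (sgen t) fun s => forceN (gtab s) fun GS => allN b fun j' => forceN (Nat.add a j') fun j =>
    forceN (c0N t j) fun c => forceN (lookT GS j) fun jp =>
      Nat.blt jp 4060 && cOK c &&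
      eqL (mapT GS (wevL 6 (u0N j) dL)) (wevL 6 (u0N jp) (dwL c dL))

/-- The first four generators restrict to the letters of the Tits tables. -/
def chkRho : Bool :=
  allN 4 fun t => forceN (sgen t) fun s => forceN (gtab s) fun GS =>
    forceN (Cfsg.Agent.H6.Tits.gtab s) fun GT =>
    Nat.beq (lookT GS 0) 0 && allN 1755 fun i =>
      Nat.beq (lookT GS (Nat.succ i)) (Nat.succ (Cfsg.Agent.H6.Tits.lookT GT i))

/-- The letters outside the alphabet are the identity. -/
def chkId (l : ℕ) : Bool := forceN (gtab l) fun GT => allN 4060 fun x => Nat.beq (lookT GT x) x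

/-- The coordinates of the `i`-th witness vector. -/
def cW (i : ℕ) : ℕ := xfold binvN (vecN (wN i)) 28

/-- No matrix fixing the first 27 selected vectors moves the last one to another vector. -/
def chkZ : Bool :=
  allN 2304 fun k => forceN (Nat.add 1756 k) fun q => Nat.beq q qstar ||
    (forceN (zN k) fun z => forceN (Nat.shiftRight z 3) fun pos =>
      forceN (xfold (fun l => Bool.rec (motive := fun _ => ℕ) (vecN (dN l)) (vecN q) (Nat.beq l 27))
        (cW (Nat.land z 7)) 28) fun y =>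
      Nat.blt pos 4059 && Nat.blt (vecN (sortN pos)) y && Nat.blt y (vecN (sortN (Nat.succ pos))))

/-- The point stabilizer is transitive on the last 2304 points. -/
def chkQ : Bool :=
  allN 2304 fun k => forceN (qN k) fun w => wchk 9 38 4 4 w && Nat.beq (wev 4 w q0) (Nat.add 1756 k)

/-- A conjugate of an element of the simple subgroup lies in the stabilizer but not in it. -/
def chkOut : Bool :=
  wchk 9 38 0 2 tW && wchk 9 38 0 12 kW &&
  eqL (mapT (gtab 44) (wevL 2 tW dL)) (mapT (gtab 4) (wevL 12 kW (mapT (gtab 44) dL)))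

end Cfsg.Agent.H6.Ru
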