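import Mathlib
import Cfsg.Agent.H6.RuDefs

/-! Kernel-checked facts about the tables for the Rudvalis group, part A (helper6). -/

set_option autoImplicit false

namespace Cfsg.Agent.H6.Ru

open Cfsg.Agent.H6.Ree3 (forceN allN)

set_option maxRecDepth 100000 in
theorem chkAct_true : allN 64 chkAct = true := by decide +kernel

set_option maxRecDepth 100000 in
theorem chkInv_true : chkInv = true := by decide +kernel

set_option maxRecDepth 100000 in
theorem chkSort_true : chkSort = true := by decide +kernel

set_option maxRecDepth 100000 in
theorem chkSinv_true : chkSinv = true := by decide +kernel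

set_option maxRecDepth 100000 in
theorem chkSpan_true : chkSpan = true := by decide +kernel

set_option maxRecDepth 100000 in
theorem chkDefT_true : chkDefT = true := by decide +kernel

set_option maxRecDepth 100000 in
theorem chkDef45_true : chkDef45 = true := by decide +kernel

set_option maxRecDepth 100000 in
theorem chkU0_true : chkU0 = true := by decide +kernel

set_option maxRecDepth 100000 in
theorem chkRho_true : chkRho = true := by decide +kernel

set_option maxRecDepth 100000 in
theorem chkZ_true : chkZ = true := by decide +kernel

set_option maxRecDepth 100000 in
theorem chkQ_true : chkQ = true := by decide +kernel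

set_option maxRecDepth 100000 in
theorem chkOut_true : chkOut = true := by decide +kernel

theorem dN_mem : ∀ l : Fin 28, dN l.val ∈ dL := by decide +kernel

theorem dL_lt : ∀ d ∈ dL, d < 4060 := by decide +kernel

theorem dL_small : ∀ l : Fin 27, dN l.val < 1756 := by decide +kernel

theorem dN_last : dN 27 = qstar := by decide +kernel

theorem wL_spec : ∀ i : Fin 8, wN i.val < 4060 := by decide +kernel

theorem q0_lt : q0 < 4060 ∧ 1756 ≤ q0 := by decide +kernel

end Cfsg.Agent.H6.Ru
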