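import Mathlib
import Cfsg.Agent.H6.RuDefs

/-! Kernel-checked facts about the tables for the Rudvalis group, part B (helper6). -/

set_option autoImplicit false

namespace Cfsg.Agent.H6.Ru

open Cfsg.Agent.H6.Ree3 (forceN allN)
open Cfsg.Agent.H6.Tits (wchk)

set_option maxRecDepth 100000 in
theorem chkId_true : chkId 0 = true ∧ chkId 39 = true ∧ chkId 40 = true ∧ chkId 41 = true ∧
    chkId 42 = true ∧ chkId 43 = true := by decide +kernel

theorem u0N_zero : u0N 0 = 0 := by decide +kernel

theorem w45_chk : wchk 9 44 4 3 w45 = true := by decide +kernel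

theorem dL_le : ∀ d ∈ dL, d ≤ 1756 := by decide +kernel

end Cfsg.Agent.H6.Ru
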