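import Mathlib
import Cfsg.Agent.H6.RuDefs

/-! Kernel-checked closure certificates for the Rudvalis group, generator number 4 (helper6). -/

set_option autoImplicit false

namespace Cfsg.Agent.H6.Ru

set_option maxRecDepth 100000 in
theorem c0_4_0 : chkC0 4 0 1015 = true := by decide +kernel

set_option maxRecDepth 100000 in
theorem c0_4_1015 : chkC0 4 1015 1015 = true := by decide +kernel

set_option maxRecDepth 100000 in
theorem c0_4_2030 : chkC0 4 2030 1015 = true := by decide +kernel

set_option maxRecDepth 100000 in
theorem c0_4_3045 : chkC0 4 3045 1015 = true := by decide +kernel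

end Cfsg.Agent.H6.Ru
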