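import Mathlib
import Cfsg.Agent.H6.Tits
import Cfsg.Agent.H6.RuCheckA
import Cfsg.Agent.H6.RuCheckB

/-! The 4060 vectors of the Rudvalis lattice modulo `1 + i`, the permutations induced on them by
tabulated matrices, and words in these permutations (helper6). -/

set_option autoImplicit false

namespace Cfsg.Agent.H6.Ru

open Matrix
open Cfsg.Agent.H6.Ree3 (forceN allN allN_spec allN_intro forceN_eq)
open Cfsg.Agent.H6.Tits (b2 b2_xor b2_inj xfold xfold_succ testBit_xfold eqL eqL_eq wchk wchk_succ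
  fN fL fN_eq fL_eq beq_zero_false)

/-! ### Bits -/

/-- Vector with tabulated bits. -/
def bvec (v : ℕ) : Fin 28 → ZMod 2 := fun j => b2 (v.testBit j.val)

/-- Matrix with tabulated columns. -/
def bmat (C : ℕ → ℕ) : Matrix (Fin 28) (Fin 28) (ZMod 2) :=
  Matrix.of fun i j => b2 ((C j.val).testBit i.val)

theorem bmat_mulVec (C : ℕ → ℕ) (v : ℕ) : bmat C *ᵥ bvec v = bvec (xfold C v 28) := by
  funext i
  show ∑ j : Fin 28, b2 ((C j.val).testBit i.val) * b2 (v.testBit j.val) =
    b2 ((xfold C v 28).testBit i.val)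
  rw [testBit_xfold]
  exact Fin.sum_univ_eq_sum_range (fun m => b2 ((C m).testBit i.val) * b2 (v.testBit m)) 28

theorem bvec_inj {v w : ℕ} (hv : v < 2 ^ 28) (hw : w < 2 ^ 28) (h : bvec v = bvec w) : v = w := by
  apply Nat.eq_of_testBit_eq
  intro i
  by_cases hi : i < 28
  · exact b2_inj (congrFun h ⟨i, hi⟩)
  · have h28 : 2 ^ 28 ≤ 2 ^ i := Nat.pow_le_pow_right (by norm_num) (by omega)
    rw [Nat.testBit_lt_two_pow (lt_of_lt_of_le hv h28),
      Nat.testBit_lt_two_pow (lt_of_lt_of_le hw h28)]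

theorem mul_bmat (M : Matrix (Fin 28) (Fin 28) (ZMod 2)) (C C' : ℕ → ℕ)
    (h : ∀ j : Fin 28, M *ᵥ bvec (C j.val) = bvec (C' j.val)) : M * bmat C = bmat C' := by
  refine Matrix.ext fun i j => ?_
  exact congrFun (h j) i

theorem bmat_one (C : ℕ → ℕ) (h : ∀ j < 28, C j = 1 <<< j) : bmat C = 1 := by
  refine Matrix.ext fun i j => ?_
  show b2 ((C j.val).testBit i.val) = (1 : Matrix _ _ _) i j
  rw [h _ j.isLt, Nat.one_shiftLeft, Nat.testBit_two_pow, Matrix.one_apply]
  by_cases hij : i = j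
  · subst hij; simp [b2]
  · have : j.val ≠ i.val := fun h' => hij (Fin.ext h').symm
    simp [b2, this, hij]

theorem bmat_mul (C C' : ℕ → ℕ) : bmat C * bmat C' = bmat (fun c => xfold C (C' c) 28) :=
  mul_bmat _ _ _ (fun j => bmat_mulVec C (C' j.val))

/-! ### The 4060 vectors -/

/-- The 4060 vectors. -/
def om (i : Fin 4060) : Fin 28 → ZMod 2 := bvec (vecN i.val)

theorem vecN_lt (i : ℕ) : vecN i < 2 ^ 28 :=
  Nat.and_lt_two_pow _ (by norm_num : 268435455 < 2 ^ 28)

theorem sort_strict (a b : ℕ) (hab : a < b) (hb : b < 4060) :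
    vecN (sortN a) < vecN (sortN b) := by
  induction b with
  | zero => omega
  | succ b ih =>
    have hstep : vecN (sortN b) < vecN (sortN (b + 1)) := by
      have h := allN_spec chkSort_true b (by omega)
      rw [Nat.blt_eq] at h
      exact h
    rcases Nat.lt_succ_iff_lt_or_eq.mp hab with h | h
    · exact lt_trans (ih h (by omega)) hstep
    · rw [h]; exact hstep

theorem sort_mono (a b : ℕ) (hab : a ≤ b) (hb : b < 4060) :
    vecN (sortN a) ≤ vecN (sortN b) := by
  rcases Nat.lt_or_eq_of_le hab with h | h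
  · exact le_of_lt (sort_strict a b h hb)
  · rw [h]

theorem sinv_spec (i : ℕ) (hi : i < 4060) : sinvN i < 4060 ∧ sortN (sinvN i) = i := by
  have h := allN_spec chkSinv_true i hi
  rw [forceN_eq, Bool.and_eq_true, Nat.blt_eq] at h
  exact ⟨h.1, Nat.eq_of_beq_eq_true h.2⟩

theorem vecN_inj (i j : ℕ) (hi : i < 4060) (hj : j < 4060) (h : vecN i = vecN j) : i = j := by
  obtain ⟨ha, ea⟩ := sinv_spec i hi
  obtain ⟨hb, eb⟩ := sinv_spec j hj
  rw [← ea, ← eb] at h
  rcases lt_trichotomy (sinvN i) (sinvN j) with hlt | heq | hgt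
  · exact absurd h (ne_of_lt (sort_strict _ _ hlt hb))
  · rw [← ea, ← eb, heq]
  · exact absurd h.symm (ne_of_lt (sort_strict _ _ hgt ha))

theorem om_injective : Function.Injective om := by
  intro i j h
  exact Fin.ext (vecN_inj _ _ i.isLt j.isLt (bvec_inj (vecN_lt _) (vecN_lt _) h))

theorem B_mul_Bi : bmat (fun l => vecN (dN l)) * bmat binvN = 1 := by
  rw [bmat_mul]
  exact bmat_one _ (fun j hj => Nat.eq_of_beq_eq_true (allN_spec chkSpan_true j hj))

/-- Two matrices which agree on the 28 selected vectors are equal. -/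
theorem mat_eq_of_agree (M M' : Matrix (Fin 28) (Fin 28) (ZMod 2))
    (h : ∀ x : Fin 4060, x.val ∈ dL → M *ᵥ om x = M' *ᵥ om x) : M = M' := by
  have hMB : M * bmat (fun l => vecN (dN l)) = M' * bmat (fun l => vecN (dN l)) := by
    refine Matrix.ext fun i j => ?_
    have hd := dN_mem j
    exact congrFun (h ⟨dN j.val, dL_lt _ hd⟩ hd) i
  calc M = M * (bmat (fun l => vecN (dN l)) * bmat binvN) := by rw [B_mul_Bi, mul_one]
    _ = M' * (bmat (fun l => vecN (dN l)) * bmat binvN) := by rw [← mul_assoc, hMB, mul_assoc]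
    _ = M' := by rw [B_mul_Bi, mul_one]

/-! ### Lists of points -/

theorem mapT_eq (T : ℕ) : ∀ xs : List ℕ, mapT T xs = xs.map (lookT T)
  | [] => rfl
  | x :: xs => by
    show lookT T x :: mapT T xs = _
    rw [mapT_eq T xs]; rfl

theorem wev_zero (w x : ℕ) : wev 0 w x = x := rfl

theorem wev_succ (f w x : ℕ) :
    wev (f + 1) w x = if w = 0 then x else genN (w &&& 63) (wev f (w >>> 6) x) := by
  have h : wev (f + 1) w x = Bool.rec (motive := fun _ => ℕ)
      (fN (Nat.shiftRight w 6) fun w' => genN (Nat.land w 63) (wev f w' x)) x (Nat.beq w 0) := rfl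
  rw [h, fN_eq]
  by_cases hw : w = 0
  · subst hw; rfl
  · rw [if_neg hw, beq_zero_false hw]; rfl

theorem wevL_eq : ∀ (f w : ℕ) (xs : List ℕ), wevL f w xs = xs.map (wev f w)
  | 0, w, xs => by
    show xs = _
    have : wev 0 w = id := rfl
    rw [this, List.map_id]
  | f + 1, w, xs => by
    have h : wevL (f + 1) w xs = Bool.rec (motive := fun _ => List ℕ)
        (fL (Nat.shiftRight w 6) fun w' => mapT (gtab (Nat.land w 63)) (wevL f w' xs)) xs
        (Nat.beq w 0) := rfl
    rw [h, fL_eq, mapT_eq, wevL_eq f]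
    by_cases hw : w = 0
    · subst hw
      show xs = _
      have : wev (f + 1) 0 = id := by
        funext x; rw [wev_succ, if_pos rfl]; rfl
      rw [this, List.map_id]
    · rw [beq_zero_false hw, List.map_map]
      apply List.map_congr_left
      intro x _
      rw [wev_succ, if_neg hw]; rfl

/-! ### The permutations -/

theorem act_spec (l : ℕ) (hl : l < 64) (i : ℕ) (hi : i < 4060) :
    genN l i < 4060 ∧ xfold (mcol l) (vecN i) 28 = vecN (genN l i) := by
  have h := allN_spec chkAct_true l hl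
  unfold chkAct at h
  rw [forceN_eq, forceN_eq] at h
  have h2 := allN_spec h i hi
  rw [forceN_eq, Bool.and_eq_true, Nat.blt_eq] at h2
  exact ⟨h2.1, Nat.eq_of_beq_eq_true h2.2⟩

theorem inv_spec (l : ℕ) (hl : l < 64) : bmat (micol l) * bmat (mcol l) = 1 := by
  rw [bmat_mul]
  refine bmat_one _ (fun c hc => ?_)
  have h := allN_spec chkInv_true l hl
  rw [forceN_eq, forceN_eq] at h
  exact Nat.eq_of_beq_eq_true (allN_spec h c hc)

/-- The action of a letter on the points. -/
def gF (l : ℕ) (x : Fin 4060) : Fin 4060 := ⟨genN l x.val % 4060, Nat.mod_lt _ (by norm_num)⟩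

theorem gF_val (l : ℕ) (hl : l < 64) (x : Fin 4060) : (gF l x).val = genN l x.val :=
  Nat.mod_eq_of_lt (act_spec l hl _ x.isLt).1

theorem gF_om (l : ℕ) (hl : l < 64) (x : Fin 4060) : bmat (mcol l) *ᵥ om x = om (gF l x) := by
  show bmat (mcol l) *ᵥ bvec (vecN x.val) = bvec (vecN (gF l x).val)
  rw [bmat_mulVec, (act_spec l hl _ x.isLt).2, gF_val l hl]

theorem gF_injective (l : ℕ) (hl : l < 64) : Function.Injective (gF l) := by
  intro x y h
  apply om_injective
  have h1 : bmat (mcol l) *ᵥ om x = bmat (mcol l) *ᵥ om y := by rw [gF_om l hl, gF_om l hl, h]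
  have h2 := congrArg (fun v => bmat (micol l) *ᵥ v) h1
  simp only [Matrix.mulVec_mulVec, inv_spec l hl, Matrix.one_mulVec] at h2
  exact h2

/-- The permutation of a letter. -/
noncomputable def gen (l : ℕ) : Equiv.Perm (Fin 4060) :=
  if h : l < 64 then
    Equiv.ofBijective (gF l) (Finite.injective_iff_bijective.mp (gF_injective l h))
  else 1

theorem gen_val (l : ℕ) (hl : l < 64) (x : Fin 4060) : (gen l x).val = genN l x.val := by
  rw [gen, dif_pos hl]
  exact gF_val l hl x

theorem gen_om (l : ℕ) (hl : l < 64) (x : Fin 4060) : bmat (mcol l) *ᵥ om x = om (gen l x) := by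
  rw [gen, dif_pos hl]
  exact gF_om l hl x

/-- The permutation of a word. -/
noncomputable def wperm : ℕ → ℕ → Equiv.Perm (Fin 4060)
  | 0, _ => 1
  | f + 1, w => if w = 0 then 1 else gen (w &&& 63) * wperm f (w >>> 6)

theorem and63_lt (w : ℕ) : w &&& 63 < 64 := Nat.and_lt_two_pow w (by norm_num : 63 < 2 ^ 6)

theorem wperm_zero (f : ℕ) : wperm f 0 = 1 := by
  cases f <;> simp [wperm]

theorem wperm_succ (f w : ℕ) (hw : w ≠ 0) :
    wperm (f + 1) w = gen (w &&& 63) * wperm f (w >>> 6) := by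
  simp [wperm, hw]

theorem wperm_val : ∀ (f w : ℕ) (x : Fin 4060), (wperm f w x).val = wev f w x.val
  | 0, w, x => rfl
  | f + 1, w, x => by
    rw [wev_succ]
    by_cases hw : w = 0
    · rw [if_pos hw, hw, wperm_zero]; rfl
    · rw [if_neg hw, wperm_succ f w hw, Equiv.Perm.mul_apply, gen_val _ (and63_lt w),
        wperm_val f]

theorem wperm_mem (H : Subgroup (Equiv.Perm (Fin 4060))) (lo hi e : ℕ)
    (hH : ∀ l, lo ≤ l → l ≤ hi → gen l ∈ H) (he : gen e ∈ H) :
    ∀ f w, wchk lo hi e f w = true → wperm f w ∈ H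
  | 0, w, _ => H.one_mem
  | f + 1, w, h => by
    rw [wchk_succ] at h
    by_cases hw : w = 0
    · rw [hw, wperm_zero]; exact H.one_mem
    · rw [beq_zero_false hw, Bool.false_or, Bool.and_eq_true, Bool.or_eq_true,
        Bool.and_eq_true] at h
      rw [wperm_succ f w hw]
      refine H.mul_mem ?_ (wperm_mem H lo hi e hH he f _ h.2)
      rcases h.1 with ⟨h1, h2⟩ | h3
      · exact hH _ (Nat.le_of_ble_eq_true h1) (Nat.le_of_ble_eq_true h2)
      · rw [Nat.eq_of_beq_eq_true h3]; exact he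

/-! ### Permutations induced by matrices -/

/-- The permutation is induced by a matrix. -/
def Lin (σ : Equiv.Perm (Fin 4060)) : Prop :=
  ∃ M : Matrix (Fin 28) (Fin 28) (ZMod 2), ∀ i, M *ᵥ om i = om (σ i)

theorem lin_one : Lin 1 := ⟨1, fun i => by rw [Matrix.one_mulVec]; rfl⟩

theorem lin_mul {a b : Equiv.Perm (Fin 4060)} (ha : Lin a) (hb : Lin b) : Lin (a * b) := by
  obtain ⟨A, hA⟩ := ha
  obtain ⟨B, hB⟩ := hb
  exact ⟨A * B, fun i => by rw [← Matrix.mulVec_mulVec, hB, hA]; rfl⟩

theorem lin_gen (l : ℕ) : Lin (gen l) := by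
  by_cases hl : l < 64
  · exact ⟨bmat (mcol l), gen_om l hl⟩
  · rw [gen, dif_neg hl]; exact lin_one

theorem lin_wperm : ∀ f w, Lin (wperm f w)
  | 0, _ => lin_one
  | f + 1, w => by
    by_cases hw : w = 0
    · rw [hw, wperm_zero]; exact lin_one
    · rw [wperm_succ f w hw]; exact lin_mul (lin_gen _) (lin_wperm f _)

theorem lin_pow {a : Equiv.Perm (Fin 4060)} (ha : Lin a) (n : ℕ) : Lin (a ^ n) := by
  induction n with
  | zero => rw [pow_zero]; exact lin_one
  | succ n ih => rw [pow_succ]; exact lin_mul ih ha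

theorem lin_inv {a : Equiv.Perm (Fin 4060)} (ha : Lin a) : Lin a⁻¹ := by
  have hinv : a⁻¹ = a ^ (orderOf a - 1) := by
    have h : a ^ (orderOf a - 1) * a = 1 := by
      rw [← pow_succ, Nat.sub_add_cancel (orderOf_pos a), pow_orderOf_eq_one]
    exact (eq_inv_of_mul_eq_one_left h).symm
  rw [hinv]; exact lin_pow ha _

/-- The subgroup of all permutations induced by matrices. -/
def LinG : Subgroup (Equiv.Perm (Fin 4060)) where
  carrier := {σ | Lin σ}
  mul_mem' := lin_mul
  one_mem' := lin_one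
  inv_mem' := lin_inv

/-- Two permutations induced by matrices which agree on the 28 selected points are equal. -/
theorem det_lemma (a b : Equiv.Perm (Fin 4060)) (ha : Lin a) (hb : Lin b)
    (h : ∀ x : Fin 4060, x.val ∈ dL → a x = b x) : a = b := by
  obtain ⟨A, hA⟩ := ha
  obtain ⟨B, hB⟩ := hb
  have hAB : A = B := mat_eq_of_agree A B (fun x hx => by rw [hA, hB, h x hx])
  apply Equiv.ext
  intro x
  apply om_injective
  rw [← hA, ← hB, hAB]

/-- A relation between permutations induced by matrices, checked on the 28 selected points. -/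
theorem rel_of_list {a b : Equiv.Perm (Fin 4060)} (ha : Lin a) (hb : Lin b) (F G : ℕ → ℕ)
    (hF : ∀ x : Fin 4060, (a x).val = F x.val) (hG : ∀ x : Fin 4060, (b x).val = G x.val)
    (h : dL.map F = dL.map G) : a = b :=
  det_lemma a b ha hb fun x hx => Fin.ext (by
    rw [hF, hG]; exact List.map_inj_left.mp h _ hx)

theorem perm_ext_val {a b : Equiv.Perm (Fin 4060)} (h : ∀ x : Fin 4060, (a x).val = (b x).val) :
    a = b :=
  Equiv.ext fun x => Fin.ext (h x)

end Cfsg.Agent.H6.Ru
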