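import Mathlib
import Cfsg.Agent.H6.RuLin
import Cfsg.Agent.H6.RuCheckC0
import Cfsg.Agent.H6.RuCheckC1
import Cfsg.Agent.H6.RuCheckC2
import Cfsg.Agent.H6.RuCheckC3
import Cfsg.Agent.H6.RuCheckC4

/-! The group generated by five tabulated permutations of 4060 points: its point stabilizer is
isomorphic to the automorphism group of the Tits group, and it has order 145926144000
(helper6). -/

set_option autoImplicit false

namespace Cfsg.Agent.H6.Ru

open Matrix
open Cfsg.Agent.H6.Ree3 (forceN allN allN_spec allN_intro forceN_eq)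
open Cfsg.Agent.H6.Tits (xfold eqL eqL_eq wchk u1N udN szN)

/-! ### The groups -/

/-- The group generated by the five permutations. -/
def H : Subgroup (Equiv.Perm (Fin 4060)) :=
  Subgroup.closure {gen 4, gen 9, gen 10, gen 11, gen 44}

/-- The subgroup generated by the first four permutations (the point stabilizer). -/
def D : Subgroup (Equiv.Perm (Fin 4060)) := Subgroup.closure {gen 4, gen 9, gen 10, gen 11}

/-- The subgroup generated by three of the permutations (the Tits group). -/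
def Tr : Subgroup (Equiv.Perm (Fin 4060)) := Subgroup.closure {gen 9, gen 10, gen 11}

theorem Tr_le_D : Tr ≤ D := Subgroup.closure_mono (Set.subset_insert _ _)

theorem D_le_H : D ≤ H := by
  apply Subgroup.closure_mono
  intro x hx
  rcases hx with rfl | rfl | rfl | rfl <;> simp

theorem gen4_mem_D : gen 4 ∈ D := Subgroup.subset_closure (by simp)

theorem gen44_mem_H : gen 44 ∈ H := Subgroup.subset_closure (by simp)

theorem id_spec (l : ℕ) (hl : l < 64) (h : chkId l = true) : gen l = 1 := by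
  unfold chkId at h
  rw [forceN_eq] at h
  apply perm_ext_val
  intro x
  rw [gen_val l hl]
  exact Nat.eq_of_beq_eq_true (allN_spec h x.val x.isLt)

theorem gen_zero : gen 0 = 1 := id_spec 0 (by norm_num) chkId_true.1

theorem defT_spec (l : ℕ) (h12 : 12 ≤ l) (h38 : l ≤ 38) :
    wperm 20 (Tits.defN l 0) * gen l = wperm 20 (Tits.defN l 1) := by
  have h := allN_spec chkDefT_true (l - 12) (by omega)
  have e : Nat.add 12 (l - 12) = l := by
    show 12 + (l - 12) = l
    omega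
  rw [forceN_eq, e, forceN_eq, forceN_eq] at h
  have h4 := eqL_eq _ _ h
  rw [wevL_eq, wevL_eq, mapT_eq, List.map_map] at h4
  refine rel_of_list (lin_mul (lin_wperm _ _) (lin_gen _)) (lin_wperm _ _) _ _
    (fun x => ?_) (fun x => ?_) h4
  · rw [Equiv.Perm.mul_apply, wperm_val, gen_val l (by omega)]; rfl
  · rw [wperm_val]

theorem gen_mem_Tr : ∀ l, 9 ≤ l → l ≤ 38 → gen l ∈ Tr := by
  intro l
  induction l using Nat.strong_induction_on with
  | _ l ih =>
    intro h9 h38
    by_cases h11 : l ≤ 11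
    · have : l = 9 ∨ l = 10 ∨ l = 11 := by omega
      rcases this with rfl | rfl | rfl
      · exact Subgroup.subset_closure (by simp)
      · exact Subgroup.subset_closure (by simp)
      · exact Subgroup.subset_closure (by simp)
    · obtain ⟨hA, hB, _⟩ := Tits.def_spec l (by omega) (by omega)
      have hrel := defT_spec l (by omega) h38
      have hd : Tits.dloN l = 9 := by
        rcases Tits.dlo_cases l with ⟨h1, _⟩ | ⟨_, h2⟩
        · omega
        · exact h2
      rw [hd] at hA hB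
      have hmem : ∀ w, wchk 9 (l - 1) 0 20 w = true → wperm 20 w ∈ Tr :=
        fun w hw => wperm_mem Tr 9 (l - 1) 0
          (fun l' h1 h2 => ih l' (by omega) h1 (by omega))
          (by rw [gen_zero]; exact Tr.one_mem) 20 w hw
      have h : gen l = (wperm 20 (Tits.defN l 0))⁻¹ * wperm 20 (Tits.defN l 1) :=
        eq_inv_mul_of_mul_eq hrel
      rw [h]
      exact Tr.mul_mem (Tr.inv_mem (hmem _ hA)) (hmem _ hB)

theorem wperm_mem_Tr (f w : ℕ) (h : wchk 9 38 0 f w = true) : wperm f w ∈ Tr :=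
  wperm_mem Tr 9 38 0 (fun l h1 h2 => gen_mem_Tr l h1 h2)
    (by rw [gen_zero]; exact Tr.one_mem) f w h

theorem wperm_mem_Tr12 (f w : ℕ) (h : wchk 12 38 0 f w = true) : wperm f w ∈ Tr :=
  wperm_mem Tr 12 38 0 (fun l h1 h2 => gen_mem_Tr l (by omega) h2)
    (by rw [gen_zero]; exact Tr.one_mem) f w h

theorem wperm_mem_D (f w : ℕ) (h : wchk 9 38 4 f w = true) : wperm f w ∈ D :=
  wperm_mem D 9 38 4 (fun l h1 h2 => Tr_le_D (gen_mem_Tr l h1 h2)) gen4_mem_D f w h

theorem gen_mem_H44 (l : ℕ) (h : l = 4 ∨ (9 ≤ l ∧ l ≤ 44)) : gen l ∈ H := by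
  rcases h with rfl | ⟨h9, h44⟩
  · exact D_le_H gen4_mem_D
  · by_cases h38 : l ≤ 38
    · exact D_le_H (Tr_le_D (gen_mem_Tr l h9 h38))
    · have : l = 39 ∨ l = 40 ∨ l = 41 ∨ l = 42 ∨ l = 43 ∨ l = 44 := by omega
      rcases this with rfl | rfl | rfl | rfl | rfl | rfl
      · rw [id_spec 39 (by norm_num) chkId_true.2.1]; exact H.one_mem
      · rw [id_spec 40 (by norm_num) chkId_true.2.2.1]; exact H.one_mem
      · rw [id_spec 41 (by norm_num) chkId_true.2.2.2.1]; exact H.one_mem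
      · rw [id_spec 42 (by norm_num) chkId_true.2.2.2.2.1]; exact H.one_mem
      · rw [id_spec 43 (by norm_num) chkId_true.2.2.2.2.2]; exact H.one_mem
      · exact gen44_mem_H

theorem gen45_eq : gen 45 = wperm 3 w45 := by
  have h4 := eqL_eq _ _ chkDef45_true
  rw [wevL_eq, mapT_eq] at h4
  refine rel_of_list (lin_gen _) (lin_wperm _ _) _ _ (fun x => ?_) (fun x => ?_) h4
  · rw [gen_val 45 (by norm_num)]; rfl
  · rw [wperm_val]

theorem gen_mem_H (l : ℕ) (h : l = 4 ∨ (9 ≤ l ∧ l ≤ 45)) : gen l ∈ H := by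
  by_cases h45 : l = 45
  · rw [h45, gen45_eq]
    exact wperm_mem H 9 44 4 (fun l h1 h2 => gen_mem_H44 l (Or.inr ⟨h1, h2⟩))
      (gen_mem_H44 4 (Or.inl rfl)) 3 w45 w45_chk
  · exact gen_mem_H44 l (by omega)

theorem wperm_mem_H (f w : ℕ) (h : wchk 9 45 4 f w = true) : wperm f w ∈ H :=
  wperm_mem H 9 45 4 (fun l h1 h2 => gen_mem_H l (Or.inr ⟨h1, h2⟩)) (gen_mem_H 4 (Or.inl rfl)) f w h

/-! ### The transversal -/

/-- The transversal elements. -/
noncomputable def U0 (j : ℕ) : Equiv.Perm (Fin 4060) := wperm 6 (u0N j)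

theorem u0_spec (j : ℕ) (hj : j < 4060) :
    wchk 9 45 4 6 (u0N j) = true ∧ wev 6 (u0N j) 0 = j := by
  have h := allN_spec chkU0_true j hj
  rw [forceN_eq, Bool.and_eq_true] at h
  exact ⟨h.1, Nat.eq_of_beq_eq_true h.2⟩

theorem U0_mem (j : ℕ) (hj : j < 4060) : U0 j ∈ H := wperm_mem_H _ _ (u0_spec j hj).1

theorem U0_apply (j : ℕ) (hj : j < 4060) : U0 j 0 = ⟨j, hj⟩ := by
  apply Fin.ext
  rw [U0, wperm_val]
  exact (u0_spec j hj).2

theorem U0_zero : U0 0 = 1 := by rw [U0, u0N_zero, wperm_zero]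

/-! ### The certificates -/

/-- The optional first letter of a certificate, on points. -/
def epsF (c x : ℕ) : ℕ := if c &&& 1 = 1 then genN 4 x else x

/-- The element coded by a certificate, on points. -/
def dwF (c x : ℕ) : ℕ :=
  epsF c (wev 6 (u1N (j0N c)) (wev 6 (udN 1 (jdN c 1)) (wev 6 (udN 2 (jdN c 2))
    (wev 6 (udN 3 (jdN c 3)) (wev 6 (udN 4 (jdN c 4)) (wev 6 (udN 5 (jdN c 5))
    (wev 6 (udN 6 (jdN c 6)) (wev 6 (udN 7 (jdN c 7)) (wev 6 (udN 8 (jdN c 8)) x)))))))))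

/-- The element of the point stabilizer coded by a certificate. -/
noncomputable def dw (c : ℕ) : Equiv.Perm (Fin 4060) :=
  (if c &&& 1 = 1 then gen 4 else 1) * (wperm 6 (u1N (j0N c)) * (wperm 6 (udN 1 (jdN c 1)) *
    (wperm 6 (udN 2 (jdN c 2)) * (wperm 6 (udN 3 (jdN c 3)) * (wperm 6 (udN 4 (jdN c 4)) *
    (wperm 6 (udN 5 (jdN c 5)) * (wperm 6 (udN 6 (jdN c 6)) * (wperm 6 (udN 7 (jdN c 7)) *
    wperm 6 (udN 8 (jdN c 8))))))))))

theorem eps4_eq (c : ℕ) (xs : List ℕ) : eps4 (Nat.land c 1) xs = xs.map (epsF c) := by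
  unfold eps4 epsF
  by_cases h : c &&& 1 = 1
  · have hb : Nat.beq (Nat.land c 1) 1 = true := by
      show Nat.beq (c &&& 1) 1 = true
      rw [h]; rfl
    rw [hb, mapT_eq]
    simp only [if_pos h]
    rfl
  · have hb : Nat.beq (Nat.land c 1) 1 = false := by
      cases hb : Nat.beq (Nat.land c 1) 1
      · rfl
      · exact absurd (Nat.eq_of_beq_eq_true hb) h
    rw [hb]
    simp only [if_neg h]
    show xs = _
    simp

theorem dwL_eq (c : ℕ) (xs : List ℕ) : dwL c xs = xs.map (dwF c) := by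
  unfold dwL
  rw [eps4_eq]
  simp only [wevL_eq, List.map_map]
  rfl

theorem dw_val (c : ℕ) (x : Fin 4060) : (dw c x).val = dwF c x.val := by
  unfold dw dwF epsF
  by_cases h : c &&& 1 = 1
  · rw [if_pos h, if_pos h]
    simp only [Equiv.Perm.mul_apply, gen_val 4 (by norm_num : 4 < 64), wperm_val]
  · rw [if_neg h, if_neg h]
    simp only [Equiv.Perm.mul_apply, Equiv.Perm.one_apply, wperm_val]

theorem lin_dw (c : ℕ) : Lin (dw c) := by
  unfold dw
  refine lin_mul ?_ (lin_mul (lin_wperm _ _) (lin_mul (lin_wperm _ _) (lin_mul (lin_wperm _ _)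
    (lin_mul (lin_wperm _ _) (lin_mul (lin_wperm _ _) (lin_mul (lin_wperm _ _)
    (lin_mul (lin_wperm _ _) (lin_mul (lin_wperm _ _) (lin_wperm _ _)))))))))
  split_ifs
  · exact lin_gen _
  · exact lin_one

theorem cOK_spec (c : ℕ) (h : cOK c = true) :
    j0N c < 1755 ∧ ∀ lv, 1 ≤ lv → lv ≤ 8 → jdN c lv < szN lv := by
  unfold cOK at h
  rw [Bool.and_eq_true, Nat.blt_eq] at h
  refine ⟨h.1, fun lv h1 h8 => ?_⟩
  have h2 := allN_spec h.2 (lv - 1) (by omega)
  have e : Nat.succ (lv - 1) = lv := by omega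
  rw [forceN_eq, e, Nat.blt_eq] at h2
  exact h2

theorem dw_mem (c : ℕ) (h : cOK c = true) : dw c ∈ D := by
  obtain ⟨h0, hd⟩ := cOK_spec c h
  have hu : ∀ lv, 1 ≤ lv → lv ≤ 8 → wperm 6 (udN lv (jdN c lv)) ∈ D := fun lv h1 h8 =>
    Tr_le_D (wperm_mem_Tr12 _ _ (Tits.ud_spec lv h1 (by omega) _ (hd lv h1 h8)).1)
  have he : (if c &&& 1 = 1 then gen 4 else 1) ∈ D := by
    split_ifs
    · exact gen4_mem_D
    · exact D.one_mem
  unfold dw
  exact D.mul_mem he (D.mul_mem (Tr_le_D (wperm_mem_Tr _ _ (Tits.u0_spec _ h0).1))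
    (D.mul_mem (hu 1 (by norm_num) (by norm_num)) (D.mul_mem (hu 2 (by norm_num) (by norm_num))
    (D.mul_mem (hu 3 (by norm_num) (by norm_num)) (D.mul_mem (hu 4 (by norm_num) (by norm_num))
    (D.mul_mem (hu 5 (by norm_num) (by norm_num)) (D.mul_mem (hu 6 (by norm_num) (by norm_num))
    (D.mul_mem (hu 7 (by norm_num) (by norm_num)) (hu 8 (by norm_num) (by norm_num))))))))))

theorem c0_all (t : ℕ) (ht : t < 5) (a : ℕ) (ha : a < 4) :
    chkC0 t (1015 * a) 1015 = true := by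
  interval_cases t <;> interval_cases a
  · exact c0_0_0
  · exact c0_0_1015
  · exact c0_0_2030
  · exact c0_0_3045
  · exact c0_1_0
  · exact c0_1_1015
  · exact c0_1_2030
  · exact c0_1_3045
  · exact c0_2_0
  · exact c0_2_1015
  · exact c0_2_2030
  · exact c0_2_3045
  · exact c0_3_0
  · exact c0_3_1015
  · exact c0_3_2030
  · exact c0_3_3045
  · exact c0_4_0
  · exact c0_4_1015
  · exact c0_4_2030
  · exact c0_4_3045

theorem sgen_lt (t : ℕ) (ht : t < 5) : sgen t < 64 := by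
  interval_cases t <;> decide

theorem c0_spec (t : ℕ) (ht : t < 5) (j : ℕ) (hj : j < 4060) :
    genN (sgen t) j < 4060 ∧ cOK (c0N t j) = true ∧
    gen (sgen t) * U0 j = U0 (genN (sgen t) j) * dw (c0N t j) := by
  have h := c0_all t ht (j / 1015) (by omega)
  unfold chkC0 at h
  rw [forceN_eq, forceN_eq] at h
  have h2 := allN_spec h (j % 1015) (Nat.mod_lt _ (by norm_num))
  have e : Nat.add (1015 * (j / 1015)) (j % 1015) = j := Nat.div_add_mod j 1015
  rw [forceN_eq, e, forceN_eq, forceN_eq, Bool.and_eq_true, Bool.and_eq_true, Nat.blt_eq] at h2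
  obtain ⟨⟨hA, hB⟩, hE⟩ := h2
  refine ⟨hA, hB, ?_⟩
  have h4 := eqL_eq _ _ hE
  rw [dwL_eq] at h4
  simp only [mapT_eq, wevL_eq, List.map_map] at h4
  refine rel_of_list (lin_mul (lin_gen _) (lin_wperm _ _)) (lin_mul (lin_wperm _ _) (lin_dw _))
    _ _ (fun x => ?_) (fun x => ?_) h4
  · rw [Equiv.Perm.mul_apply, gen_val _ (sgen_lt t ht), U0, wperm_val]; rfl
  · rw [Equiv.Perm.mul_apply, U0, wperm_val, dw_val]; rfl

/-- Every element is a transversal element times an element of the subgroup `D`. -/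
theorem H_sub (h : Equiv.Perm (Fin 4060)) (hh : h ∈ H) :
    ∃ j, j < 4060 ∧ ∃ d ∈ D, h = U0 j * d := by
  refine SS.closure_subset_of_mul_mem
    ({gen 4, gen 9, gen 10, gen 11, gen 44} : Set (Equiv.Perm (Fin 4060)))
    {h | ∃ j, j < 4060 ∧ ∃ d ∈ D, h = U0 j * d}
    ⟨0, by norm_num, 1, D.one_mem, by rw [U0_zero, one_mul]⟩ ?_ h hh
  intro s hs r hr
  obtain ⟨j, hj, d, hd, rfl⟩ := hr
  have key : ∀ t, t < 5 → gen (sgen t) * (U0 j * d) ∈
      {h | ∃ j, j < 4060 ∧ ∃ d ∈ D, h = U0 j * d} := by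
    intro t ht
    obtain ⟨hA, hB, hrel⟩ := c0_spec t ht j hj
    exact ⟨_, hA, dw (c0N t j) * d, D.mul_mem (dw_mem _ hB) hd, by
      rw [← mul_assoc, hrel, mul_assoc]⟩
  rcases hs with rfl | rfl | rfl | rfl | rfl
  · exact key 0 (by norm_num)
  · exact key 1 (by norm_num)
  · exact key 2 (by norm_num)
  · exact key 3 (by norm_num)
  · exact key 4 (by norm_num)

end Cfsg.Agent.H6.Ru
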