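import Mathlib
import Cfsg.Agent.H6.RuMain

/-! The point stabilizer of the group on 4060 points: it acts faithfully on 1755 of the points as
the automorphism group of the Tits group (helper6). -/

set_option autoImplicit false

namespace Cfsg.Agent.H6.Ru

open Matrix
open Cfsg.Agent.H6.Ree3 (forceN allN allN_spec allN_intro forceN_eq)
open Cfsg.Agent.H6.Tits (xfold eqL eqL_eq wchk u1N udN szN)

/-! ### A graph lemma -/

/-- A subgroup of a product which is the graph of a bijection between its projections gives an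
isomorphism between them. -/
theorem graph_equiv {A B : Type*} [Group A] [Group B] (Γ : Subgroup (A × B))
    (h1 : ∀ x ∈ Γ, x.1 = 1 → x.2 = 1) (h2 : ∀ x ∈ Γ, x.2 = 1 → x.1 = 1) :
    Nonempty (Γ.map (MonoidHom.fst A B) ≃* Γ.map (MonoidHom.snd A B)) := by
  have i1 : Function.Injective ((MonoidHom.fst A B).comp Γ.subtype) := by
    rw [injective_iff_map_eq_one]
    intro x hx
    apply Subtype.ext
    exact Prod.ext hx (h1 x.1 x.2 hx)
  have i2 : Function.Injective ((MonoidHom.snd A B).comp Γ.subtype) := by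
    rw [injective_iff_map_eq_one]
    intro x hx
    apply Subtype.ext
    exact Prod.ext (h2 x.1 x.2 hx) hx
  have r1 : ((MonoidHom.fst A B).comp Γ.subtype).range = Γ.map (MonoidHom.fst A B) := by
    rw [MonoidHom.range_comp, Subgroup.range_subtype]
  have r2 : ((MonoidHom.snd A B).comp Γ.subtype).range = Γ.map (MonoidHom.snd A B) := by
    rw [MonoidHom.range_comp, Subgroup.range_subtype]
  exact ⟨((MulEquiv.subgroupCongr r1).symm.trans (MonoidHom.ofInjective i1).symm).trans
    ((MonoidHom.ofInjective i2).trans (MulEquiv.subgroupCongr r2))⟩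

/-! ### The 1755 points -/

/-- The embedding of the 1755 points of the Tits group. -/
def emb (i : Fin 1755) : Fin 4060 := ⟨i.val + 1, by omega⟩

theorem emb_injective : Function.Injective emb := by
  intro i j h
  have := congrArg Fin.val h
  simp only [emb] at this
  exact Fin.ext (by omega)

/-- The pairs of compatible permutations. -/
def RelG : Subgroup (Equiv.Perm (Fin 4060) × Equiv.Perm (Fin 1755)) where
  carrier := {x | x.1 0 = 0 ∧ ∀ i, x.1 (emb i) = emb (x.2 i)}
  mul_mem' := by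
    rintro a b ⟨ha0, ha⟩ ⟨hb0, hb⟩
    refine ⟨?_, fun i => ?_⟩
    · show a.1 (b.1 0) = 0
      rw [hb0, ha0]
    · show a.1 (b.1 (emb i)) = emb (a.2 (b.2 i))
      rw [hb, ha]
  one_mem' := ⟨rfl, fun _ => rfl⟩
  inv_mem' := by
    rintro a ⟨ha0, ha⟩
    refine ⟨?_, fun i => ?_⟩
    · show a.1⁻¹ 0 = 0
      rw [Equiv.Perm.inv_eq_iff_eq, ha0]
    · show a.1⁻¹ (emb i) = emb (a.2⁻¹ i)
      rw [Equiv.Perm.inv_eq_iff_eq, ha]
      exact congrArg emb (a.2.apply_symm_apply i).symm

theorem mem_RelG {x : Equiv.Perm (Fin 4060) × Equiv.Perm (Fin 1755)} :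
    x ∈ RelG ↔ x.1 0 = 0 ∧ ∀ i, x.1 (emb i) = emb (x.2 i) := Iff.rfl

/-- A letter of the big group paired with the same letter of the small group. -/
noncomputable def gpair (s : ℕ) : Equiv.Perm (Fin 4060) × Equiv.Perm (Fin 1755) :=
  (gen s, Tits.gen s)

/-- The graph of the restriction on the point stabilizer. -/
def Gam : Subgroup (Equiv.Perm (Fin 4060) × Equiv.Perm (Fin 1755)) :=
  Subgroup.closure {gpair 4, gpair 9, gpair 10, gpair 11}

/-- The graph of the restriction on the Tits subgroup. -/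
def GamK : Subgroup (Equiv.Perm (Fin 4060) × Equiv.Perm (Fin 1755)) :=
  Subgroup.closure {gpair 9, gpair 10, gpair 11}

theorem GamK_le : GamK ≤ Gam := Subgroup.closure_mono (Set.subset_insert _ _)

theorem rho_spec (t : ℕ) (ht : t < 4) : genN (sgen t) 0 = 0 ∧
    ∀ i < 1755, genN (sgen t) (i + 1) = Tits.genN (sgen t) i + 1 := by
  have h := allN_spec chkRho_true t ht
  rw [forceN_eq, forceN_eq, forceN_eq, Bool.and_eq_true] at h
  refine ⟨Nat.eq_of_beq_eq_true h.1, fun i hi => ?_⟩
  exact Nat.eq_of_beq_eq_true (allN_spec h.2 i hi)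

theorem gpair_mem (t : ℕ) (ht : t < 4) : gpair (sgen t) ∈ RelG := by
  have hs : sgen t < 64 := sgen_lt t (by omega)
  obtain ⟨h0, h1⟩ := rho_spec t ht
  refine ⟨?_, fun i => ?_⟩
  · apply Fin.ext
    show (gen (sgen t) 0).val = 0
    rw [gen_val _ hs]
    exact h0
  · apply Fin.ext
    show (gen (sgen t) (emb i)).val = (Tits.gen (sgen t) i).val + 1
    rw [gen_val _ hs, Tits.gen_val _ hs]
    exact h1 i.val i.isLt

theorem Gam_le : Gam ≤ RelG := by
  rw [Gam, Subgroup.closure_le]
  intro x hx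
  rcases hx with rfl | rfl | rfl | rfl
  · exact gpair_mem 0 (by norm_num)
  · exact gpair_mem 1 (by norm_num)
  · exact gpair_mem 2 (by norm_num)
  · exact gpair_mem 3 (by norm_num)

theorem Gam_fst : Gam.map (MonoidHom.fst _ _) = D := by
  rw [Gam, MonoidHom.map_closure, D]
  congr 1
  simp only [Set.image_insert_eq, Set.image_singleton]
  rfl

theorem GamK_fst : GamK.map (MonoidHom.fst _ _) = Tr := by
  rw [GamK, MonoidHom.map_closure, Tr]
  congr 1
  simp only [Set.image_insert_eq, Set.image_singleton]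
  rfl

theorem GamK_snd : GamK.map (MonoidHom.snd _ _) = Tits.K := by
  rw [GamK, MonoidHom.map_closure, Tits.K]
  congr 1
  simp only [Set.image_insert_eq, Set.image_singleton]
  rfl

theorem Gam_snd : Gam.map (MonoidHom.snd _ _) = Tits.P := by
  have e : Gam.map (MonoidHom.snd _ _) =
      Subgroup.closure {Tits.gen 4, Tits.gen 9, Tits.gen 10, Tits.gen 11} := by
    rw [Gam, MonoidHom.map_closure]
    congr 1
    simp only [Set.image_insert_eq, Set.image_singleton]
    rfl
  rw [e]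
  apply le_antisymm
  · rw [Subgroup.closure_le]
    intro g hg
    rcases hg with rfl | rfl | rfl | rfl
    · exact Tits.gen_mem_P _ (by norm_num)
    · exact Tits.gen_mem_P _ (by norm_num)
    · exact Tits.gen_mem_P _ (by norm_num)
    · exact Tits.gen_mem_P _ (by norm_num)
  · intro g hg
    have hK : Tits.K ≤ Subgroup.closure {Tits.gen 4, Tits.gen 9, Tits.gen 10, Tits.gen 11} :=
      Subgroup.closure_mono (Set.subset_insert _ _)
    rcases Tits.P_sub g hg with h | ⟨κ, hκ, rfl⟩
    · exact hK h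
    · exact Subgroup.mul_mem _ (Subgroup.subset_closure (by simp)) (hK hκ)

theorem D_lin : D ≤ LinG := by
  rw [D, Subgroup.closure_le]
  intro x hx
  rcases hx with rfl | rfl | rfl | rfl <;> exact lin_gen _

theorem D_fix (d : Equiv.Perm (Fin 4060)) (hd : d ∈ D) : d 0 = 0 := by
  rw [← Gam_fst] at hd
  obtain ⟨x, hx, rfl⟩ := hd
  exact (Gam_le hx).1

/-! ### The restriction is injective -/

/-- The columns of a matrix fixing the first 27 selected vectors. -/
def zcol (q l : ℕ) : ℕ := Bool.rec (motive := fun _ => ℕ) (vecN (dN l)) (vecN q) (Nat.beq l 27)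

theorem zcol_lt (q l : ℕ) (hl : l < 27) : zcol q l = vecN (dN l) := by
  unfold zcol
  have : Nat.beq l 27 = false := by
    cases hb : Nat.beq l 27
    · rfl
    · have := Nat.eq_of_beq_eq_true hb
      omega
  rw [this]

theorem zcol_last (q : ℕ) : zcol q 27 = vecN q := rfl

theorem z_spec (k : ℕ) (hk : k < 2304) (hne : 1756 + k ≠ 1756) :
    zN k >>> 3 < 4059 ∧
    vecN (sortN (zN k >>> 3)) < xfold (zcol (1756 + k)) (cW (zN k &&& 7)) 28 ∧
    xfold (zcol (1756 + k)) (cW (zN k &&& 7)) 28 < vecN (sortN (zN k >>> 3 + 1)) := by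
  have h := allN_spec chkZ_true k hk
  rw [forceN_eq, Bool.or_eq_true] at h
  rcases h with h | h
  · exact absurd (Nat.eq_of_beq_eq_true h) hne
  · rw [forceN_eq, forceN_eq, forceN_eq, Bool.and_eq_true, Bool.and_eq_true, Nat.blt_eq,
      Nat.blt_eq, Nat.blt_eq] at h
    exact ⟨h.1.1, h.1.2, h.2⟩

/-- The last selected point. -/
def qsF : Fin 4060 := ⟨1756, by norm_num⟩

/-- A permutation induced by a matrix which fixes the first 1756 points is trivial. -/
theorem z_lemma (d : Equiv.Perm (Fin 4060)) (hd : Lin d)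
    (hfix : ∀ x : Fin 4060, x.val < 1756 → d x = x) : d = 1 := by
  obtain ⟨M, hM⟩ := hd
  have hq : 1756 ≤ (d qsF).val := by
    by_contra hlt
    have h1 : d (d qsF) = d qsF := hfix _ (by omega)
    have h2 : d qsF = qsF := d.injective h1
    rw [h2] at hlt
    exact hlt (le_refl _)
  by_cases hqq : (d qsF).val = 1756
  · have hdq : d qsF = qsF := Fin.ext hqq
    refine det_lemma d 1 ⟨M, hM⟩ lin_one (fun x hx => ?_)
    have hle := dL_le _ hx
    rcases Nat.lt_or_eq_of_le hle with h | h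
    · exact hfix x h
    · have hxq : x = qsF := Fin.ext h
      rw [hxq, hdq]
      rfl
  · exfalso
    obtain ⟨k, hk⟩ : ∃ k, 1756 + k = (d qsF).val := ⟨(d qsF).val - 1756, by omega⟩
    have hk2 : k < 2304 := by
      have := (d qsF).isLt
      omega
    obtain ⟨hpos, hlo, hhi⟩ := z_spec k hk2 (by omega)
    rw [hk] at hlo hhi
    have hMB : M * bmat (fun l => vecN (dN l)) = bmat (zcol (d qsF).val) := by
      refine mul_bmat _ _ _ (fun j => ?_)
      show M *ᵥ bvec (vecN (dN j.val)) = bvec (zcol (d qsF).val j.val)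
      by_cases hj : j.val < 27
      · rw [zcol_lt _ _ hj]
        have hsm := dL_small ⟨j.val, hj⟩
        have hMj := hM ⟨dN j.val, dL_lt _ (dN_mem j)⟩
        rw [hfix _ hsm] at hMj
        exact hMj
      · have hj27 : j.val = 27 := by
          have := j.isLt
          omega
        rw [hj27, zcol_last, dN_last]
        exact hM qsF
    have hwi : zN k &&& 7 < 8 := Nat.and_lt_two_pow _ (by norm_num : 7 < 2 ^ 3)
    have hw := wL_spec ⟨zN k &&& 7, hwi⟩
    have e1 : om ⟨wN (zN k &&& 7), hw⟩ =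
        bmat (fun l => vecN (dN l)) *ᵥ bvec (cW (zN k &&& 7)) := by
      have e0 : bvec (cW (zN k &&& 7)) = bmat binvN *ᵥ bvec (vecN (wN (zN k &&& 7))) :=
        (bmat_mulVec _ _).symm
      rw [e0, Matrix.mulVec_mulVec, B_mul_Bi, Matrix.one_mulVec]
      rfl
    have e2 : om (d ⟨wN (zN k &&& 7), hw⟩) =
        bvec (xfold (zcol (d qsF).val) (cW (zN k &&& 7)) 28) := by
      rw [← hM, e1, Matrix.mulVec_mulVec, hMB, bmat_mulVec]
    have e3 : vecN (d ⟨wN (zN k &&& 7), hw⟩).val =
        xfold (zcol (d qsF).val) (cW (zN k &&& 7)) 28 :=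
      bvec_inj (vecN_lt _) (lt_trans hhi (vecN_lt _)) e2
    obtain ⟨ha, ea⟩ := sinv_spec (d ⟨wN (zN k &&& 7), hw⟩).val (d ⟨wN (zN k &&& 7), hw⟩).isLt
    rw [← ea] at e3
    rcases Nat.lt_or_ge (zN k >>> 3) (sinvN (d ⟨wN (zN k &&& 7), hw⟩).val) with h | h
    · have := sort_mono (zN k >>> 3 + 1) _ h ha
      omega
    · have := sort_mono _ (zN k >>> 3) h (by omega)
      omega

theorem Gam_inj1 (x : Equiv.Perm (Fin 4060) × Equiv.Perm (Fin 1755)) (hx : x ∈ Gam)
    (h : x.1 = 1) : x.2 = 1 := by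
  have hr := (Gam_le hx).2
  apply Equiv.ext
  intro i
  have := hr i
  rw [h] at this
  exact (emb_injective this).symm

theorem Gam_inj2 (x : Equiv.Perm (Fin 4060) × Equiv.Perm (Fin 1755)) (hx : x ∈ Gam)
    (h : x.2 = 1) : x.1 = 1 := by
  obtain ⟨h0, hr⟩ := Gam_le hx
  have hD : x.1 ∈ D := by
    rw [← Gam_fst]
    exact ⟨x, hx, rfl⟩
  refine z_lemma x.1 (D_lin hD) (fun y hy => ?_)
  by_cases hy0 : y.val = 0
  · have : y = 0 := Fin.ext hy0
    rw [this, h0]
  · have : y = emb ⟨y.val - 1, by omega⟩ := by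
      apply Fin.ext
      show y.val = y.val - 1 + 1
      omega
    rw [this, hr, h]
    rfl

/-! ### The structure of the point stabilizer -/

theorem D_equiv : Nonempty (↥D ≃* ↥Tits.P) := by
  have h := graph_equiv Gam Gam_inj1 Gam_inj2
  rw [Gam_fst, Gam_snd] at h
  exact h

theorem Tr_equiv : Nonempty (↥Tr ≃* ↥Tits.K) := by
  have h := graph_equiv GamK (fun x hx => Gam_inj1 x (GamK_le hx))
    (fun x hx => Gam_inj2 x (GamK_le hx))
  rw [GamK_fst, GamK_snd] at h
  exact h

theorem card_D : Nat.card ↥D = 35942400 := by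
  obtain ⟨e⟩ := D_equiv
  rw [Nat.card_congr e.toEquiv, Tits.card_P]

theorem card_Tr : Nat.card ↥Tr = 17971200 := by
  obtain ⟨e⟩ := Tr_equiv
  rw [Nat.card_congr e.toEquiv, Tits.card_K]

theorem Tr_simple : IsSimpleGroup ↥Tr := by
  obtain ⟨e⟩ := Tr_equiv
  exact e.isSimpleGroup_congr.mpr Tits.K_simple

theorem gen4_not_mem : gen 4 ∉ Tr := by
  intro h
  rw [← GamK_fst] at h
  obtain ⟨x, hx, hx4⟩ := h
  have hx4' : x.1 = gen 4 := hx4
  have hy : x⁻¹ * gpair 4 ∈ Gam :=
    Gam.mul_mem (Gam.inv_mem (GamK_le hx)) (Subgroup.subset_closure (by simp))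
  have hy1 : (x⁻¹ * gpair 4).1 = 1 := by
    show x.1⁻¹ * gen 4 = 1
    rw [hx4', inv_mul_cancel]
  have hy2 := Gam_inj1 _ hy hy1
  have hx2 : x.2 = Tits.gen 4 := by
    have : x.2⁻¹ * Tits.gen 4 = 1 := hy2
    exact (inv_mul_eq_one.mp this)
  have hK : x.2 ∈ Tits.K := by
    rw [← GamK_snd]
    exact ⟨x, hx, rfl⟩
  rw [hx2] at hK
  exact Tits.gen4_not_mem hK

/-- The Tits subgroup is transitive on the 1755 points. -/
theorem Tr_trans (i j : Fin 1755) : ∃ d ∈ Tr, d (emb i) = emb j := by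
  obtain ⟨k, hk⟩ := MulAction.exists_smul_eq ↥Tits.K i j
  have hk' : (k : Equiv.Perm (Fin 1755)) i = j := hk
  have hK : (k : Equiv.Perm (Fin 1755)) ∈ GamK.map (MonoidHom.snd _ _) := by
    rw [GamK_snd]
    exact k.2
  obtain ⟨x, hx, hx2⟩ := hK
  have hx2' : x.2 = (k : Equiv.Perm (Fin 1755)) := hx2
  refine ⟨x.1, ?_, ?_⟩
  · rw [← GamK_fst]
    exact ⟨x, hx, rfl⟩
  · rw [(Gam_le (GamK_le hx)).2, hx2', hk']

end Cfsg.Agent.H6.Ru
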