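import Mathlib
import Cfsg.Prelude.Def_Sporadic
import Cfsg.Prelude.Def_Exceptional
import Cfsg.Agent.H6.RuStab
import Cfsg.Agent.H33.Prim
import Cfsg.Agent.H27.RuSimple

/-! The Rudvalis group as a permutation group on 4060 points: it is transitive, primitive and
simple of order 145926144000, with point stabilizer of order 35942400 containing a simple subgroup
of order 17971200 (helper6). -/

set_option autoImplicit false

namespace Cfsg.Agent.H6.Ru

open Cfsg.Agent.H6.Ree3 (forceN allN allN_spec allN_intro forceN_eq)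
open Cfsg.Agent.H6.Tits (eqL eqL_eq wchk)

/-! ### Transitivity and the order -/

instance H_pretransitive : MulAction.IsPretransitive ↥H (Fin 4060) where
  exists_smul_eq x y := by
    refine ⟨⟨U0 y.val * (U0 x.val)⁻¹,
      H.mul_mem (U0_mem _ y.isLt) (H.inv_mem (U0_mem _ x.isLt))⟩, ?_⟩
    show (U0 y.val * (U0 x.val)⁻¹) x = y
    have hx : (U0 x.val)⁻¹ x = 0 := by
      rw [Equiv.Perm.inv_eq_iff_eq, U0_apply _ x.isLt]
    rw [Equiv.Perm.mul_apply, hx, U0_apply _ y.isLt]

theorem stab_eq : MulAction.stabilizer ↥H (0 : Fin 4060) = D.subgroupOf H := by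
  ext h
  rw [MulAction.mem_stabilizer_iff, Subgroup.mem_subgroupOf]
  constructor
  · intro hfix
    obtain ⟨j, hj, d, hd, he⟩ := H_sub h.1 h.2
    have h0 : (h : Equiv.Perm (Fin 4060)) 0 = 0 := hfix
    rw [he, Equiv.Perm.mul_apply, D_fix d hd, U0_apply j hj] at h0
    have hj0 : j = 0 := congrArg Fin.val h0
    rw [he, hj0, U0_zero, one_mul]
    exact hd
  · intro hd
    exact D_fix _ hd

theorem card_stab : Nat.card (MulAction.stabilizer ↥H (0 : Fin 4060)) = 35942400 := by
  rw [stab_eq, Nat.card_congr (Subgroup.subgroupOfEquivOfLe D_le_H).toEquiv, card_D]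

theorem card_H : Nat.card ↥H = 145926144000 := by
  have h1 := Subgroup.index_mul_card (MulAction.stabilizer ↥H (0 : Fin 4060))
  rw [MulAction.index_stabilizer, MulAction.orbit_eq_univ, Set.ncard_univ, Nat.card_fin,
    card_stab] at h1
  rw [← h1]

/-! ### Primitivity -/

/-- The two orbits of the point stabilizer. -/
def colF (y : Fin 4060) : Fin 2 := if y.val ≤ 1755 then 0 else 1

/-- The lengths of the two orbits. -/
def nF (i : Fin 2) : ℕ := if i = 0 then 1755 else 2304

theorem colF_le {y : Fin 4060} (h : y.val ≤ 1755) : colF y = 0 := if_pos h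

theorem colF_gt {y : Fin 4060} (h : ¬ y.val ≤ 1755) : colF y = 1 := if_neg h

/-- The last 2304 points. -/
def embQ (k : Fin 2304) : Fin 4060 := ⟨1756 + k.val, by omega⟩

theorem embQ_injective : Function.Injective embQ := by
  intro i j h
  have := congrArg Fin.val h
  simp only [embQ] at this
  exact Fin.ext (by omega)

theorem hn0 : {y : Fin 4060 | y ∈ MulAction.orbit ↥H (0 : Fin 4060) ∧ y ≠ 0 ∧
    colF y = 0}.ncard = nF 0 := by
  have e : {y : Fin 4060 | y ∈ MulAction.orbit ↥H (0 : Fin 4060) ∧ y ≠ 0 ∧ colF y = 0} =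
      emb '' Set.univ := by
    ext y
    rw [MulAction.orbit_eq_univ]
    simp only [Set.mem_setOf_eq, Set.image_univ, Set.mem_range, Set.mem_univ, true_and]
    constructor
    · rintro ⟨h0, hc⟩
      have hy : y.val ≤ 1755 := by
        by_contra hgt
        rw [colF_gt hgt] at hc
        exact absurd hc (by decide)
      have hy0 : y.val ≠ 0 := fun h => h0 (Fin.ext h)
      exact ⟨⟨y.val - 1, by omega⟩, Fin.ext (by show y.val - 1 + 1 = y.val; omega)⟩
    · rintro ⟨i, rfl⟩
      refine ⟨?_, ?_⟩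
      · intro h
        have := congrArg Fin.val h
        simp [emb] at this
      · exact colF_le (by show i.val + 1 ≤ 1755; omega)
  rw [e, Set.ncard_image_of_injective _ emb_injective, Set.ncard_univ, Nat.card_fin]
  rfl

theorem hn1 : {y : Fin 4060 | y ∈ MulAction.orbit ↥H (0 : Fin 4060) ∧ y ≠ 0 ∧
    colF y = 1}.ncard = nF 1 := by
  have e : {y : Fin 4060 | y ∈ MulAction.orbit ↥H (0 : Fin 4060) ∧ y ≠ 0 ∧ colF y = 1} =
      embQ '' Set.univ := by
    ext y
    rw [MulAction.orbit_eq_univ]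
    simp only [Set.mem_setOf_eq, Set.image_univ, Set.mem_range, Set.mem_univ, true_and]
    constructor
    · rintro ⟨_, hc⟩
      have hy : ¬ y.val ≤ 1755 := by
        intro hle
        rw [colF_le hle] at hc
        exact absurd hc (by decide)
      have := y.isLt
      exact ⟨⟨y.val - 1756, by omega⟩, Fin.ext (by show 1756 + (y.val - 1756) = y.val; omega)⟩
    · rintro ⟨i, rfl⟩
      refine ⟨?_, ?_⟩
      · intro h
        have := congrArg Fin.val h
        simp [embQ] at this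
      · exact colF_gt (by show ¬ 1756 + i.val ≤ 1755; omega)
  rw [e, Set.ncard_image_of_injective _ embQ_injective, Set.ncard_univ, Nat.card_fin]
  rfl

theorem nF_num : ∀ I : Finset (Fin 2), I.Nonempty → (1 + ∑ i ∈ I, nF i) ∣ (1 + ∑ i, nF i) →
    I = Finset.univ := by
  decide +kernel

theorem q_spec (k : ℕ) (hk : k < 2304) :
    wchk 9 38 4 4 (qN k) = true ∧ wev 4 (qN k) q0 = 1756 + k := by
  have h := allN_spec chkQ_true k hk
  rw [forceN_eq, Bool.and_eq_true] at h
  exact ⟨h.1, Nat.eq_of_beq_eq_true h.2⟩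

theorem htrans_spec (y z : Fin 4060) (hy : y ≠ 0) (hz : z ≠ 0) (hc : colF y = colF z) :
    ∃ d ∈ D, d y = z := by
  by_cases hy5 : y.val ≤ 1755
  · have hz5 : z.val ≤ 1755 := by
      by_contra hgt
      rw [colF_le hy5, colF_gt hgt] at hc
      exact absurd hc (by decide)
    have hy0 : y.val ≠ 0 := fun h => hy (Fin.ext h)
    have hz0 : z.val ≠ 0 := fun h => hz (Fin.ext h)
    obtain ⟨d, hd, hdd⟩ := Tr_trans ⟨y.val - 1, by omega⟩ ⟨z.val - 1, by omega⟩
    refine ⟨d, Tr_le_D hd, ?_⟩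
    have ey : emb ⟨y.val - 1, by omega⟩ = y := Fin.ext (by show y.val - 1 + 1 = y.val; omega)
    have ez : emb ⟨z.val - 1, by omega⟩ = z := Fin.ext (by show z.val - 1 + 1 = z.val; omega)
    rw [ey, ez] at hdd
    exact hdd
  · have hz5 : ¬ z.val ≤ 1755 := by
      intro hle
      rw [colF_gt hy5, colF_le hle] at hc
      exact absurd hc (by decide)
    have hyl := y.isLt
    have hzl := z.isLt
    obtain ⟨hA, hB⟩ := q_spec (y.val - 1756) (by omega)
    obtain ⟨hA', hB'⟩ := q_spec (z.val - 1756) (by omega)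
    refine ⟨wperm 4 (qN (z.val - 1756)) * (wperm 4 (qN (y.val - 1756)))⁻¹,
      D.mul_mem (wperm_mem_D _ _ hA') (D.inv_mem (wperm_mem_D _ _ hA)), ?_⟩
    have e1 : wperm 4 (qN (y.val - 1756)) ⟨q0, q0_lt.1⟩ = y := by
      apply Fin.ext
      rw [wperm_val]
      show wev 4 (qN (y.val - 1756)) q0 = y.val
      rw [hB]
      omega
    have e2 : wperm 4 (qN (z.val - 1756)) ⟨q0, q0_lt.1⟩ = z := by
      apply Fin.ext
      rw [wperm_val]
      show wev 4 (qN (z.val - 1756)) q0 = z.val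
      rw [hB']
      omega
    have e3 : (wperm 4 (qN (y.val - 1756)))⁻¹ y = ⟨q0, q0_lt.1⟩ := by
      rw [Equiv.Perm.inv_eq_iff_eq, e1]
    rw [Equiv.Perm.mul_apply, e3, e2]

theorem H_coatom : IsCoatom (MulAction.stabilizer ↥H (0 : Fin 4060)) := by
  refine Cfsg.Agent.H33.isCoatom_stabilizer_of_suborbits (G := ↥H) (0 : Fin 4060) colF nF
    ?_ ?_ nF_num ?_
  · intro i
    fin_cases i
    · exact hn0
    · exact hn1
  · intro y z _ _ hy hz hc
    obtain ⟨d, hd, hdy⟩ := htrans_spec y z hy hz hc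
    exact ⟨⟨d, D_le_H hd⟩, D_fix d hd, hdy⟩
  · refine ⟨⟨U0 1, U0_mem 1 (by norm_num)⟩, ?_⟩
    show U0 1 0 ≠ 0
    rw [U0_apply 1 (by norm_num)]
    intro h
    exact absurd (congrArg Fin.val h) (by decide)

instance H_preprimitive : MulAction.IsPreprimitive ↥H (Fin 4060) :=
  (MulAction.isCoatom_stabilizer_iff_preprimitive ↥H (0 : Fin 4060)).mp H_coatom

/-! ### Simplicity -/

theorem out_spec : wchk 9 38 0 2 tW = true ∧ wchk 9 38 0 12 kW = true ∧
    gen 44 * wperm 2 tW = gen 4 * wperm 12 kW * gen 44 := by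
  have h := chkOut_true
  unfold chkOut at h
  rw [Bool.and_eq_true, Bool.and_eq_true] at h
  obtain ⟨⟨hA, hB⟩, hE⟩ := h
  refine ⟨hA, hB, ?_⟩
  have h4 := eqL_eq _ _ hE
  simp only [mapT_eq, wevL_eq, List.map_map] at h4
  refine rel_of_list (lin_mul (lin_gen _) (lin_wperm _ _))
    (lin_mul (lin_mul (lin_gen _) (lin_wperm _ _)) (lin_gen _)) _ _ (fun x => ?_) (fun x => ?_) h4
  · rw [Equiv.Perm.mul_apply, gen_val 44 (by norm_num), wperm_val]; rfl
  · rw [Equiv.Perm.mul_apply, Equiv.Perm.mul_apply, gen_val 4 (by norm_num), wperm_val,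
      gen_val 44 (by norm_num)]; rfl

theorem Tr_sub_stab : Tr.subgroupOf H ≤ MulAction.stabilizer ↥H (0 : Fin 4060) := by
  rw [stab_eq]
  intro h hh
  exact Tr_le_D hh

theorem H_simple : IsSimpleGroup ↥H := by
  have e := Subgroup.subgroupOfEquivOfLe (Tr_le_D.trans D_le_H)
  have hTs : IsSimpleGroup ↥(Tr.subgroupOf H) := e.isSimpleGroup_congr.mpr Tr_simple
  have hTc : Nat.card (MulAction.stabilizer ↥H (0 : Fin 4060)) =
      2 * Nat.card ↥(Tr.subgroupOf H) := by
    rw [card_stab, Nat.card_congr e.toEquiv, card_Tr]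
  obtain ⟨hA, hB, hrel⟩ := out_spec
  have ht : wperm 2 tW ∈ Tr := wperm_mem_Tr _ _ hA
  have hk : wperm 12 kW ∈ Tr := wperm_mem_Tr _ _ hB
  have hconj : gen 44 * wperm 2 tW * (gen 44)⁻¹ = gen 4 * wperm 12 kW :=
    mul_inv_eq_of_eq_mul hrel
  refine Cfsg.Agent.H27.Ru.simple_of_primitive_index_two (G := ↥H) (X := Fin 4060) ?_
    H_preprimitive (Fintype.card_fin 4060) (0 : Fin 4060) (Tr.subgroupOf H) Tr_sub_stab hTs hTc
    ⟨gen 44, gen44_mem_H⟩ ⟨wperm 2 tW, (Tr_le_D.trans D_le_H) ht⟩ ?_ ?_ ?_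
  · intro g hg
    apply Subtype.ext
    apply Equiv.ext
    intro y
    exact hg y
  · exact ht
  · rw [stab_eq]
    show gen 44 * wperm 2 tW * (gen 44)⁻¹ ∈ D
    rw [hconj]
    exact D.mul_mem gen4_mem_D (Tr_le_D hk)
  · intro hmem
    have hmem' : gen 44 * wperm 2 tW * (gen 44)⁻¹ ∈ Tr := hmem
    rw [hconj] at hmem'
    have h4 := Tr.mul_mem hmem' (Tr.inv_mem hk)
    rw [mul_inv_cancel_right] at h4
    exact gen4_not_mem h4

/-! ### The main theorem -/

/-- The Rudvalis group exists as a transitive permutation group of degree 4060. -/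
theorem ru_main : ∃ H : Subgroup (Equiv.Perm (Fin 4060)), Cfsg.IsRu H ∧
    MulAction.IsPretransitive H (Fin 4060) ∧
    Nat.card (MulAction.stabilizer H (0 : Fin 4060)) = 35942400 ∧
    ∃ T : Subgroup (MulAction.stabilizer H (0 : Fin 4060)), Cfsg.IsTits T := by
  have e1 := Subgroup.subgroupOfEquivOfLe Tr_sub_stab
  have e2 := Subgroup.subgroupOfEquivOfLe (Tr_le_D.trans D_le_H)
  refine ⟨H, ⟨H_simple, card_H⟩, H_pretransitive, card_stab,
    (Tr.subgroupOf H).subgroupOf (MulAction.stabilizer ↥H (0 : Fin 4060)), ?_, ?_⟩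
  · exact (e1.trans e2).isSimpleGroup_congr.mpr Tr_simple
  · rw [Nat.card_congr (e1.trans e2).toEquiv, card_Tr]

end Cfsg.Agent.H6.Ru
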