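import Mathlib
import Cfsg.Agent.H6.Sp42Check

/-! `Sp₄(2) ≅ S₆` via an explicit table-checked homomorphism (helper6). -/

set_option autoImplicit false

namespace Cfsg.Agent.H6

open Matrix in
/-- symplectic groups of isomorphic rings are isomorphic -/
def spMapEquiv {l : Type*} [DecidableEq l] [Fintype l] {R S : Type*} [CommRing R] [CommRing S]
    (e : R ≃+* S) : Matrix.symplecticGroup l R ≃* Matrix.symplecticGroup l S where
  toFun A := ⟨A.1.map e, SymplecticGroup.map_mem A.2 e⟩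
  invFun A := ⟨A.1.map e.symm, SymplecticGroup.map_mem A.2 e.symm⟩
  left_inv A := by
    apply Subtype.ext
    ext i j
    simp
  right_inv A := by
    apply Subtype.ext
    ext i j
    simp
  map_mul' A B := by
    apply Subtype.ext
    simp [Matrix.map_mul]

namespace Sp42

open Matrix

lemma eq_mk16 (M : M4) :
    M = mk16 (M (Sum.inl 0) (Sum.inl 0)) (M (Sum.inl 0) (Sum.inl 1)) (M (Sum.inl 0) (Sum.inr 0))
      (M (Sum.inl 0) (Sum.inr 1)) (M (Sum.inl 1) (Sum.inl 0)) (M (Sum.inl 1) (Sum.inl 1))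
      (M (Sum.inl 1) (Sum.inr 0)) (M (Sum.inl 1) (Sum.inr 1)) (M (Sum.inr 0) (Sum.inl 0))
      (M (Sum.inr 0) (Sum.inl 1)) (M (Sum.inr 0) (Sum.inr 0)) (M (Sum.inr 0) (Sum.inr 1))
      (M (Sum.inr 1) (Sum.inl 0)) (M (Sum.inr 1) (Sum.inl 1)) (M (Sum.inr 1) (Sum.inr 0))
      (M (Sum.inr 1) (Sum.inr 1)) := by
  ext (i | i) (j | j) <;> fin_cases i <;> fin_cases j <;> rfl

/-- the six bilinear conditions satisfied by the rows of a symplectic matrix -/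
lemma conds (M : M4) (h : M ∈ symplecticGroup (Fin 2) (ZMod 2)) :
    om (M (Sum.inl 0) (Sum.inl 0)) (M (Sum.inl 0) (Sum.inl 1)) (M (Sum.inl 0) (Sum.inr 0))
      (M (Sum.inl 0) (Sum.inr 1)) (M (Sum.inl 1) (Sum.inl 0)) (M (Sum.inl 1) (Sum.inl 1))
      (M (Sum.inl 1) (Sum.inr 0)) (M (Sum.inl 1) (Sum.inr 1)) = 0 ∧
    om (M (Sum.inl 0) (Sum.inl 0)) (M (Sum.inl 0) (Sum.inl 1)) (M (Sum.inl 0) (Sum.inr 0))
      (M (Sum.inl 0) (Sum.inr 1)) (M (Sum.inr 0) (Sum.inl 0))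
      (M (Sum.inr 0) (Sum.inl 1)) (M (Sum.inr 0) (Sum.inr 0)) (M (Sum.inr 0) (Sum.inr 1)) = -1 ∧
    om (M (Sum.inl 1) (Sum.inl 0)) (M (Sum.inl 1) (Sum.inl 1))
      (M (Sum.inl 1) (Sum.inr 0)) (M (Sum.inl 1) (Sum.inr 1)) (M (Sum.inr 0) (Sum.inl 0))
      (M (Sum.inr 0) (Sum.inl 1)) (M (Sum.inr 0) (Sum.inr 0)) (M (Sum.inr 0) (Sum.inr 1)) = 0 ∧
    om (M (Sum.inl 0) (Sum.inl 0)) (M (Sum.inl 0) (Sum.inl 1)) (M (Sum.inl 0) (Sum.inr 0))
      (M (Sum.inl 0) (Sum.inr 1)) (M (Sum.inr 1) (Sum.inl 0)) (M (Sum.inr 1) (Sum.inl 1))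
      (M (Sum.inr 1) (Sum.inr 0)) (M (Sum.inr 1) (Sum.inr 1)) = 0 ∧
    om (M (Sum.inl 1) (Sum.inl 0)) (M (Sum.inl 1) (Sum.inl 1))
      (M (Sum.inl 1) (Sum.inr 0)) (M (Sum.inl 1) (Sum.inr 1)) (M (Sum.inr 1) (Sum.inl 0))
      (M (Sum.inr 1) (Sum.inl 1)) (M (Sum.inr 1) (Sum.inr 0)) (M (Sum.inr 1) (Sum.inr 1)) = -1 ∧
    om (M (Sum.inr 0) (Sum.inl 0))
      (M (Sum.inr 0) (Sum.inl 1)) (M (Sum.inr 0) (Sum.inr 0)) (M (Sum.inr 0) (Sum.inr 1))
      (M (Sum.inr 1) (Sum.inl 0)) (M (Sum.inr 1) (Sum.inl 1))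
      (M (Sum.inr 1) (Sum.inr 0)) (M (Sum.inr 1) (Sum.inr 1)) = 0 := by
  rw [SymplecticGroup.mem_iff] at h
  have e := fun i j => congrFun (congrFun h i) j
  refine ⟨?_, ?_, ?_, ?_, ?_, ?_⟩
  · simpa [om, Matrix.mul_apply, Matrix.J, Fintype.sum_sum_type, Matrix.fromBlocks,
      Matrix.one_apply] using e (Sum.inl 0) (Sum.inl 1)
  · simpa [om, Matrix.mul_apply, Matrix.J, Fintype.sum_sum_type, Matrix.fromBlocks,
      Matrix.one_apply] using e (Sum.inl 0) (Sum.inr 0)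
  · simpa [om, Matrix.mul_apply, Matrix.J, Fintype.sum_sum_type, Matrix.fromBlocks,
      Matrix.one_apply] using e (Sum.inl 1) (Sum.inr 0)
  · simpa [om, Matrix.mul_apply, Matrix.J, Fintype.sum_sum_type, Matrix.fromBlocks,
      Matrix.one_apply] using e (Sum.inl 0) (Sum.inr 1)
  · simpa [om, Matrix.mul_apply, Matrix.J, Fintype.sum_sum_type, Matrix.fromBlocks,
      Matrix.one_apply] using e (Sum.inl 1) (Sum.inr 1)
  · simpa [om, Matrix.mul_apply, Matrix.J, Fintype.sum_sum_type, Matrix.fromBlocks,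
      Matrix.one_apply] using e (Sum.inr 0) (Sum.inr 1)

lemma Tgen_mem (t : Fin 5) : Tgen t ∈ symplecticGroup (Fin 2) (ZMod 2) := by
  rw [SymplecticGroup.mem_iff]
  exact hTsymp t

lemma hT' (t : Fin 5) (X : M4) (hX : X ∈ symplecticGroup (Fin 2) (ZMod 2)) :
    f₀ (Tgen t * X) = Equiv.swap t.castSucc t.succ * f₀ X := by
  obtain ⟨c1, c2, c3, c4, c5, c6⟩ := conds X hX
  have := hT t _ _ _ _ _ _ _ _ c1 _ _ _ _ c2 c3 _ _ _ _ c4 c5 c6
  rwa [← eq_mk16 X] at this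

lemma hdesc' (X : M4) (hX : X ∈ symplecticGroup (Fin 2) (ZMod 2)) :
    idx X = 0 ∨ ∃ t : Fin 5, idx (Tgen t * X) < idx X := by
  obtain ⟨c1, c2, c3, c4, c5, c6⟩ := conds X hX
  have := hdesc _ _ _ _ _ _ _ _ c1 _ _ _ _ c2 c3 _ _ _ _ c4 c5 c6
  rwa [← eq_mk16 X] at this

lemma hzero' (X : M4) (hX : X ∈ symplecticGroup (Fin 2) (ZMod 2)) (h0 : idx X = 0) : X = 1 := by
  obtain ⟨c1, c2, c3, c4, c5, c6⟩ := conds X hX
  have := hzero _ _ _ _ _ _ _ _ c1 _ _ _ _ c2 c3 _ _ _ _ c4 c5 c6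
  rw [← eq_mk16 X] at this
  exact this h0

lemma hker' (X : M4) (hX : X ∈ symplecticGroup (Fin 2) (ZMod 2)) (h0 : f₀ X = 1) : X = 1 := by
  obtain ⟨c1, c2, c3, c4, c5, c6⟩ := conds X hX
  have := hker _ _ _ _ _ _ _ _ c1 _ _ _ _ c2 c3 _ _ _ _ c4 c5 c6
  rw [← eq_mk16 X] at this
  exact this h0

/-- multiplicativity of the table map on `Sp₄(2)` -/
theorem f₀_mul (X : M4) (hX : X ∈ symplecticGroup (Fin 2) (ZMod 2))
    (Y : M4) (hY : Y ∈ symplecticGroup (Fin 2) (ZMod 2)) :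
    f₀ (X * Y) = f₀ X * f₀ Y := by
  induction h : idx X using Nat.strong_induction_on generalizing X with
  | _ n ih =>
    rcases hdesc' X hX with h0 | ⟨t, hlt⟩
    · rw [hzero' X hX h0, Matrix.one_mul, hone, one_mul]
    · have hmem1 : Tgen t * X ∈ symplecticGroup (Fin 2) (ZMod 2) := mul_mem (Tgen_mem t) hX
      have hX' : X = Tgen t * (Tgen t * X) := by
        rw [← Matrix.mul_assoc, hTT, Matrix.one_mul]
      have ih' := ih (idx (Tgen t * X)) (h ▸ hlt) (Tgen t * X) hmem1 rfl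
      have hmem2 : Tgen t * X * Y ∈ symplecticGroup (Fin 2) (ZMod 2) := mul_mem hmem1 hY
      calc f₀ (X * Y) = f₀ (Tgen t * (Tgen t * X * Y)) := by
            rw [← Matrix.mul_assoc, ← hX']
        _ = Equiv.swap t.castSucc t.succ * f₀ (Tgen t * X * Y) := hT' t _ hmem2
        _ = Equiv.swap t.castSucc t.succ * (f₀ (Tgen t * X) * f₀ Y) := by rw [ih']
        _ = (Equiv.swap t.castSucc t.succ * f₀ (Tgen t * X)) * f₀ Y := by rw [mul_assoc]
        _ = f₀ (Tgen t * (Tgen t * X)) * f₀ Y := by rw [hT' t _ hmem1]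
        _ = f₀ X * f₀ Y := by rw [← hX']

/-- the isomorphism `Sp₄(2) → S₆` as a homomorphism -/
def hom : symplecticGroup (Fin 2) (ZMod 2) →* Equiv.Perm (Fin 6) where
  toFun g := f₀ g.1
  map_one' := hone
  map_mul' g h := f₀_mul g.1 g.2 h.1 h.2

lemma hom_injective : Function.Injective hom := by
  rw [← MonoidHom.ker_eq_bot_iff, eq_bot_iff]
  intro g hg
  rw [MonoidHom.mem_ker] at hg
  rw [Subgroup.mem_bot]
  apply Subtype.ext
  exact hker' g.1 g.2 hg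

lemma hom_surjective : Function.Surjective hom := by
  intro σ
  have h1 : σ ∈ Submonoid.closure
      (Set.range fun i : Fin 5 => Equiv.swap i.castSucc i.succ) := by
    rw [Equiv.Perm.mclosure_swap_castSucc_succ]
    exact Submonoid.mem_top σ
  have h2 : Submonoid.closure (Set.range fun i : Fin 5 => Equiv.swap i.castSucc i.succ) ≤
      hom.range.toSubmonoid := by
    rw [Submonoid.closure_le]
    rintro _ ⟨t, rfl⟩
    exact ⟨⟨Tgen t, Tgen_mem t⟩, hTval t⟩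
  exact h2 h1

/-- `Sp₄(2) ≅ S₆` -/
theorem sp42_equiv_perm {F : Type*} [Field F] [Fintype F] (hF : Fintype.card F = 2) :
    Nonempty (symplecticGroup (Fin 2) F ≃* Equiv.Perm (Fin 6)) := by
  have : Fact (Nat.Prime 2) := ⟨by norm_num⟩
  let e : ZMod 2 ≃+* F := ZMod.ringEquivOfPrime F (by norm_num) hF
  exact ⟨(spMapEquiv e).symm.trans (MulEquiv.ofBijective hom ⟨hom_injective, hom_surjective⟩)⟩

end Sp42

end Cfsg.Agent.H6
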