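import Mathlib
import Cfsg.Prelude.Def_Classical
import Cfsg.Agent.H6.U42Check
import Cfsg.Agent.H6.SLTransfer
import Cfsg.Agent.H6.Sp42
import Cfsg.Agent.H6.SpCenter

/-! `PSp₄(3) ≅ PSU₄(2)` via an explicit table-checked homomorphism `Sp₄(3) → SU₄(2)`
(helper6). -/

set_option autoImplicit false

namespace Cfsg.Agent.H6.U42

open Matrix

instance gf4Fact : Fact (∀ r : ZMod 2, r ^ 2 ≠ 1 + 1 * r) := ⟨by decide⟩

/-- the field with 4 elements, `F₂[ω]` with `ω² = ω + 1` -/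
abbrev GF4 : Type := QuadraticAlgebra (ZMod 2) 1 1

instance gf4Fintype : Fintype GF4 :=
  Fintype.ofEquiv (ZMod 2 × ZMod 2) (QuadraticAlgebra.equivProd 1 1).symm

lemma card_gf4 : Fintype.card GF4 = 4 := by
  rw [Fintype.card_congr (QuadraticAlgebra.equivProd 1 1)]
  simp

/-- 4×4 matrices over `GF4` -/
abbrev N4 : Type := Matrix (Fin 4) (Fin 4) GF4

/-- decode an element of `GF4` -/
def gf4 (n : ℕ) : GF4 := ⟨((n % 2 : ℕ) : ZMod 2), ((n / 2 % 2 : ℕ) : ZMod 2)⟩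

/-- decode a row code -/
def rowdec (y : ℕ) (j : Fin 4) : GF4 := gf4 (Nat.land (Nat.shiftRight y (2 * j.val)) 3)

/-- decode the image matrix of a table value -/
def dec (v : ℕ) : N4 := Matrix.of fun i j => rowdec (rs v i.val) j

lemma gf4_xor_fin : ∀ a b : Fin 4, gf4 (a.val ^^^ b.val) = gf4 a.val + gf4 b.val := by decide

lemma gf4_xor (a b : ℕ) (ha : a < 4) (hb : b < 4) : gf4 (a ^^^ b) = gf4 a + gf4 b :=
  gf4_xor_fin ⟨a, ha⟩ ⟨b, hb⟩

lemma land3_lt (x : ℕ) : Nat.land x 3 < 4 := Nat.lt_succ_of_le Nat.and_le_right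

lemma rowdec_xor (x y : ℕ) (j : Fin 4) :
    rowdec (Nat.xor x y) j = rowdec x j + rowdec y j := by
  unfold rowdec
  have h : Nat.land (Nat.shiftRight (Nat.xor x y) (2 * j.val)) 3 =
      Nat.land (Nat.shiftRight x (2 * j.val)) 3 ^^^ Nat.land (Nat.shiftRight y (2 * j.val)) 3 := by
    show ((x ^^^ y) >>> (2 * j.val)) &&& 3 =
      (x >>> (2 * j.val) &&& 3) ^^^ (y >>> (2 * j.val) &&& 3)
    rw [Nat.shiftRight_xor_distrib, Nat.and_xor_distrib_right]
  rw [h]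
  exact gf4_xor _ _ (land3_lt _) (land3_lt _)

set_option maxRecDepth 100000 in
lemma rowdec_sm4_fin : ∀ c : Fin 4, ∀ y : Fin 256, ∀ j : Fin 4,
    rowdec (sm4 c.val y.val) j = gf4 c.val * rowdec y.val j := by decide +kernel

lemma rowdec_sm4 (c y : ℕ) (hc : c < 4) (hy : y < 256) (j : Fin 4) :
    rowdec (sm4 c y) j = gf4 c * rowdec y j := rowdec_sm4_fin ⟨c, hc⟩ ⟨y, hy⟩ j

lemma rs_lt (v i : ℕ) : rs v i < 256 := Nat.lt_succ_of_le Nat.and_le_right

/-- the row checks give a matrix product -/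
lemma dec_mul (c : Fin 4 → Fin 4 → ℕ) (hc : ∀ i k, c i k < 4) (w v : ℕ)
    (h : ∀ i : Fin 4, chkR (c i 0) (c i 1) (c i 2) (c i 3) w v i.val = true) :
    dec w = (Matrix.of fun i k => gf4 (c i k)) * dec v := by
  refine Matrix.ext fun i j => ?_
  have hi := Nat.eq_of_beq_eq_true (h i)
  simp only [Matrix.mul_apply, Fin.sum_univ_four, dec, Matrix.of_apply]
  rw [hi]
  unfold row4
  rw [rowdec_xor, rowdec_xor, rowdec_xor, rowdec_sm4 _ _ (hc i 0) (rs_lt _ _),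
    rowdec_sm4 _ _ (hc i 1) (rs_lt _ _), rowdec_sm4 _ _ (hc i 2) (rs_lt _ _),
    rowdec_sm4 _ _ (hc i 3) (rs_lt _ _)]
  rfl

/-- 4×4 matrices over `ZMod 3`, indexed as in `Matrix.symplecticGroup (Fin 2)` -/
abbrev M4 : Type := Matrix (Fin 2 ⊕ Fin 2) (Fin 2 ⊕ Fin 2) (ZMod 3)

/-- the matrix with rows `(a b c d)`, `(e f g h)`, `(i j k l)`, `(m n o p)` -/
def mk16 (a b c d e f g h i j k l m n o p : ZMod 3) : M4 :=
  Matrix.fromBlocks !![a, b; e, f] !![c, d; g, h] !![i, j; m, n] !![k, l; o, p]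

def c3 (x0 x1 x2 x3 : ZMod 3) : ℕ := x0.val * 27 + x1.val * 9 + x2.val * 3 + x3.val

/-- code of a row -/
def code3 (v : Fin 2 ⊕ Fin 2 → ZMod 3) : ℕ :=
  c3 (v (Sum.inl 0)) (v (Sum.inl 1)) (v (Sum.inr 0)) (v (Sum.inr 1))

lemma c3_lt : ∀ a b c d : ZMod 3, c3 a b c d < 81 := by decide

set_option maxRecDepth 100000 in
lemma c3_add : ∀ a b c d e f g h : ZMod 3,
    c3 (a + e) (b + f) (c + g) (d + h) = add3 (c3 a b c d) (c3 e f g h) := by decide +kernel

set_option maxRecDepth 100000 in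
lemma c3_smul : ∀ k a b c d : ZMod 3,
    c3 (k * a) (k * b) (k * c) (k * d) = sm3 k.val (c3 a b c d) := by decide +kernel

set_option maxRecDepth 100000 in
lemma c3_inj : ∀ a b c d e f g h : ZMod 3,
    c3 a b c d = c3 e f g h → a = e ∧ b = f ∧ c = g ∧ d = h := by decide +kernel

lemma code3_lt (v : Fin 2 ⊕ Fin 2 → ZMod 3) : code3 v < 81 := c3_lt _ _ _ _

lemma code3_add (u v : Fin 2 ⊕ Fin 2 → ZMod 3) :
    code3 (u + v) = add3 (code3 u) (code3 v) := c3_add _ _ _ _ _ _ _ _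

lemma code3_smul (k : ZMod 3) (v : Fin 2 ⊕ Fin 2 → ZMod 3) :
    code3 (k • v) = sm3 k.val (code3 v) := c3_smul k _ _ _ _

lemma code3_inj {u v : Fin 2 ⊕ Fin 2 → ZMod 3} (h : code3 u = code3 v) : u = v := by
  obtain ⟨h0, h1, h2, h3⟩ := c3_inj _ _ _ _ _ _ _ _ h
  funext i
  rcases i with i | i <;> fin_cases i <;> assumption

/-- row code -/
def rc (X : M4) (i : Fin 2 ⊕ Fin 2) : ℕ := code3 (X i)

lemma rc_lt (X : M4) (i : Fin 2 ⊕ Fin 2) : rc X i < 81 := code3_lt _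

lemma row_mul (S X : M4) (i : Fin 2 ⊕ Fin 2) :
    (S * X) i = S i (Sum.inl 0) • X (Sum.inl 0) + S i (Sum.inl 1) • X (Sum.inl 1) +
      S i (Sum.inr 0) • X (Sum.inr 0) + S i (Sum.inr 1) • X (Sum.inr 1) := by
  ext k
  simp only [Matrix.mul_apply, Fintype.sum_sum_type, Fin.sum_univ_two, Pi.add_apply,
    Pi.smul_apply, smul_eq_mul]
  ring

lemma rc_mul (S X : M4) (i : Fin 2 ⊕ Fin 2) :
    rc (S * X) i = rowS (S i (Sum.inl 0)).val (S i (Sum.inl 1)).val (S i (Sum.inr 0)).val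
      (S i (Sum.inr 1)).val (rc X (Sum.inl 0)) (rc X (Sum.inl 1)) (rc X (Sum.inr 0))
      (rc X (Sum.inr 1)) := by
  unfold rc rowS
  rw [row_mul, code3_add, code3_add, code3_add, code3_smul, code3_smul, code3_smul, code3_smul]

/-- table value of a matrix -/
def val (X : M4) : ℕ :=
  tv (rc X (Sum.inl 0)) (rc X (Sum.inl 1)) (rc X (Sum.inr 0)) (rc X (Sum.inr 1))

/-- the table-defined map -/
def τ (X : M4) : N4 := dec (val X)

/-- word length of a matrix -/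
def depth (X : M4) : ℕ := Nat.mod (val X) 64

/-- the symplectic form on rows -/
def om (u0 u1 u2 u3 v0 v1 v2 v3 : ZMod 3) : ZMod 3 := u2 * v0 + u3 * v1 - u0 * v2 - u1 * v3

set_option maxRecDepth 100000 in
lemma c3_om : ∀ a b c d e f g h : ZMod 3,
    om3 (c3 a b c d) (c3 e f g h) = (om a b c d e f g h).val := by decide +kernel

lemma om_rows (X : M4) (hX : X ∈ symplecticGroup (Fin 2) (ZMod 3)) (k l : Fin 2 ⊕ Fin 2) :
    om (X k (Sum.inl 0)) (X k (Sum.inl 1)) (X k (Sum.inr 0)) (X k (Sum.inr 1))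
      (X l (Sum.inl 0)) (X l (Sum.inl 1)) (X l (Sum.inr 0)) (X l (Sum.inr 1)) =
      J (Fin 2) (ZMod 3) k l := by
  rw [SymplecticGroup.mem_iff] at hX
  have e := congrFun (congrFun hX k) l
  rw [← e]
  simp only [om, Matrix.mul_apply, Matrix.J, Fintype.sum_sum_type, Fin.sum_univ_two,
    Matrix.transpose_apply, Matrix.fromBlocks_apply₁₁, Matrix.fromBlocks_apply₁₂,
    Matrix.fromBlocks_apply₂₁, Matrix.fromBlocks_apply₂₂, Matrix.zero_apply, Matrix.neg_apply,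
    Matrix.one_apply]
  simp
  ring

lemma om3_rows (X : M4) (hX : X ∈ symplecticGroup (Fin 2) (ZMod 3)) (k l : Fin 2 ⊕ Fin 2) :
    om3 (rc X k) (rc X l) = (J (Fin 2) (ZMod 3) k l).val := by
  unfold rc code3
  rw [c3_om, om_rows X hX k l]

lemma valid_of_mem (X : M4) (hX : X ∈ symplecticGroup (Fin 2) (ZMod 3)) :
    w2 (rc X (Sum.inl 0)) (rc X (Sum.inl 1)) = true ∧
    w3 (rc X (Sum.inl 0)) (rc X (Sum.inl 1)) (rc X (Sum.inr 0)) = true ∧
    w4 (rc X (Sum.inl 0)) (rc X (Sum.inl 1)) (rc X (Sum.inr 0)) (rc X (Sum.inr 1)) = true := by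
  simp only [w2, w3, w4, om3_rows X hX]
  decide

lemma chk_of_mem {P : ℕ → ℕ → ℕ → ℕ → Bool} (h : allS P = true) {X : M4}
    (hX : X ∈ symplecticGroup (Fin 2) (ZMod 3)) :
    P (rc X (Sum.inl 0)) (rc X (Sum.inl 1)) (rc X (Sum.inr 0)) (rc X (Sum.inr 1)) = true := by
  obtain ⟨h2, h3, h4⟩ := valid_of_mem X hX
  exact allS_spec h _ _ _ _ (rc_lt _ _) (rc_lt _ _) (rc_lt _ _) (rc_lt _ _) h2 h3 h4

def S1 : M4 := mk16 1 0 2 0 0 0 0 2 1 0 0 0 0 1 0 0
def S1' : M4 := mk16 0 0 1 0 0 0 0 1 2 0 1 0 0 2 0 0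
def S2 : M4 := mk16 0 1 0 0 1 1 0 0 0 0 2 1 0 0 1 0
def S2' : M4 := mk16 2 1 0 0 1 0 0 0 0 0 0 1 0 0 1 1

lemma S1'S1 : S1' * S1 = 1 := by decide
lemma S2'S2 : S2' * S2 = 1 := by decide
lemma S1S1' : S1 * S1' = 1 := by decide
lemma S2S2' : S2 * S2' = 1 := by decide

lemma S1_mem : S1 ∈ symplecticGroup (Fin 2) (ZMod 3) := by
  rw [SymplecticGroup.mem_iff]; decide
lemma S2_mem : S2 ∈ symplecticGroup (Fin 2) (ZMod 3) := by
  rw [SymplecticGroup.mem_iff]; decide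
lemma S1'_mem : S1' ∈ symplecticGroup (Fin 2) (ZMod 3) := by
  rw [SymplecticGroup.mem_iff]; decide
lemma S2'_mem : S2' ∈ symplecticGroup (Fin 2) (ZMod 3) := by
  rw [SymplecticGroup.mem_iff]; decide

lemma val_S1 (X : M4) : val (S1 * X) =
    s1v (rc X (Sum.inl 0)) (rc X (Sum.inl 1)) (rc X (Sum.inr 0)) (rc X (Sum.inr 1)) := by
  unfold val s1v
  rw [rc_mul, rc_mul, rc_mul, rc_mul]
  rfl

lemma val_S2 (X : M4) : val (S2 * X) =
    s2v (rc X (Sum.inl 0)) (rc X (Sum.inl 1)) (rc X (Sum.inr 0)) (rc X (Sum.inr 1)) := by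
  unfold val s2v
  rw [rc_mul, rc_mul, rc_mul, rc_mul]
  rfl

def C1 : Fin 4 → Fin 4 → ℕ := ![![1, 3, 3, 0], ![3, 2, 0, 1], ![3, 0, 2, 1], ![0, 3, 3, 2]]
def C2 : Fin 4 → Fin 4 → ℕ := ![![0, 0, 3, 0], ![0, 0, 0, 3], ![0, 1, 0, 0], ![3, 0, 0, 0]]
def D1 : Fin 4 → Fin 4 → ℕ := ![![1, 2, 2, 0], ![2, 3, 0, 2], ![2, 0, 3, 2], ![0, 1, 1, 3]]
def D2 : Fin 4 → Fin 4 → ℕ := ![![0, 0, 0, 2], ![0, 0, 1, 0], ![2, 0, 0, 0], ![0, 2, 0, 0]]

lemma C1_lt : ∀ i k, C1 i k < 4 := by decide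
lemma C2_lt : ∀ i k, C2 i k < 4 := by decide

def MS1 : N4 := Matrix.of fun i k => gf4 (C1 i k)
def MS2 : N4 := Matrix.of fun i k => gf4 (C2 i k)
def NS1 : N4 := Matrix.of fun i k => gf4 (D1 i k)
def NS2 : N4 := Matrix.of fun i k => gf4 (D2 i k)

lemma NS1MS1 : NS1 * MS1 = 1 := by decide
lemma NS2MS2 : NS2 * MS2 = 1 := by decide

/-- the checks on a symplectic matrix, unpacked -/
lemma chkV_of_mem {X : M4} (hX : X ∈ symplecticGroup (Fin 2) (ZMod 3)) :
    chkV (rc X (Sum.inl 0)) (rc X (Sum.inl 1)) (rc X (Sum.inr 0)) (rc X (Sum.inr 1)) (val X)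
      (val (S1 * X)) (val (S2 * X)) = true := by
  have h := chk_of_mem hAll hX
  unfold chkAll at h
  rw [forceB_eq, forceB_eq, forceB_eq] at h
  rw [val_S1, val_S2]
  exact h

lemma hS1 {X : M4} (hX : X ∈ symplecticGroup (Fin 2) (ZMod 3)) : τ (S1 * X) = MS1 * τ X := by
  have h := chkV_of_mem hX
  simp only [chkV, chkM1, Bool.and_eq_true] at h
  obtain ⟨⟨h0, h1, h2, h3⟩, -⟩ := h
  apply dec_mul C1 C1_lt
  intro i
  fin_cases i
  · exact h0
  · exact h1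
  · exact h2
  · exact h3

lemma hS2 {X : M4} (hX : X ∈ symplecticGroup (Fin 2) (ZMod 3)) : τ (S2 * X) = MS2 * τ X := by
  have h := chkV_of_mem hX
  simp only [chkV, chkM2, Bool.and_eq_true] at h
  obtain ⟨-, ⟨h0, h1, h2, h3⟩, -⟩ := h
  apply dec_mul C2 C2_lt
  intro i
  fin_cases i
  · exact h0
  · exact h1
  · exact h2
  · exact h3

lemma hdesc {X : M4} (hX : X ∈ symplecticGroup (Fin 2) (ZMod 3)) :
    depth X = 0 ∨ depth (S1 * X) < depth X ∨ depth (S2 * X) < depth X := by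
  have h := chkV_of_mem hX
  simp only [chkV, Bool.and_eq_true, Bool.or_eq_true, Nat.blt_eq] at h
  obtain ⟨-, -, h3, -⟩ := h
  rcases h3 with h3 | h3 | h3
  · exact Or.inl (Nat.eq_of_beq_eq_true h3)
  · exact Or.inr (Or.inl h3)
  · exact Or.inr (Or.inr h3)

lemma rc_one : rc (1 : M4) (Sum.inl 0) = 27 ∧ rc (1 : M4) (Sum.inl 1) = 9 ∧
    rc (1 : M4) (Sum.inr 0) = 3 ∧ rc (1 : M4) (Sum.inr 1) = 1 := by decide

lemma rc_neg_one : rc (-1 : M4) (Sum.inl 0) = 54 ∧ rc (-1 : M4) (Sum.inl 1) = 18 ∧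
    rc (-1 : M4) (Sum.inr 0) = 6 ∧ rc (-1 : M4) (Sum.inr 1) = 2 := by decide

lemma eq_of_rc {X Y : M4} (h0 : rc X (Sum.inl 0) = rc Y (Sum.inl 0))
    (h1 : rc X (Sum.inl 1) = rc Y (Sum.inl 1)) (h2 : rc X (Sum.inr 0) = rc Y (Sum.inr 0))
    (h3 : rc X (Sum.inr 1) = rc Y (Sum.inr 1)) : X = Y := by
  ext i j
  have key : X i = Y i := by
    rcases i with i | i <;> fin_cases i
    · exact code3_inj h0
    · exact code3_inj h1
    · exact code3_inj h2
    · exact code3_inj h3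
  exact congrFun key j

lemma eq_one_of_isId {X : M4}
    (h : isId (rc X (Sum.inl 0)) (rc X (Sum.inl 1)) (rc X (Sum.inr 0)) (rc X (Sum.inr 1)) = true) :
    X = 1 := by
  simp only [isId, Bool.and_eq_true] at h
  obtain ⟨e0, e1, e2, e3⟩ := h
  obtain ⟨o0, o1, o2, o3⟩ := rc_one
  exact eq_of_rc ((Nat.eq_of_beq_eq_true e0).trans o0.symm)
    ((Nat.eq_of_beq_eq_true e1).trans o1.symm) ((Nat.eq_of_beq_eq_true e2).trans o2.symm)
    ((Nat.eq_of_beq_eq_true e3).trans o3.symm)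

lemma eq_neg_one_of_isNeg {X : M4}
    (h : isNeg (rc X (Sum.inl 0)) (rc X (Sum.inl 1)) (rc X (Sum.inr 0)) (rc X (Sum.inr 1)) = true) :
    X = -1 := by
  simp only [isNeg, Bool.and_eq_true] at h
  obtain ⟨e0, e1, e2, e3⟩ := h
  obtain ⟨o0, o1, o2, o3⟩ := rc_neg_one
  exact eq_of_rc ((Nat.eq_of_beq_eq_true e0).trans o0.symm)
    ((Nat.eq_of_beq_eq_true e1).trans o1.symm) ((Nat.eq_of_beq_eq_true e2).trans o2.symm)
    ((Nat.eq_of_beq_eq_true e3).trans o3.symm)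

lemma hzero {X : M4} (hX : X ∈ symplecticGroup (Fin 2) (ZMod 3)) (h0 : depth X = 0) : X = 1 := by
  have h := chkV_of_mem hX
  simp only [chkV, Bool.and_eq_true] at h
  obtain ⟨-, -, -, h4, -⟩ := h
  have hb : Nat.beq (Nat.mod (val X) 64) 0 = true := by
    have : Nat.mod (val X) 64 = 0 := h0
    rw [this]
    rfl
  simp only [hb, Bool.not_true, Bool.false_or] at h4
  exact eq_one_of_isId h4

set_option maxRecDepth 100000 in
lemma rowdec_inj_fin : ∀ y z : Fin 256, (∀ j : Fin 4, rowdec y.val j = rowdec z.val j) → y = z := by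
  decide +kernel

lemma rowdec_one : (∀ j : Fin 4, rowdec 1 j = (1 : N4) 0 j) ∧ (∀ j : Fin 4, rowdec 4 j = (1 : N4) 1 j) ∧
    (∀ j : Fin 4, rowdec 16 j = (1 : N4) 2 j) ∧ (∀ j : Fin 4, rowdec 64 j = (1 : N4) 3 j) := by
  decide

lemma dec_of_isOne {v : ℕ} (h : isOne v = true) : dec v = 1 := by
  simp only [isOne, Bool.and_eq_true] at h
  obtain ⟨e0, e1, e2, e3⟩ := h
  have e0 := Nat.eq_of_beq_eq_true e0
  have e1 := Nat.eq_of_beq_eq_true e1
  have e2 := Nat.eq_of_beq_eq_true e2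
  have e3 := Nat.eq_of_beq_eq_true e3
  obtain ⟨o0, o1, o2, o3⟩ := rowdec_one
  refine Matrix.ext fun i j => ?_
  fin_cases i
  · show rowdec (rs v 0) j = _
    rw [e0]; exact o0 j
  · show rowdec (rs v 1) j = _
    rw [e1]; exact o1 j
  · show rowdec (rs v 2) j = _
    rw [e2]; exact o2 j
  · show rowdec (rs v 3) j = _
    rw [e3]; exact o3 j

lemma isOne_of_dec {v : ℕ} (h : dec v = 1) : isOne v = true := by
  obtain ⟨o0, o1, o2, o3⟩ := rowdec_one
  have key : ∀ (i : Fin 4) (n : ℕ) (hn : n < 256), (∀ j : Fin 4, rowdec n j = (1 : N4) i j) →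
      rs v i.val = n := by
    intro i n hn ho
    have h1 : ∀ j : Fin 4, rowdec (rs v i.val) j = rowdec n j := by
      intro j
      rw [ho j, ← h]
      rfl
    have := rowdec_inj_fin ⟨rs v i.val, rs_lt _ _⟩ ⟨n, hn⟩ h1
    exact congrArg Fin.val this
  have e0 := key 0 1 (by norm_num) o0
  have e1 := key 1 4 (by norm_num) o1
  have e2 := key 2 16 (by norm_num) o2
  have e3 := key 3 64 (by norm_num) o3
  simp only [isOne, Bool.and_eq_true]
  change rs v 0 = 1 at e0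
  change rs v 1 = 4 at e1
  change rs v 2 = 16 at e2
  change rs v 3 = 64 at e3
  rw [e0, e1, e2, e3]
  exact ⟨rfl, rfl, rfl, rfl⟩

lemma hker {X : M4} (hX : X ∈ symplecticGroup (Fin 2) (ZMod 3)) (h1 : τ X = 1) :
    X = 1 ∨ X = -1 := by
  have h := chkV_of_mem hX
  simp only [chkV, Bool.and_eq_true] at h
  obtain ⟨-, -, -, -, h5⟩ := h
  have hb : isOne (val X) = true := isOne_of_dec h1
  simp only [hb, Bool.not_true, Bool.false_or, Bool.or_eq_true] at h5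
  rcases h5 with h5 | h5
  · exact Or.inl (eq_one_of_isId h5)
  · exact Or.inr (eq_neg_one_of_isNeg h5)

lemma val_one : val (1 : M4) = tv 27 9 3 1 := by
  obtain ⟨o0, o1, o2, o3⟩ := rc_one
  unfold val
  rw [o0, o1, o2, o3]

lemma val_neg_one : val (-1 : M4) = tv 54 18 6 2 := by
  obtain ⟨o0, o1, o2, o3⟩ := rc_neg_one
  unfold val
  rw [o0, o1, o2, o3]

lemma τ_one : τ 1 = 1 := by
  unfold τ
  rw [val_one]
  exact dec_of_isOne tv_one.1

lemma τ_neg_one : τ (-1) = 1 := by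
  unfold τ
  rw [val_neg_one]
  exact dec_of_isOne tv_neg

lemma hS1' {Z : M4} (hZ : Z ∈ symplecticGroup (Fin 2) (ZMod 3)) : τ (S1' * Z) = NS1 * τ Z := by
  have h := hS1 (mul_mem S1'_mem hZ)
  rw [← Matrix.mul_assoc, S1S1', Matrix.one_mul] at h
  rw [h, ← Matrix.mul_assoc, NS1MS1, Matrix.one_mul]

lemma hS2' {Z : M4} (hZ : Z ∈ symplecticGroup (Fin 2) (ZMod 3)) : τ (S2' * Z) = NS2 * τ Z := by
  have h := hS2 (mul_mem S2'_mem hZ)
  rw [← Matrix.mul_assoc, S2S2', Matrix.one_mul] at h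
  rw [h, ← Matrix.mul_assoc, NS2MS2, Matrix.one_mul]

/-- one descent step of the induction -/
lemma step (S S' : M4) (N : N4) (hS'S : S' * S = 1)
    (hSm : S ∈ symplecticGroup (Fin 2) (ZMod 3))
    (hN : ∀ Z : M4, Z ∈ symplecticGroup (Fin 2) (ZMod 3) → τ (S' * Z) = N * τ Z)
    (X Y : M4) (hX : X ∈ symplecticGroup (Fin 2) (ZMod 3))
    (hY : Y ∈ symplecticGroup (Fin 2) (ZMod 3))
    (ih : τ (S * X * Y) = τ (S * X) * τ Y) : τ (X * Y) = τ X * τ Y := by
  have hX₁ : S * X ∈ symplecticGroup (Fin 2) (ZMod 3) := mul_mem hSm hX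
  have e : X = S' * (S * X) := by rw [← Matrix.mul_assoc, hS'S, Matrix.one_mul]
  have e2 : X * Y = S' * (S * X * Y) := by
    rw [← Matrix.mul_assoc S', ← e]
  calc τ (X * Y) = τ (S' * (S * X * Y)) := by rw [← e2]
    _ = N * τ (S * X * Y) := hN _ (mul_mem hX₁ hY)
    _ = N * (τ (S * X) * τ Y) := by rw [ih]
    _ = (N * τ (S * X)) * τ Y := by rw [Matrix.mul_assoc]
    _ = τ (S' * (S * X)) * τ Y := by rw [hN _ hX₁]
    _ = τ X * τ Y := by rw [← e]

/-- multiplicativity of the table map on `Sp₄(3)` -/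
theorem τ_mul (X Y : M4) (hX : X ∈ symplecticGroup (Fin 2) (ZMod 3))
    (hY : Y ∈ symplecticGroup (Fin 2) (ZMod 3)) : τ (X * Y) = τ X * τ Y := by
  induction h : depth X using Nat.strong_induction_on generalizing X with
  | _ n ih =>
    rcases hdesc hX with h0 | hlt | hlt
    · rw [hzero hX h0, Matrix.one_mul, τ_one, Matrix.one_mul]
    · exact step S1 S1' NS1 S1'S1 S1_mem (fun Z hZ => hS1' hZ) X Y hX hY
        (ih _ (h ▸ hlt) (S1 * X) (mul_mem S1_mem hX) rfl)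
    · exact step S2 S2' NS2 S2'S2 S2_mem (fun Z hZ => hS2' hZ) X Y hX hY
        (ih _ (h ▸ hlt) (S2 * X) (mul_mem S2_mem hX) rfl)

instance gf4CharP : CharP GF4 2 :=
  (CharP.charP_iff_prime_eq_zero Nat.prime_two).2 (by decide)

/-- unitary of determinant one -/
def IsU (M : N4) : Prop := Mᵀ * M.map (· ^ 2) = 1 ∧ M.det = 1

lemma map_sq_mul (M N : N4) : (M * N).map (· ^ 2) = M.map (· ^ 2) * N.map (· ^ 2) := by
  have hfact : Fact (Nat.Prime 2) := ⟨Nat.prime_two⟩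
  refine Matrix.ext fun i j => ?_
  simp only [Matrix.map_apply, Matrix.mul_apply]
  rw [sum_pow_char]
  simp only [mul_pow]

lemma isU_mul {M N : N4} (hM : IsU M) (hN : IsU N) : IsU (M * N) := by
  constructor
  · rw [Matrix.transpose_mul, map_sq_mul, Matrix.mul_assoc, ← Matrix.mul_assoc Mᵀ, hM.1,
      Matrix.one_mul, hN.1]
  · rw [Matrix.det_mul, hM.2, hN.2, one_mul]

lemma isU_one : IsU 1 := by
  constructor
  · rw [Matrix.transpose_one, Matrix.one_mul]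
    refine Matrix.ext fun i j => ?_
    by_cases h : i = j <;> simp [Matrix.one_apply, h]
  · exact Matrix.det_one

lemma unit_NS1 : NS1ᵀ * NS1.map (· ^ 2) = 1 := by decide
lemma unit_NS2 : NS2ᵀ * NS2.map (· ^ 2) = 1 := by decide
lemma det_NS1 : NS1.det = 1 := by decide
lemma det_NS2 : NS2.det = 1 := by decide

lemma isU_NS1 : IsU NS1 := ⟨unit_NS1, det_NS1⟩
lemma isU_NS2 : IsU NS2 := ⟨unit_NS2, det_NS2⟩

/-- the table map takes values in `SU₄(2)` -/
theorem τ_isU (X : M4) (hX : X ∈ symplecticGroup (Fin 2) (ZMod 3)) : IsU (τ X) := by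
  induction h : depth X using Nat.strong_induction_on generalizing X with
  | _ n ih =>
    rcases hdesc hX with h0 | hlt | hlt
    · rw [hzero hX h0, τ_one]
      exact isU_one
    · have e : τ X = NS1 * τ (S1 * X) := by
        rw [← hS1' (mul_mem S1_mem hX), ← Matrix.mul_assoc, S1'S1, Matrix.one_mul]
      rw [e]
      exact isU_mul isU_NS1 (ih _ (h ▸ hlt) (S1 * X) (mul_mem S1_mem hX) rfl)
    · have e : τ X = NS2 * τ (S2 * X) := by
        rw [← hS2' (mul_mem S2_mem hX), ← Matrix.mul_assoc, S2'S2, Matrix.one_mul]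
      rw [e]
      exact isU_mul isU_NS2 (ih _ (h ▸ hlt) (S2 * X) (mul_mem S2_mem hX) rfl)

section generic

variable {F : Type*} [Field F]

/-- a matrix `M` with `Mᵀ * M^(2) = 1` preserves the Hermitian form, in characteristic 2 -/
theorem herm_of_unitary4 (h2 : (2 : F) = 0) (M : Matrix (Fin 4) (Fin 4) F)
    (hM : M.transpose * M.map (· ^ 2) = 1) (u v : Fin 4 → F) :
    Cfsg.hermForm 4 F 2 (M.mulVec u) (M.mulVec v) = Cfsg.hermForm 4 F 2 u v := by
  have hch : CharP F 2 := (CharP.charP_iff_prime_eq_zero Nat.prime_two).2 (by exact_mod_cast h2)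
  have hfact : Fact (Nat.Prime 2) := ⟨Nat.prime_two⟩
  have e2 : (fun k => (M.mulVec v) k ^ 2) = (M.map (· ^ 2)).mulVec (fun k => v k ^ 2) := by
    funext i
    simp only [Matrix.mulVec, dotProduct, Matrix.map_apply]
    rw [sum_pow_char]
    simp only [mul_pow]
  show dotProduct (M.mulVec u) (fun k => (M.mulVec v) k ^ 2) = dotProduct u (fun k => v k ^ 2)
  rw [e2, ← Matrix.vecMul_transpose, ← Matrix.dotProduct_mulVec, Matrix.mulVec_mulVec, hM,
    Matrix.one_mulVec]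

lemma two_eq_zero (e : GF4 ≃+* F) : (2 : F) = 0 := by
  have h : (2 : GF4) = 0 := by decide
  have h2 : e (2 : GF4) = e 0 := congrArg e h
  rw [map_zero, map_ofNat] at h2
  exact h2

lemma map_det_one (e : GF4 ≃+* F) {M : N4} (hM : IsU M) : (M.map e).det = 1 := by
  have h := RingHom.map_det e.toRingHom M
  rw [hM.2, map_one] at h
  exact h.symm

lemma map_unit (e : GF4 ≃+* F) {M : N4} (hM : IsU M) :
    (M.map e).transpose * (M.map e).map (· ^ 2) = 1 := by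
  have h1 : (M.map e).map (· ^ 2) = (M.map (· ^ 2)).map e := by
    ext i j
    simp
  rw [h1, ← Matrix.transpose_map, ← Matrix.map_mul, hM.1, Matrix.map_one _ (map_zero e)
    (map_one e)]

/-- the homomorphism `Sp₄(3) → SU₄(F)` for a field `F` with 4 elements -/
def homSU (e : GF4 ≃+* F) : symplecticGroup (Fin 2) (ZMod 3) →* Cfsg.SU 4 F 2 where
  toFun g := ⟨⟨(τ g.1).map e, map_det_one e (τ_isU g.1 g.2)⟩,
    fun u v => herm_of_unitary4 (two_eq_zero e) _ (map_unit e (τ_isU g.1 g.2)) u v⟩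
  map_one' := by
    apply Subtype.ext
    apply Subtype.ext
    show (τ (1 : M4)).map e = 1
    rw [τ_one, Matrix.map_one _ (map_zero e) (map_one e)]
  map_mul' g h := by
    apply Subtype.ext
    apply Subtype.ext
    show (τ (g.1 * h.1)).map e = (τ g.1).map e * (τ h.1).map e
    rw [τ_mul g.1 h.1 g.2 h.2, Matrix.map_mul]

lemma homSU_val (e : GF4 ≃+* F) (g : symplecticGroup (Fin 2) (ZMod 3)) :
    ((homSU e g).1.1 : Matrix (Fin 4) (Fin 4) F) = (τ g.1).map e := rfl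

lemma homSU_ker (e : GF4 ≃+* F) (g : symplecticGroup (Fin 2) (ZMod 3)) (h : homSU e g = 1) :
    g.1 = 1 ∨ g.1 = -1 := by
  have h1 : (τ g.1).map e = 1 := by
    rw [← homSU_val, h]
    rfl
  have h2 : τ g.1 = 1 := by
    have h3 : ((τ g.1).map e).map e.symm = (1 : Matrix (Fin 4) (Fin 4) F).map e.symm := by
      rw [h1]
    rw [Matrix.map_one _ (map_zero e.symm) (map_one e.symm)] at h3
    rw [← h3]
    refine Matrix.ext fun i j => ?_
    simp
  exact hker g.2 h2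

lemma homSU_neg (e : GF4 ≃+* F) (g : symplecticGroup (Fin 2) (ZMod 3)) (hg : g.1 = -1) :
    homSU e g = 1 := by
  apply Subtype.ext
  apply Subtype.ext
  show (τ g.1).map e = 1
  rw [hg, τ_neg_one, Matrix.map_one _ (map_zero e) (map_one e)]

end generic

end Cfsg.Agent.H6.U42
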