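import Mathlib
import Cfsg.Agent.H6.U42
import Cfsg.Agent.S0245
import Cfsg.Agent.S0279
import Cfsg.Agent.S0280

/-! `PSU₄(2) ≅ PSp₄(3)` (helper6). -/

set_option autoImplicit false

namespace Cfsg.Agent.H6.U42

open Matrix

/-- `PSU₄(2) ≅ PSp₄(3)` -/
theorem psu42_equiv_psp43 {F K : Type*} [Field F] [Fintype F] [Field K] [Fintype K]
    (hF : Fintype.card F = 4) (hK : Fintype.card K = 3) :
    Nonempty (Cfsg.PSU 4 F 2 ≃* Cfsg.PSp 2 K) := by
  classical
  have : Fact (Nat.Prime 3) := ⟨by norm_num⟩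
  let eK : ZMod 3 ≃+* K := ZMod.ringEquivOfPrime K (by norm_num) hK
  let eF : GF4 ≃+* F := FiniteField.ringEquivOfCardEq (by rw [card_gf4, hF])
  let ψ : symplecticGroup (Fin 2) K →* Cfsg.SU 4 F 2 :=
    (homSU eF).comp (spMapEquiv eK).symm.toMonoidHom
  have hcenter : ∀ g : symplecticGroup (Fin 2) K,
      g ∈ Subgroup.center (symplecticGroup (Fin 2) K) ↔ g = 1 ∨ g = spNegOne (Fin 2) K := by
    intro g
    rw [← SetLike.mem_coe, center_symplectic_eq]
    simp
  have hsymm : ∀ g : symplecticGroup (Fin 2) K,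
      ((spMapEquiv eK).symm.toMonoidHom g).1 = g.1.map eK.symm := fun g => rfl
  have hψ1 : ∀ g, ψ g = 1 ↔ g ∈ Subgroup.center (symplecticGroup (Fin 2) K) := by
    intro g
    rw [hcenter]
    constructor
    · intro h
      rcases homSU_ker eF _ h with h1 | h1
      · left
        have h2 : (spMapEquiv eK).symm g = 1 := Subtype.ext h1
        exact (MulEquiv.map_eq_one_iff _).mp h2
      · right
        apply Subtype.ext
        rw [hsymm] at h1
        show g.1 = -1
        refine Matrix.ext fun i j => ?_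
        have h3 := congrFun (congrFun h1 i) j
        simp only [Matrix.map_apply, Matrix.neg_apply, Matrix.one_apply] at h3 ⊢
        apply eK.symm.injective
        rw [h3]
        split_ifs <;> simp
    · rintro (rfl | rfl)
      · exact map_one ψ
      · apply homSU_neg
        rw [hsymm]
        show (-1 : Matrix (Fin 2 ⊕ Fin 2) (Fin 2 ⊕ Fin 2) K).map eK.symm = -1
        refine Matrix.ext fun i j => ?_
        simp only [Matrix.map_apply, Matrix.neg_apply, Matrix.one_apply]
        split_ifs <;> simp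
  have hc : Subgroup.center (symplecticGroup (Fin 2) K) ≤ ψ.ker := fun g hg =>
    MonoidHom.mem_ker.mpr ((hψ1 g).mpr hg)
  let φ : Cfsg.PSp 2 K →* Cfsg.SU 4 F 2 := QuotientGroup.lift _ ψ hc
  have hφ : Function.Injective φ := by
    rw [injective_iff_map_eq_one]
    intro x hx
    obtain ⟨g, rfl⟩ := QuotientGroup.mk_surjective x
    have h1 : ψ g = 1 := hx
    exact (QuotientGroup.eq_one_iff g).mpr ((hψ1 g).mp h1)
  have hZ : Subgroup.center (Cfsg.SU 4 F 2) = ⊥ := by
    apply Subgroup.eq_bot_of_card_eq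
    rw [Cfsg.Agent.S0279.result (q := 2) (by rw [hF]; norm_num) 4 (by norm_num)]
    rfl
  have hπ : Function.Injective (QuotientGroup.mk' (Subgroup.center (Cfsg.SU 4 F 2))) := by
    rw [injective_iff_map_eq_one]
    intro x hx
    have h1 := (QuotientGroup.eq_one_iff x).mp hx
    rwa [hZ, Subgroup.mem_bot] at h1
  have hcard : Nat.card (Cfsg.PSp 2 K) = Nat.card (Cfsg.PSU 4 F 2) := by
    have h1 := Cfsg.Agent.S0245.result hK 2
    have h2 : Nat.card (symplecticGroup (Fin 2) K) = 51840 := by
      rw [h1]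
      decide
    have h3 : Nat.card (Subgroup.center (symplecticGroup (Fin 2) K)) = 2 := by
      rw [card_center_symplectic (l := Fin 2) (F := K) hK]
      rfl
    have h4 := Subgroup.card_eq_card_quotient_mul_card_subgroup
      (Subgroup.center (symplecticGroup (Fin 2) K))
    rw [h2, h3] at h4
    have h5 := Cfsg.Agent.S0280.result (F := F) (q := 2) (by rw [hF]; norm_num) 4 (by norm_num)
    have h6 : Nat.gcd 4 (2 + 1) * ((2 + 1) * Nat.card (Cfsg.PSU 4 F 2)) = 77760 := by
      rw [h5]
      decide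
    have h7 : Nat.gcd 4 (2 + 1) = 1 := by decide
    rw [h7] at h6
    change 51840 = Nat.card (Cfsg.PSp 2 K) * 2 at h4
    omega
  obtain ⟨E⟩ := nonempty_mulEquiv_of_injective_of_card
    ((QuotientGroup.mk' (Subgroup.center (Cfsg.SU 4 F 2))).comp φ) (hπ.comp hφ) hcard
  exact ⟨E.symm⟩

end Cfsg.Agent.H6.U42
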